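import Mathlib
import Cfsg.Agent.Lib.Asch.Group
import Cfsg.Agent.Lib.Classical.SLBasic

/-! Linear groups generated by transvections: calculus, hypotheses, spanning and rationality.
See `plans/TVN.md`. -/

set_option autoImplicit false

namespace CfsgLib.TvN

open Matrix Cfsg Cfsg.Geo CfsgLib.Asch
open scoped MatrixGroups commutatorElement

variable {ι : Type} [Fintype ι] [DecidableEq ι] {F : Type*} [Field F]

/-! ### Rank one matrices -/

section RankOne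

omit [DecidableEq ι] in
theorem vv_mul_vv (v φ w ψ : ι → F) :
    vecMulVec v φ * vecMulVec w ψ = (φ ⬝ᵥ w) • vecMulVec v ψ := by
  rw [vecMulVec_mul_vecMulVec, vecMulVec_smul]

omit [DecidableEq ι] in
theorem vv_mulVec (v φ w : ι → F) : vecMulVec v φ *ᵥ w = (φ ⬝ᵥ w) • v := by
  rw [vecMulVec_mulVec, op_smul_eq_smul]

theorem one_add_mulVec (v φ w : ι → F) : (1 + vecMulVec v φ) *ᵥ w = w + (φ ⬝ᵥ w) • v := by
  rw [add_mulVec, one_mulVec, vv_mulVec]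

theorem vecMul_one_add (v φ ψ : ι → F) : ψ ᵥ* (1 + vecMulVec v φ) = ψ + (ψ ⬝ᵥ v) • φ := by
  rw [vecMul_add, vecMul_one, vecMul_vecMulVec]

theorem cj_one_add (B : GL ι F) (v φ : ι → F) : cj B (1 + vecMulVec v φ) =
    1 + vecMulVec ((B : Matrix ι ι F) *ᵥ v) (φ ᵥ* ((B⁻¹ : GL ι F) : Matrix ι ι F)) := by
  rw [map_add, map_one, cj_apply, Matrix.mul_vecMulVec, Matrix.vecMulVec_mul]

theorem dot_cj (B : GL ι F) (v φ : ι → F) :
    (φ ᵥ* ((B⁻¹ : GL ι F) : Matrix ι ι F)) ⬝ᵥ ((B : Matrix ι ι F) *ᵥ v) = φ ⬝ᵥ v := by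
  rw [← Matrix.dotProduct_mulVec, inv_mulVec_mulVec]

theorem vecMul_vecMul_inv (B : GL ι F) (φ : ι → F) :
    (φ ᵥ* (B : Matrix ι ι F)) ᵥ* ((B⁻¹ : GL ι F) : Matrix ι ι F) = φ := by
  rw [vecMul_vecMul, Units.mul_inv, vecMul_one]

theorem vecMul_inv_vecMul (B : GL ι F) (φ : ι → F) :
    (φ ᵥ* ((B⁻¹ : GL ι F) : Matrix ι ι F)) ᵥ* (B : Matrix ι ι F) = φ := by
  rw [vecMul_vecMul, Units.inv_mul, vecMul_one]

theorem mulVec_ne_zero (x : GL ι F) {v : ι → F} (hv : v ≠ 0) : (x : Matrix ι ι F) *ᵥ v ≠ 0 :=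
  fun e => hv (by rw [← inv_mulVec_mulVec x v, e, mulVec_zero])

theorem vecMul_ne_zero (x : GL ι F) {φ : ι → F} (hv : φ ≠ 0) : φ ᵥ* (x : Matrix ι ι F) ≠ 0 :=
  fun e => hv (by rw [← vecMul_vecMul_inv x φ, e, zero_vecMul])

omit [DecidableEq ι] in
theorem ne_zero_of_dot_left {φ v : ι → F} (h : φ ⬝ᵥ v ≠ 0) : φ ≠ 0 := fun e => h (by simp [e])

omit [DecidableEq ι] in
theorem ne_zero_of_dot_right {φ v : ι → F} (h : φ ⬝ᵥ v ≠ 0) : v ≠ 0 := fun e => h (by simp [e])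

theorem eq_zero_of_forall_dot {φ : ι → F} (h : ∀ x, φ ⬝ᵥ x = 0) : φ = 0 :=
  funext fun i => by simpa using h (Pi.single i 1)

theorem exists_dot_ne {φ : ι → F} (h : φ ≠ 0) : ∃ x, φ ⬝ᵥ x ≠ 0 := by
  by_contra! hc
  exact h (eq_zero_of_forall_dot hc)

omit [DecidableEq ι] [Fintype ι] in
theorem parallel_of_vv_eq {v φ w ψ : ι → F} (h : vecMulVec v φ = vecMulVec w ψ) (hv : v ≠ 0)
    (hφ : φ ≠ 0) : ∃ c : F, c ≠ 0 ∧ v = c • w ∧ ψ = c • φ := by
  have h0 : vecMulVec v φ ≠ 0 := fun e => (vecMulVec_eq_zero.1 e).elim hv hφ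
  have hw : w ≠ 0 := fun e => h0 (by simp [h, e])
  obtain ⟨j, hj⟩ := Function.ne_iff.1 hφ
  simp only [Pi.zero_apply] at hj
  have e : ∀ i l, v i * φ l = w i * ψ l := fun i l => congrFun (congrFun h i) l
  have hvw : v = (ψ j / φ j) • w := funext fun i => by
    rw [Pi.smul_apply, smul_eq_mul]
    field_simp
    linear_combination e i j
  refine ⟨ψ j / φ j, fun h' => hv (by rw [hvw, h', zero_smul]), hvw, funext fun l => ?_⟩
  obtain ⟨i, hi⟩ := Function.ne_iff.1 hw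
  simp only [Pi.zero_apply] at hi
  have := e i l
  rw [hvw, Pi.smul_apply, smul_eq_mul] at this
  rw [Pi.smul_apply, smul_eq_mul]
  exact mul_left_cancel₀ hi (by linear_combination -this)

/-- the hyperplane `φ ⬝ᵥ x = 0` -/
def hyp (φ : ι → F) : Submodule F (ι → F) where
  carrier := {x | φ ⬝ᵥ x = 0}
  add_mem' {a b} ha hb := by simp only [Set.mem_ofPred_eq] at *; rw [dotProduct_add, ha, hb, add_zero]
  zero_mem' := by simp
  smul_mem' c x hx := by simp only [Set.mem_ofPred_eq] at *; rw [dotProduct_smul, hx, smul_zero]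

omit [DecidableEq ι] in
theorem mem_hyp {φ x : ι → F} : x ∈ hyp φ ↔ φ ⬝ᵥ x = 0 := Iff.rfl

theorem eq_zero_of_span {S : Set (ι → F)} (hS : Submodule.span F S = ⊤) {φ : ι → F}
    (h : ∀ x ∈ S, φ ⬝ᵥ x = 0) : φ = 0 :=
  eq_zero_of_forall_dot fun _ =>
    (Submodule.span_le.2 (fun _ hx => h _ hx) : Submodule.span F S ≤ hyp φ) (hS ▸ Submodule.mem_top)

end RankOne

/-! ### The calculus of transvections -/

variable {P : Subgroup (GL ι F)} {K : Subfield F} {v φ w ψ : ι → F}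

/-- the transvection `1 + v φ` (possibly trivial) lies in `P` -/
def Tv (P : Subgroup (GL ι F)) (v φ : ι → F) : Prop :=
  φ ⬝ᵥ v = 0 ∧ 1 + vecMulVec v φ ∈ matrixSet P

theorem tv_mul_neg (h : φ ⬝ᵥ v = 0) : (1 + vecMulVec v φ) * (1 + vecMulVec v (-φ)) = 1 := by
  simp only [add_mul, mul_add, one_mul, mul_one, vv_mul_vv, h, zero_smul, vecMulVec_neg, mul_neg]
  abel

/-- the transvection `1 + v φ` -/
def tvGL (v φ : ι → F) (h : φ ⬝ᵥ v = 0) : GL ι F :=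
  ⟨1 + vecMulVec v φ, 1 + vecMulVec v (-φ), tv_mul_neg h, by
    have := tv_mul_neg (φ := -φ) (v := v) (by rw [neg_dotProduct, h, neg_zero])
    rwa [neg_neg] at this⟩

theorem coe_tvGL (h : φ ⬝ᵥ v = 0) : (tvGL v φ h : Matrix ι ι F) = 1 + vecMulVec v φ := rfl

theorem coe_tvGL_inv (h : φ ⬝ᵥ v = 0) :
    (((tvGL v φ h)⁻¹ : GL ι F) : Matrix ι ι F) = 1 + vecMulVec v (-φ) := rfl

theorem tvGL_mulVec (h : φ ⬝ᵥ v = 0) (x : ι → F) :
    (tvGL v φ h : Matrix ι ι F) *ᵥ x = x + (φ ⬝ᵥ x) • v := one_add_mulVec _ _ _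

theorem vecMul_tvGL (h : φ ⬝ᵥ v = 0) (ξ : ι → F) :
    ξ ᵥ* (tvGL v φ h : Matrix ι ι F) = ξ + (ξ ⬝ᵥ v) • φ := vecMul_one_add _ _ _

theorem vecMul_tvGL_inv (h : φ ⬝ᵥ v = 0) (ξ : ι → F) :
    ξ ᵥ* (((tvGL v φ h)⁻¹ : GL ι F) : Matrix ι ι F) = ξ - (ξ ⬝ᵥ v) • φ := by
  rw [coe_tvGL_inv, vecMul_one_add, smul_neg, sub_eq_add_neg]

theorem Tv.mem (h : Tv P v φ) : tvGL v φ h.1 ∈ P := by
  obtain ⟨x, hx, e⟩ := h.2
  exact (Units.ext e : x = tvGL v φ h.1) ▸ hx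

theorem tv_of_mem {x : GL ι F} (hx : x ∈ P) (h0 : φ ⬝ᵥ v = 0)
    (e : (x : Matrix ι ι F) = 1 + vecMulVec v φ) : Tv P v φ := ⟨h0, x, hx, e⟩

theorem tv_zero_right (P : Subgroup (GL ι F)) (v : ι → F) : Tv P v 0 :=
  tv_of_mem P.one_mem (by simp) (by simp)

theorem tv_zero_left (P : Subgroup (GL ι F)) (φ : ι → F) : Tv P 0 φ :=
  tv_of_mem P.one_mem (by simp) (by simp)

theorem Tv.mono {P' : Subgroup (GL ι F)} (h : Tv P v φ) (hle : P ≤ P') : Tv P' v φ :=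
  ⟨h.1, matrixSet_mono hle h.2⟩

theorem tv_smul_iff {c : F} : Tv P (c • v) φ ↔ Tv P v (c • φ) := by
  rw [Tv, Tv, dotProduct_smul, smul_dotProduct, smul_vecMulVec, vecMulVec_smul]

theorem Tv.congr {v' φ' : ι → F} (h : Tv P v φ) (e1 : v = v') (e2 : φ = φ') : Tv P v' φ' :=
  e1 ▸ e2 ▸ h

theorem Tv.neg (h : Tv P v φ) : Tv P v (-φ) :=
  tv_of_mem (P.inv_mem h.mem) (by rw [neg_dotProduct, h.1, neg_zero]) rfl

theorem Tv.neg' (h : Tv P v φ) : Tv P (-v) φ := by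
  have := h.neg
  rwa [← neg_one_smul F φ, ← tv_smul_iff, neg_one_smul] at this

theorem Tv.add (h1 : Tv P v φ) (h2 : Tv P v ψ) : Tv P v (φ + ψ) :=
  tv_of_mem (P.mul_mem h1.mem h2.mem) (by rw [add_dotProduct, h1.1, h2.1, add_zero]) (by
    rw [Units.val_mul, coe_tvGL, coe_tvGL]
    simp only [add_mul, mul_add, one_mul, mul_one, vv_mul_vv, h1.1, zero_smul, vecMulVec_add]
    abel)

theorem Tv.sub (h1 : Tv P v φ) (h2 : Tv P v ψ) : Tv P v (φ - ψ) := by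
  rw [sub_eq_add_neg]; exact h1.add h2.neg

theorem Tv.add' (h1 : Tv P v φ) (h2 : Tv P w φ) : Tv P (v + w) φ :=
  tv_of_mem (P.mul_mem h1.mem h2.mem) (by rw [dotProduct_add, h1.1, h2.1, add_zero]) (by
    rw [Units.val_mul, coe_tvGL, coe_tvGL]
    simp only [add_mul, mul_add, one_mul, mul_one, vv_mul_vv, h2.1, zero_smul, add_vecMulVec]
    abel)

theorem Tv.sub' (h1 : Tv P v φ) (h2 : Tv P w φ) : Tv P (v - w) φ := by
  rw [sub_eq_add_neg]; exact h1.add' h2.neg'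

theorem Tv.nsmul (h : Tv P v φ) (n : ℕ) : Tv P v ((n : F) • φ) := by
  induction n with
  | zero => simpa using tv_zero_right P v
  | succ n ih => rw [Nat.cast_succ, add_smul, one_smul]; exact ih.add h

theorem Tv.conj (h : Tv P v φ) {x : GL ι F} (hx : x ∈ P) :
    Tv P ((x : Matrix ι ι F) *ᵥ v) (φ ᵥ* ((x⁻¹ : GL ι F) : Matrix ι ι F)) :=
  tv_of_mem (P.mul_mem (P.mul_mem hx h.mem) (P.inv_mem hx)) (by rw [dot_cj, h.1])
    (by rw [← cj_coe, coe_tvGL, cj_one_add])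

/-- conjugation by a transvection -/
theorem Tv.conj_tv (h : Tv P v φ) (h' : Tv P w ψ) :
    Tv P (v + (ψ ⬝ᵥ v) • w) (φ - (φ ⬝ᵥ w) • ψ) := by
  have := h.conj h'.mem
  rwa [tvGL_mulVec, vecMul_tvGL_inv] at this

/-- the commutator of a nilpotent pair -/
theorem Tv.comm (h : Tv P v φ) (h' : Tv P w ψ) (h0 : ψ ⬝ᵥ v = 0) : Tv P v ((φ ⬝ᵥ w) • ψ) := by
  have := h.conj_tv h'
  rw [h0, zero_smul, add_zero] at this
  simpa using h.sub this

theorem conj_tvGL (x : GL ι F) (h : φ ⬝ᵥ v = 0) : x * tvGL v φ h * x⁻¹ =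
    tvGL ((x : Matrix ι ι F) *ᵥ v) (φ ᵥ* ((x⁻¹ : GL ι F) : Matrix ι ι F)) (by rw [dot_cj, h]) :=
  Units.ext (by rw [← cj_coe, coe_tvGL, cj_one_add, coe_tvGL])

/-- equality of two non-trivial transvections -/
theorem parallel_of_tvGL_eq {h : φ ⬝ᵥ v = 0} {h' : ψ ⬝ᵥ w = 0} (e : tvGL v φ h = tvGL w ψ h')
    (hv : v ≠ 0) (hφ : φ ≠ 0) : ∃ c : F, c ≠ 0 ∧ v = c • w ∧ ψ = c • φ :=
  parallel_of_vv_eq (add_left_cancel (congrArg Units.val e)) hv hφ

/-- the whole `K`-root group of the non-degenerate pair `(v, φ)` lies in `P` -/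
def SK (P : Subgroup (GL ι F)) (K : Subfield F) (v φ : ι → F) : Prop :=
  v ≠ 0 ∧ φ ≠ 0 ∧ ∀ c ∈ K, Tv P v (c • φ)

theorem SK.tv (h : SK P K v φ) : Tv P v φ := by simpa using h.2.2 1 K.one_mem

theorem SK.dot (h : SK P K v φ) : φ ⬝ᵥ v = 0 := h.tv.1

theorem SK.congr {v' φ' : ι → F} (h : SK P K v φ) (e1 : v = v') (e2 : φ = φ') : SK P K v' φ' :=
  e1 ▸ e2 ▸ h

theorem SK.smul (h : SK P K v φ) {c : F} (hc : c ∈ K) (h0 : c ≠ 0) : SK P K v (c • φ) :=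
  ⟨h.1, smul_ne_zero h0 h.2.1, fun d hd => by
    rw [smul_smul]; exact h.2.2 _ (K.mul_mem hd hc)⟩

theorem sk_smul_iff {c : F} (hc : c ≠ 0) : SK P K (c • v) φ ↔ SK P K v (c • φ) := by
  simp only [SK, tv_smul_iff, smul_smul, mul_comm c, ne_eq, smul_eq_zero, hc, false_or]

/-- rescaling a pair -/
theorem SK.scale (h : SK P K v φ) {c : F} (hc : c ≠ 0) : SK P K (c • v) (c⁻¹ • φ) := by
  rwa [sk_smul_iff hc, smul_smul, mul_inv_cancel₀ hc, one_smul]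

theorem SK.neg (h : SK P K v φ) : SK P K v (-φ) := by
  simpa using h.smul (K.neg_mem K.one_mem) (by simp)

theorem SK.add (h1 : SK P K v φ) (h2 : SK P K v ψ) (h0 : φ + ψ ≠ 0) : SK P K v (φ + ψ) :=
  ⟨h1.1, h0, fun c hc => by rw [smul_add]; exact (h1.2.2 c hc).add (h2.2.2 c hc)⟩

theorem SK.add' (h1 : SK P K v φ) (h2 : SK P K w φ) (h0 : v + w ≠ 0) : SK P K (v + w) φ :=
  ⟨h0, h1.2.1, fun c hc => (h1.2.2 c hc).add' (h2.2.2 c hc)⟩

theorem SK.conj (h : SK P K v φ) {x : GL ι F} (hx : x ∈ P) :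
    SK P K ((x : Matrix ι ι F) *ᵥ v) (φ ᵥ* ((x⁻¹ : GL ι F) : Matrix ι ι F)) :=
  ⟨mulVec_ne_zero x h.1, vecMul_ne_zero x⁻¹ h.2.1, fun c hc => by
    rw [← smul_vecMul]; exact (h.2.2 c hc).conj hx⟩

theorem SK.conj_tv (h : SK P K v φ) (h' : Tv P w ψ) :
    SK P K (v + (ψ ⬝ᵥ v) • w) (φ - (φ ⬝ᵥ w) • ψ) := by
  have := h.conj h'.mem
  rwa [tvGL_mulVec, vecMul_tvGL_inv] at this

/-- conjugation by the element of parameter `c` of a root group -/
theorem SK.conj_c (h : SK P K v φ) (h' : SK P K w ψ) {c : F} (hc : c ∈ K) :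
    SK P K (v + (c * ψ ⬝ᵥ v) • w) (φ - (c * φ ⬝ᵥ w) • ψ) := by
  have := h.conj_tv (h'.2.2 c hc)
  rwa [smul_dotProduct, smul_eq_mul, smul_smul, mul_comm (φ ⬝ᵥ w)] at this

theorem SK.comm (h : SK P K v φ) (h' : SK P K w ψ) (h0 : ψ ⬝ᵥ v = 0) (h1 : φ ⬝ᵥ w ≠ 0) :
    SK P K v ((φ ⬝ᵥ w) • ψ) :=
  ⟨h.1, smul_ne_zero h1 h'.2.1, fun c hc => by
    have := (h.2.2 c hc).comm h'.tv h0
    rwa [smul_dotProduct, smul_eq_mul, ← smul_smul] at this⟩

theorem mem_bot_iff_nat [Finite F] {c : F} : c ∈ (⊥ : Subfield F) ↔ ∃ n : ℕ, (n : F) = c := by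
  refine ⟨fun hc => ?_, fun ⟨n, e⟩ => e ▸ natCast_mem _ n⟩
  obtain ⟨p, hp⟩ := CharP.exists F
  have : Fact p.Prime := ⟨CharP.char_is_prime F p⟩
  have : c ∈ (ZMod.castHom (dvd_refl p) F).fieldRange :=
    (bot_le : (⊥ : Subfield F) ≤ _) hc
  obtain ⟨z, rfl⟩ := this
  exact ⟨z.val, by simp [ZMod.natCast_val]⟩

theorem mem_bot_iff_two [Finite F] (h2 : (2 : F) = 0) {c : F} :
    c ∈ (⊥ : Subfield F) ↔ c = 0 ∨ c = 1 := by
  refine ⟨fun hc => ?_, fun h => h.elim (fun e => e ▸ zero_mem _) fun e => e ▸ one_mem _⟩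
  obtain ⟨n, rfl⟩ := mem_bot_iff_nat.1 hc
  clear hc
  induction n with
  | zero => simp
  | succ n ih =>
    rw [Nat.cast_succ]
    rcases ih with e | e
    · simp [e]
    · exact Or.inl (by rw [e]; linear_combination h2)

theorem sk_bot_iff [Finite F] : SK P ⊥ v φ ↔ v ≠ 0 ∧ φ ≠ 0 ∧ Tv P v φ :=
  ⟨fun h => ⟨h.1, h.2.1, h.tv⟩, fun h => ⟨h.1, h.2.1, fun c hc => by
    obtain ⟨n, rfl⟩ := mem_bot_iff_nat.1 hc
    exact h.2.2.nsmul n⟩⟩

/-! ### Predicates -/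

/-- all products `φ(w) ψ(v)` lie in `K` -/
def Wk (P : Subgroup (GL ι F)) (K : Subfield F) : Prop :=
  ∀ ⦃v φ w ψ : ι → F⦄, SK P K v φ → SK P K w ψ → φ ⬝ᵥ w * ψ ⬝ᵥ v ∈ K

/-- no nilpotent pairs -/
def NoNil (P : Subgroup (GL ι F)) (K : Subfield F) : Prop :=
  ∀ ⦃v φ w ψ : ι → F⦄, SK P K v φ → SK P K w ψ → φ ⬝ᵥ w = 0 → ψ ⬝ᵥ v = 0

/-- the centre `v` has two independent axes -/
def Two (P : Subgroup (GL ι F)) (K : Subfield F) (v : ι → F) : Prop :=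
  ∃ φ ψ, SK P K v φ ∧ SK P K v ψ ∧ ∀ c : F, ψ ≠ c • φ

/-- all root groups have order two -/
def Small (P : Subgroup (GL ι F)) : Prop :=
  ∀ ⦃v φ : ι → F⦄ ⦃c : F⦄, v ≠ 0 → φ ≠ 0 → Tv P v φ → Tv P v (c • φ) → c = 0 ∨ c = 1

/-- the span of the axes at `x` -/
def Lx (P : Subgroup (GL ι F)) (K : Subfield F) (x : ι → F) : Submodule F (ι → F) :=
  Submodule.span F {φ | SK P K x φ}

/-- for opposite pairs the axes at `x` through `y` lie in the span of the axes at `y` -/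
def CJ (P : Subgroup (GL ι F)) (K : Subfield F) : Prop :=
  ∀ ⦃x φ y η : ι → F⦄, SK P K x φ → SK P K y η → φ ⬝ᵥ y ≠ 0 → η ⬝ᵥ x ≠ 0 →
    ∀ ω ∈ Lx P K x, ω ⬝ᵥ y = 0 → ω ∈ Lx P K y

/-- characteristic two, every centre has one axis and every axis one centre -/
structure S2 (P : Subgroup (GL ι F)) : Prop where
  two : (2 : F) = 0
  ua : ∀ ⦃v φ ψ : ι → F⦄, SK P ⊥ v φ → SK P ⊥ v ψ → ψ = φ
  uc : ∀ ⦃v w φ : ι → F⦄, SK P ⊥ v φ → SK P ⊥ w φ → w = v

/-- the unitary conclusion: `P` fixes the unitary form `f` and its root groups are unitary root groups -/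
structure UF (P : Subgroup (GL ι F)) (K : Subfield F) (σ : F ≃+* F)
    (f : (ι → F) → (ι → F) → F) : Prop where
  form : IsUnitaryForm σ f
  fix : FixesForm (matrixSet P) f
  fixed : ∀ a, σ a = a ↔ a ∈ K
  root : ∀ ⦃u χ : ι → F⦄, SK P K u χ → ∃ c : F, c ≠ 0 ∧ σ c = -c ∧ ∀ x, χ ⬝ᵥ x = c * f x u
  asym : ∃ x φ y η z ζ, SK P K x φ ∧ SK P K y η ∧ SK P K z ζ ∧
    f x y * f y z * f z x + f x z * f z y * f y x ≠ 0

/-- a monomial frame: `P` contains the transvections `(12, 1)`, `(12, ζ)`, `(13, 1)` -/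
structure Fr3 (P : Subgroup (GL ι F)) (ζ : F) (e₁ e₂ e₃ ε₁ ε₂ ε₃ : ι → F) : Prop where
  z0 : ζ ≠ 0
  z1 : ζ ≠ 1
  z3 : ζ ^ 2 + ζ + 1 ≠ 0
  d11 : ε₁ ⬝ᵥ e₁ = 1
  d12 : ε₁ ⬝ᵥ e₂ = 0
  d13 : ε₁ ⬝ᵥ e₃ = 0
  d21 : ε₂ ⬝ᵥ e₁ = 0
  d22 : ε₂ ⬝ᵥ e₂ = 1
  d23 : ε₂ ⬝ᵥ e₃ = 0
  d31 : ε₃ ⬝ᵥ e₁ = 0
  d32 : ε₃ ⬝ᵥ e₂ = 0
  d33 : ε₃ ⬝ᵥ e₃ = 1
  s1 : SK P ⊥ (e₁ + e₂) (ε₁ + ε₂)
  s2 : SK P ⊥ (e₁ + ζ • e₂) (ε₁ + ζ⁻¹ • ε₂)
  s3 : SK P ⊥ (e₁ + e₃) (ε₁ + ε₃)

/-- every isotropic point is a centre -/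
def Full (P : Subgroup (GL ι F)) (K : Subfield F) (f : (ι → F) → (ι → F) → F) : Prop :=
  ∀ u, u ≠ 0 → f u u = 0 → ∃ χ, SK P K u χ

theorem noNil_of_not_two (h : ∀ v, ¬ Two P K v) : NoNil P K := fun v φ w ψ h1 h2 h0 => by
  by_contra hb
  refine h w ⟨ψ, _, h2, h2.comm h1 h0 hb, fun c e => ?_⟩
  have := congrArg (· ⬝ᵥ v) e
  simp only [smul_dotProduct, h1.dot, smul_eq_mul, mul_zero] at this
  rw [(mul_eq_zero.1 this.symm).resolve_right hb, zero_smul] at e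
  exact smul_ne_zero hb h1.2.1 e

theorem S2.noNil (h : S2 P) : NoNil P ⊥ :=
  noNil_of_not_two fun _ ⟨_, _, h1, h2, h3⟩ => h3 1 (by rw [h.ua h1 h2, one_smul])

theorem S2.mono {P' : Subgroup (GL ι F)} (h : S2 P) (hle : P' ≤ P) : S2 P' :=
  have m : ∀ {v φ : ι → F}, SK P' ⊥ v φ → SK P ⊥ v φ := fun h =>
    ⟨h.1, h.2.1, fun c hc => (h.2.2 c hc).mono hle⟩
  ⟨h.two, fun _ _ _ h1 h2 => h.ua (m h1) (m h2), fun _ _ _ h1 h2 => h.uc (m h1) (m h2)⟩

/-- the pointwise stabiliser of a set of vectors -/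
def fixV (S : Set (ι → F)) : Subgroup (GL ι F) where
  carrier := {g | ∀ z ∈ S, (g : Matrix ι ι F) *ᵥ z = z}
  mul_mem' {a b} ha hb z hz := by rw [Units.val_mul, ← mulVec_mulVec, hb z hz, ha z hz]
  one_mem' z _ := by simp
  inv_mem' {a} ha z hz := by
    conv_lhs => rw [← ha z hz]
    exact inv_mulVec_mulVec a z

/-- the pointwise stabiliser of a set of forms -/
def fixD (S : Set (ι → F)) : Subgroup (GL ι F) where
  carrier := {g | ∀ ω ∈ S, ω ᵥ* (g : Matrix ι ι F) = ω}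
  mul_mem' {a b} ha hb z hz := by rw [Units.val_mul, ← vecMul_vecMul, ha z hz, hb z hz]
  one_mem' z _ := by simp
  inv_mem' {a} ha z hz := by
    conv_lhs => rw [← ha z hz]
    exact vecMul_vecMul_inv a z

theorem Tv.inf_fixV (h : Tv P v φ) {S : Set (ι → F)} (hS : ∀ z ∈ S, φ ⬝ᵥ z = 0) :
    Tv (P ⊓ fixV S) v φ :=
  tv_of_mem (x := tvGL v φ h.1) ⟨h.mem, fun z hz => by rw [tvGL_mulVec, hS z hz]; simp⟩ h.1 rfl

theorem Tv.inf_fixD (h : Tv P v φ) {S : Set (ι → F)} (hS : ∀ ω ∈ S, ω ⬝ᵥ v = 0) :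
    Tv (P ⊓ fixD S) v φ :=
  tv_of_mem (x := tvGL v φ h.1) ⟨h.mem, fun z hz => by rw [vecMul_tvGL, hS z hz]; simp⟩ h.1 rfl

/-! ### The standing hypothesis -/

/-- quasisimple, irreducible on vectors and on forms, not realisable over a proper subfield -/
structure Hy (P : Subgroup (GL ι F)) : Prop where
  sl : P ≤ specialLinear ι F
  norm : ∀ N : Subgroup (GL ι F), N ≤ P → Nrm P N → N = P ∨ N ≤ scalars ι F
  irr : ∀ W : Submodule F (ι → F), (∀ g ∈ P, ∀ w ∈ W, (g : Matrix ι ι F) *ᵥ w ∈ W) →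
    W = ⊥ ∨ W = ⊤
  irr' : ∀ W : Submodule F (ι → F), (∀ g ∈ P, ∀ w ∈ W, w ᵥ* (g : Matrix ι ι F) ∈ W) →
    W = ⊥ ∨ W = ⊤
  nosub : ∀ F₀ : Subfield F, F₀ ≠ ⊤ → ¬ RealisableOver F₀ (matrixSet P)

theorem tvGL_not_mem_scalars (h : φ ⬝ᵥ v = 0) (hv : v ≠ 0) (hφ : φ ≠ 0) :
    tvGL v φ h ∉ scalars ι F := fun hs => by
  obtain ⟨c, hc⟩ := (mem_scalars_iff _).1 hs
  have e : ∀ x, x + (φ ⬝ᵥ x) • v = (c : F) • x := fun x => by
    rw [← tvGL_mulVec h, hc, smul_mulVec, one_mulVec]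
  have c1 : (c : F) = 1 := by
    have := e v
    rw [h, zero_smul, add_zero] at this
    exact (smul_left_injective F hv (by simpa using this.symm) : (c : F) = 1)
  obtain ⟨x, hx⟩ := exists_dot_ne hφ
  have := e x
  rw [c1, one_smul, add_eq_left] at this
  exact smul_ne_zero hx hv this

/-- the root groups generate `P` -/
theorem Hy.le_of_sk (hP : Hy P) (hne : ∃ v φ, SK P K v φ) {H : Subgroup (GL ι F)}
    (hH : ∀ v φ (h : SK P K v φ), tvGL v φ h.dot ∈ H) : P ≤ H := by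
  let T : Set (GL ι F) := {x | ∃ v φ, ∃ h : SK P K v φ, x = tvGL v φ h.dot}
  have hT : ∀ {H : Subgroup (GL ι F)}, (∀ v φ (h : SK P K v φ), tvGL v φ h.dot ∈ H) →
      Subgroup.closure T ≤ H := fun {H} hH => (Subgroup.closure_le _).2 (by
    rintro x ⟨v, φ, h, rfl⟩
    exact hH v φ h)
  rcases hP.norm _ (hT fun v φ h => h.tv.mem) (fun g hg x hx => by
    refine Subgroup.closure_induction (p := fun x _ => g * x * g⁻¹ ∈ Subgroup.closure T)
      ?_ (by simp) (fun a b _ _ ha hb => ?_) (fun a _ ha => ?_) hx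
    · rintro x ⟨v, φ, h, rfl⟩
      exact Subgroup.subset_closure ⟨_, _, h.conj hg, conj_tvGL g h.dot⟩
    · rw [show g * (a * b) * g⁻¹ = (g * a * g⁻¹) * (g * b * g⁻¹) by group]
      exact mul_mem ha hb
    · rw [show g * a⁻¹ * g⁻¹ = (g * a * g⁻¹)⁻¹ by group]
      exact inv_mem ha) with e | e
  · exact e ▸ hT hH
  · obtain ⟨v, φ, h⟩ := hne
    exact absurd (e (Subgroup.subset_closure ⟨v, φ, h, rfl⟩))
      (tvGL_not_mem_scalars h.dot h.1 h.2.1)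

/-- a non-zero subspace invariant under all root groups is everything -/
theorem Hy.span_c (hP : Hy P) (hne : ∃ v φ, SK P K v φ) {W : Submodule F (ι → F)} (hW : W ≠ ⊥)
    (h : ∀ u χ, SK P K u χ → ∀ w ∈ W, χ ⬝ᵥ w ≠ 0 → u ∈ W) : W = ⊤ := by
  have hle : P ≤ subspaceStabilizer W := hP.le_of_sk hne fun u χ hu => by
    have k : ∀ w ∈ W, (χ ⬝ᵥ w) • u ∈ W := fun w hw => by
      by_cases e : χ ⬝ᵥ w = 0
      · simp [e]
      · exact W.smul_mem _ (h u χ hu w hw e)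
    refine mem_subspaceStabilizer_iff.2 fun x => ⟨fun hx => ?_, fun hx => ?_⟩
    · rw [tvGL_mulVec]; exact W.add_mem hx (k x hx)
    · rw [tvGL_mulVec] at hx
      have := k _ hx
      rw [dotProduct_add, dotProduct_smul, hu.dot, smul_zero, add_zero] at this
      simpa using W.sub_mem hx this
  exact (hP.irr W (le_subspaceStabilizer_iff.1 hle)).resolve_left hW

/-- inverse transpose -/
def invT : GL ι F →* GL ι F where
  toFun x := ⟨((x⁻¹ : GL ι F) : Matrix ι ι F)ᵀ, (x : Matrix ι ι F)ᵀ,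
    by rw [← transpose_mul, Units.mul_inv, transpose_one],
    by rw [← transpose_mul, Units.inv_mul, transpose_one]⟩
  map_one' := Units.ext (by simp)
  map_mul' x y := Units.ext (by
    simp only [_root_.mul_inv_rev, Units.val_mul, transpose_mul])

theorem coe_invT (x : GL ι F) :
    (invT x : Matrix ι ι F) = ((x⁻¹ : GL ι F) : Matrix ι ι F)ᵀ := rfl

theorem invT_invT (x : GL ι F) : invT (invT x) = x := Units.ext (by
  rw [coe_invT, ← map_inv, coe_invT, inv_inv, transpose_transpose])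

theorem mem_map_invT {x : GL ι F} : x ∈ P.map invT ↔ invT x ∈ P :=
  ⟨fun ⟨y, hy, e⟩ => by rw [← e, invT_invT]; exact hy, fun h => ⟨_, h, invT_invT x⟩⟩

theorem map_invT_invT (P : Subgroup (GL ι F)) : (P.map invT).map invT = P :=
  Subgroup.ext fun x => by rw [mem_map_invT, mem_map_invT, invT_invT]

theorem tv_invT : Tv (P.map invT) φ v ↔ Tv P v φ := by
  have key : ∀ (P : Subgroup (GL ι F)) (v φ : ι → F), Tv P v φ → Tv (P.map invT) φ v :=
    fun P v φ h => tv_of_mem (Subgroup.mem_map_of_mem _ (P.inv_mem h.mem))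
      (by rw [dotProduct_comm, h.1])
      (by rw [coe_invT, inv_inv, coe_tvGL, transpose_add, transpose_one, transpose_vecMulVec])
  exact ⟨fun h => map_invT_invT P ▸ key _ _ _ h, key P v φ⟩

theorem sk_invT : SK (P.map invT) K φ v ↔ SK P K v φ := by
  simp only [SK, tv_invT, tv_smul_iff]
  tauto

theorem invT_mem_sl {x : GL ι F} (h : x ∈ specialLinear ι F) : invT x ∈ specialLinear ι F := by
  have h' := (specialLinear ι F).inv_mem h
  rw [specialLinear, MonoidHom.mem_ker, Units.ext_iff] at h' ⊢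
  simpa [coe_invT, det_transpose] using h'

theorem Hy.invT (hP : Hy P) : Hy (P.map invT) where
  sl x hx := invT_invT x ▸ invT_mem_sl (hP.sl (mem_map_invT.1 hx))
  norm N hN hn := by
    rcases hP.norm (N.map TvN.invT) (fun x hx => by
        have := hN (mem_map_invT.1 hx)
        rwa [mem_map_invT, invT_invT] at this) (fun g hg x hx => by
        rw [mem_map_invT, map_mul, map_mul, map_inv]
        exact hn _ (Subgroup.mem_map_of_mem _ hg) _ (mem_map_invT.1 hx)) with e | e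
    · exact Or.inl (by rw [← e, map_invT_invT])
    · refine Or.inr fun x hx => ?_
      obtain ⟨c, hc⟩ := (mem_scalars_iff _).1
        ((scalars ι F).inv_mem (e (Subgroup.mem_map_of_mem TvN.invT hx)))
      refine mem_scalars_of_eq_smul (c := c) ?_
      rw [← invT_invT x, coe_invT, hc, transpose_smul, transpose_one]
  irr W hW := hP.irr' W fun g hg w hw => by
    have := hW _ (Subgroup.mem_map_of_mem _ (P.inv_mem hg)) w hw
    rwa [coe_invT, inv_inv, mulVec_transpose] at this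
  irr' W hW := hP.irr W fun g hg w hw => by
    have := hW _ (Subgroup.mem_map_of_mem _ (P.inv_mem hg)) w hw
    rwa [coe_invT, inv_inv, vecMul_transpose] at this
  nosub F₀ h0 := fun ⟨B, hB⟩ => hP.nosub F₀ h0 ⟨TvN.invT B, by
    rintro _ ⟨x, hx, rfl⟩ i j
    have := hB _ ⟨_, Subgroup.mem_map_of_mem TvN.invT (P.inv_mem hx), rfl⟩ j i
    simp only [coe_invT, inv_inv] at this
    rw [← map_inv, coe_invT, coe_invT, inv_inv]
    rw [← transpose_apply ((B : Matrix ι ι F) * _ * _) i j, transpose_mul, transpose_mul,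
      transpose_transpose, ← Matrix.mul_assoc] at this
    exact this⟩

/-- a non-zero space of forms invariant under all root groups is everything -/
theorem Hy.span_a (hP : Hy P) (hne : ∃ v φ, SK P K v φ) {W : Submodule F (ι → F)} (hW : W ≠ ⊥)
    (h : ∀ u χ, SK P K u χ → ∀ ξ ∈ W, ξ ⬝ᵥ u ≠ 0 → χ ∈ W) : W = ⊤ :=
  hP.invT.span_c (K := K) (let ⟨v, φ, h⟩ := hne; ⟨φ, v, sk_invT.2 h⟩) hW fun χ u hu ξ hξ e =>
    h u χ (sk_invT.1 hu) ξ hξ (by rwa [dotProduct_comm])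

theorem Hy.exists_axis (hP : Hy P) (hne : ∃ v φ, SK P K v φ) {x : ι → F} (hx : x ≠ 0) :
    ∃ u χ, SK P K u χ ∧ χ ⬝ᵥ x ≠ 0 := by
  by_contra! hc
  obtain ⟨v, φ, h⟩ := id hne
  have := hP.span_c hne (W := Submodule.span F {x}) (by simpa using hx) fun u χ hu w hw e => by
    obtain ⟨c, rfl⟩ := Submodule.mem_span_singleton.1 hw
    exact absurd (by rw [dotProduct_smul, hc u χ hu, smul_zero]) e
  exact h.2.1 (eq_zero_of_span this (by simpa using hc v φ h))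

theorem Hy.exists_centre (hP : Hy P) (hne : ∃ v φ, SK P K v φ) {ξ : ι → F} (hξ : ξ ≠ 0) :
    ∃ u χ, SK P K u χ ∧ ξ ⬝ᵥ u ≠ 0 := by
  obtain ⟨χ, u, h, e⟩ := hP.invT.exists_axis (K := K)
    (let ⟨v, φ, h⟩ := hne; ⟨φ, v, sk_invT.2 h⟩) hξ
  exact ⟨u, χ, sk_invT.1 h, by rwa [dotProduct_comm]⟩

/-- the centres whose axis misses `x` span -/
theorem Hy.span_nb (hP : Hy P) (hne : ∃ v φ, SK P K v φ) {x : ι → F} (hx : x ≠ 0) :
    Submodule.span F {y | ∃ η, SK P K y η ∧ η ⬝ᵥ x ≠ 0} = ⊤ := by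
  obtain ⟨y, η, hy, e⟩ := hP.exists_axis hne hx
  refine hP.span_c hne (fun h => hy.1 ?_) fun u χ hu w hw e => ?_
  · exact (Submodule.eq_bot_iff _).1 h y (Submodule.subset_span ⟨η, hy, e⟩)
  by_cases hχ : χ ⬝ᵥ x = 0
  · obtain ⟨y, ⟨η, hy, e1⟩, e2⟩ : ∃ y ∈ {y | ∃ η, SK P K y η ∧ η ⬝ᵥ x ≠ 0}, χ ⬝ᵥ y ≠ 0 := by
      by_contra! hc
      exact e ((Submodule.span_le.2 hc : _ ≤ hyp χ) hw)
    have := Submodule.sub_mem _ (Submodule.subset_span (R := F)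
      (s := {y | ∃ η, SK P K y η ∧ η ⬝ᵥ x ≠ 0}) ⟨_, hy.conj_tv hu.tv, by
        rwa [sub_dotProduct, smul_dotProduct, hχ, smul_zero, sub_zero]⟩)
      (Submodule.subset_span ⟨η, hy, e1⟩)
    rw [add_sub_cancel_left] at this
    exact (Submodule.smul_mem_iff _ e2).1 this
  · exact Submodule.subset_span ⟨χ, hu, hχ⟩

/-- the axes whose centre is off `ξ` span -/
theorem Hy.span_nb' (hP : Hy P) (hne : ∃ v φ, SK P K v φ) {ξ : ι → F} (hξ : ξ ≠ 0) :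
    Submodule.span F {η | ∃ y, SK P K y η ∧ ξ ⬝ᵥ y ≠ 0} = ⊤ := by
  have := hP.invT.span_nb (K := K) (let ⟨v, φ, h⟩ := hne; ⟨φ, v, sk_invT.2 h⟩) hξ
  simpa only [sk_invT, dotProduct_comm _ ξ] using this

/-- every pair has an opposite pair -/
theorem Hy.exists_opp (hP : Hy P) (hne : ∃ v φ, SK P K v φ) (hv : v ≠ 0) (hφ : φ ≠ 0) :
    ∃ y η, SK P K y η ∧ φ ⬝ᵥ y ≠ 0 ∧ η ⬝ᵥ v ≠ 0 := by
  by_contra! hc
  exact hφ (eq_zero_of_span (hP.span_nb hne hv) fun y ⟨η, hy, e⟩ => by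
    by_contra h; exact e (hc y η hy h))

theorem sl_le_of_tv (h : ∀ v φ : ι → F, φ ⬝ᵥ v = 0 → Tv P v φ) : specialLinear ι F ≤ P := by
  intro g hg
  have key : ∀ A : SpecialLinearGroup ι F, SpecialLinearGroup.toGL A ∈ P := by
    refine Classical.sl_transvection_induction _ (by simp [P.one_mem]) (fun i j hij c => ?_)
      fun A B hA hB => by rw [map_mul]; exact P.mul_mem hA hB
    have := (h (Pi.single i 1) (Pi.single j c) (by simp [hij.symm])).mem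
    convert this using 1
    refine Units.ext ?_
    ext a b
    simp [coe_tvGL, SpecialLinearGroup.transvection_coe, vecMulVec_apply, Pi.single_apply,
      Matrix.single_apply, ite_and, eq_comm]
    split_ifs <;> rfl
  have hd : (g : Matrix ι ι F).det = 1 := by
    rw [specialLinear, MonoidHom.mem_ker, Units.ext_iff] at hg
    simpa using hg
  exact (Units.ext rfl : SpecialLinearGroup.toGL ⟨_, hd⟩ = g) ▸ key ⟨_, hd⟩

theorem hy_of_core {H : Subgroup (GL ι F)} [Nonempty ι] (hP : IsResidualCore H P) : Hy P := by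
  have henv := span_eq_top_of_absIrred hP.absIrred
  refine ⟨?_, fun N hle hn => ?_, irred_iff.1 hP.absIrred.1, fun W hW => ?_, hP.no_subfield⟩
  · rw [← hP.perfect, Subgroup.commutator_le]
    intro a _ b _
    rw [specialLinear, MonoidHom.mem_ker, map_commutatorElement, commutatorElement_eq_one_iff_mul_comm]
    exact mul_comm _ _
  · have hN : (N.subgroupOf P).Normal :=
      ⟨fun x hx g => Subgroup.mem_subgroupOf.2 (hn g g.2 x (Subgroup.mem_subgroupOf.1 hx))⟩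
    rcases hP.simple.eq_bot_or_eq_top_of_normal _
      (hN.map (QuotientGroup.mk' ((scalars ι F).subgroupOf P)) (QuotientGroup.mk'_surjective _))
      with h | h
    · refine Or.inr fun x hx => ?_
      have : QuotientGroup.mk' ((scalars ι F).subgroupOf P) ⟨x, hle hx⟩ ∈ (⊥ : Subgroup _) :=
        h ▸ Subgroup.mem_map_of_mem _ (Subgroup.mem_subgroupOf.2 hx)
      exact Subgroup.mem_subgroupOf.1 ((QuotientGroup.eq_one_iff _).1 (Subgroup.mem_bot.1 this))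
    · refine Or.inl (le_antisymm hle (le_of_perfect hP.perfect fun x hx => ?_))
      obtain ⟨y, hy, e⟩ : QuotientGroup.mk' ((scalars ι F).subgroupOf P) ⟨x, hx⟩ ∈
        (N.subgroupOf P).map (QuotientGroup.mk' _) := h ▸ Subgroup.mem_top _
      have e' := Subgroup.mem_subgroupOf.1 (QuotientGroup.eq.1 e)
      have : x = (y : GL ι F) * ((y⁻¹ * ⟨x, hx⟩ : P) : GL ι F) := by simp
      rw [this]
      exact Subgroup.mul_mem_sup (Subgroup.mem_subgroupOf.1 hy) e'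
  · by_cases h0 : W = ⊥
    · exact Or.inl h0
    obtain ⟨w, hw, hw0⟩ := (Submodule.ne_bot_iff W).1 h0
    refine Or.inr (eq_top_iff.2 fun x _ => ?_)
    obtain ⟨a, ha⟩ := exists_mulVec_eq hw0 x
    have : ∀ b ∈ env P, w ᵥ* b ∈ W := fun b hb =>
      env_induction (p := fun b => w ᵥ* b ∈ W) (fun g hg => hW g hg w hw) (by simp)
        (fun a b ha hb => by rw [vecMul_add]; exact W.add_mem ha hb)
        (fun c a ha => by rw [vecMul_smul]; exact W.smul_mem c ha) hb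
    have := this aᵀ (henv ▸ Algebra.mem_top)
    rwa [vecMul_transpose, ha] at this

/-! ### Rationality -/

/-- a basis of `F^ι` chosen from a spanning set, as the columns of an invertible matrix -/
theorem exists_gl_cols {S : Set (ι → F)} (hS : Submodule.span F S = ⊤) :
    ∃ B : GL ι F, ∀ j, (B : Matrix ι ι F) *ᵥ Pi.single j 1 ∈ S := by
  obtain ⟨T, hT, h1, h2⟩ := exists_linearIndependent F S
  let b : Module.Basis T F (ι → F) := Module.Basis.mk h2 (by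
    rw [Subtype.range_coe, h1, hS])
  let e : T ≃ ι := b.indexEquiv (Pi.basisFun F ι)
  let b' := b.reindex e
  let M := (Pi.basisFun F ι).toMatrix b'
  have := (Pi.basisFun F ι).invertibleToMatrix b'
  refine ⟨unitOfInvertible M, fun j => ?_⟩
  have : (unitOfInvertible M : Matrix ι ι F) *ᵥ Pi.single j 1 = b' j := by
    ext i
    simp [M, Module.Basis.toMatrix_apply]
  rw [this]
  simpa [b', b] using hT (e.symm j).2

/-- Rationality: let `S` span the vectors and `Φ` the forms, with a `K`-valued pairing; a group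
generated by elements `t` with `φ (t v) ∈ K` is realisable over `K`. -/
theorem rat [Finite F] {S Φ : Set (ι → F)} (hS : Submodule.span F S = ⊤)
    (hΦ : Submodule.span F Φ = ⊤) (hK : ∀ φ ∈ Φ, ∀ v ∈ S, φ ⬝ᵥ v ∈ K) :
    ∃ H : Subgroup (GL ι F), RealisableOver K (matrixSet H) ∧ ∀ t : GL ι F,
      (∀ φ ∈ Φ, ∀ v ∈ S, φ ⬝ᵥ ((t : Matrix ι ι F) *ᵥ v) ∈ K) → t ∈ H := by
  obtain ⟨B, hB⟩ := exists_gl_cols hS
  obtain ⟨C, hC⟩ := exists_gl_cols hΦ
  let R : Subring (Matrix ι ι F) := (K.subtype.mapMatrix : Matrix ι ι K →+* _).range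
  have hR : ∀ M : Matrix ι ι F, M ∈ R ↔ ∀ i j, M i j ∈ K := fun M =>
    ⟨fun ⟨N, e⟩ i j => e ▸ (N i j).2, fun h => ⟨Matrix.of fun i j => ⟨M i j, h i j⟩, rfl⟩⟩
  have inv : ∀ x : GL ι F, (x : Matrix ι ι F) ∈ R → ((x⁻¹ : GL ι F) : Matrix ι ι F) ∈ R :=
    fun x hx => by
      have : Finite (GL ι F) := Finite.of_injective _ Units.val_injective
      rw [← mul_one x⁻¹, ← pow_orderOf_eq_one x, ← Nat.succ_pred_eq_of_pos (orderOf_pos x),
        pow_succ', inv_mul_cancel_left, Units.val_pow_eq_pow_val]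
      exact R.pow_mem hx _
  have ent : ∀ M : Matrix ι ι F, (∀ φ ∈ Φ, ∀ v ∈ S, φ ⬝ᵥ (M *ᵥ v) ∈ K) →
      (C : Matrix ι ι F)ᵀ * M * B ∈ R := fun M hM => (hR _).2 fun i j => by
    have := hM _ (hC i) _ (hB j)
    rwa [mulVec_mulVec, ← transpose_transpose (C : Matrix ι ι F), mulVec_transpose,
      ← dotProduct_mulVec, mulVec_mulVec, single_one_dotProduct, mulVec_single_one,
      ← Matrix.mul_assoc] at this
  let H : Subgroup (GL ι F) :=
    { carrier := {g | ((B⁻¹ * g * B : GL ι F) : Matrix ι ι F) ∈ R}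
      mul_mem' := fun {a b} ha hb => by
        have := R.mul_mem ha hb
        rwa [← Units.val_mul, show B⁻¹ * a * B * (B⁻¹ * b * B) = B⁻¹ * (a * b) * B by group] at this
      one_mem' := by simp
      inv_mem' := fun {a} ha => by
        have := inv _ ha
        rwa [show (B⁻¹ * a * B)⁻¹ = B⁻¹ * a⁻¹ * B by group] at this }
  refine ⟨H, ⟨B⁻¹, ?_⟩, fun t ht => ?_⟩
  · rintro _ ⟨x, hx, rfl⟩
    simpa using (hR _).1 hx
  · have h1 := inv ((invT C)⁻¹ * B) (by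
      simpa [← map_inv, coe_invT] using ent 1 (by simpa using hK))
    have h2 := R.mul_mem h1 (ent _ ht)
    change ((B⁻¹ * t * B : GL ι F) : Matrix ι ι F) ∈ R
    have e : (C : Matrix ι ι F)ᵀ = (((invT C)⁻¹ : GL ι F) : Matrix ι ι F) := by
      rw [← map_inv, coe_invT, inv_inv]
    rwa [e, ← Units.val_mul, ← Units.val_mul, ← Units.val_mul,
      show ((invT C)⁻¹ * B)⁻¹ * ((invT C)⁻¹ * t * B) = B⁻¹ * t * B by group] at h2

/-- Rationality for root groups: `L = F`. -/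
theorem Hy.eq_top [Finite F] (hP : Hy P) (hne : ∃ v φ, SK P K v φ) {L : Subfield F}
    {S Φ : Set (ι → F)} (hS : Submodule.span F S = ⊤) (hΦ : Submodule.span F Φ = ⊤)
    (hK : ∀ φ ∈ Φ, ∀ v ∈ S, φ ⬝ᵥ v ∈ L)
    (h : ∀ u χ, SK P K u χ → ∀ φ ∈ Φ, ∀ v ∈ S, φ ⬝ᵥ u * χ ⬝ᵥ v ∈ L) : L = ⊤ := by
  by_contra h0
  obtain ⟨H, ⟨B, hB⟩, hH⟩ := rat hS hΦ hK
  refine hP.nosub L h0 ⟨B, fun s hs => hB s (matrixSet_mono (hP.le_of_sk hne fun u χ hu => ?_) hs)⟩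
  refine hH _ fun φ hφ v hv => ?_
  rw [tvGL_mulVec, dotProduct_add, dotProduct_smul, smul_eq_mul, mul_comm]
  exact L.add_mem (hK φ hφ v hv) (h u χ hu φ hφ v hv)

end CfsgLib.TvN
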