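import Mathlib
import Cfsg.Agent.Lib.TvN.Defs
import Cfsg.Agent.Lib.Invol.Dihedral

/-! Two opposite transvections in characteristic two.  See `plans/TVN.md`. -/

set_option autoImplicit false

namespace CfsgLib.TvN

open Matrix Cfsg Cfsg.Geo CfsgLib.Asch
open scoped MatrixGroups commutatorElement

variable {ι : Type} [Fintype ι] [DecidableEq ι] {F : Type*} [Field F]
  {P : Subgroup (GL ι F)} {K : Subfield F}

variable {v φ w ψ : ι → F}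

theorem tvGL_mul_self (h2 : (2 : F) = 0) (h : φ ⬝ᵥ v = 0) : tvGL v φ h * tvGL v φ h = 1 := by
  have e : -φ = φ := by rw [neg_eq_iff_add_eq_zero, ← two_smul F, h2, zero_smul]
  exact Units.ext (by rw [Units.val_mul, coe_tvGL]; nth_rewrite 2 [← e]; exact tv_mul_neg h)

theorem gl_ext {a b : GL ι F} (h : ∀ x, (a : Matrix ι ι F) *ᵥ x = (b : Matrix ι ι F) *ᵥ x) :
    a = b :=
  Units.ext (sub_eq_zero.1 (eq_zero_of_forall_mulVec fun x => by rw [sub_mulVec, h, sub_self]))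

/-- an element commuting with a transvection fixes its centre and axis -/
theorem fix_of_commute {h : φ ⬝ᵥ v = 0} (hv : v ≠ 0) (hφ : φ ≠ 0) {z : GL ι F}
    (hz : z * tvGL v φ h * z⁻¹ = tvGL v φ h) :
    ∃ c : F, c ≠ 0 ∧ (z : Matrix ι ι F) *ᵥ v = c • v ∧ φ ᵥ* (z : Matrix ι ι F) = c • φ := by
  rw [conj_tvGL] at hz
  obtain ⟨c, hc, e1, e2⟩ := parallel_of_tvGL_eq hz (mulVec_ne_zero z hv) (vecMul_ne_zero _ hφ)
  refine ⟨c, hc, e1, ?_⟩
  conv_lhs => rw [e2]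
  rw [smul_vecMul, vecMul_inv_vecMul]

theorem odd_orderOf_tv [Finite F] (h2 : (2 : F) = 0) (h1 : φ ⬝ᵥ v = 0) (h1' : ψ ⬝ᵥ w = 0)
    (ha : φ ⬝ᵥ w ≠ 0) (hb : ψ ⬝ᵥ v ≠ 0) : Odd (orderOf (tvGL v φ h1 * tvGL w ψ h1')) := by
  have : Finite (GL ι F) := Finite.of_injective _ Units.val_injective
  by_contra hodd
  obtain ⟨o, c1, c2⟩ := Invol.central_involution (tvGL_mul_self h2 h1) (tvGL_mul_self h2 h1')
    (Nat.not_odd_iff_even.1 hodd)
  have hz : (tvGL v φ h1 * tvGL w ψ h1') ^ (orderOf (tvGL v φ h1 * tvGL w ψ h1') / 2) ∈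
      fixV {x | φ ⬝ᵥ x = 0 ∧ ψ ⬝ᵥ x = 0} :=
    pow_mem (mul_mem (fun x hx => by rw [tvGL_mulVec, hx.1]; simp)
      fun x hx => by rw [tvGL_mulVec, hx.2]; simp) _
  generalize (tvGL v φ h1 * tvGL w ψ h1') ^ (orderOf (tvGL v φ h1 * tvGL w ψ h1') / 2) = z at *
  have zz := Invol.mul_self_of_orderOf_two o
  have k : ∀ {u χ : ι → F} {h : χ ⬝ᵥ u = 0}, u ≠ 0 → χ ≠ 0 → Commute z (tvGL u χ h) →
      (z : Matrix ι ι F) *ᵥ u = u := fun {u χ h} hu hχ hc => by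
    obtain ⟨c, -, e, -⟩ := fix_of_commute hu hχ (mul_inv_eq_iff_eq_mul.2 hc.eq)
    have e2 : (c * c) • u = (1 : F) • u := by
      rw [← smul_smul, ← e, ← mulVec_smul, ← e, mulVec_mulVec, ← Units.val_mul, zz]; simp
    have e3 : (c - 1) * (c - 1) = 0 := by
      linear_combination smul_left_injective F hu e2 + (1 - c) * h2
    rw [e, sub_eq_zero.1 (mul_self_eq_zero.1 e3), one_smul]
  have e1 := k (ne_zero_of_dot_right hb) (ne_zero_of_dot_left ha) c1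
  have e2 := k (ne_zero_of_dot_right ha) (ne_zero_of_dot_left hb) c2
  refine Invol.ne_one_of_orderOf_two o (gl_ext fun x => ?_)
  have := hz (x - (ψ ⬝ᵥ x / ψ ⬝ᵥ v) • v - (φ ⬝ᵥ x / φ ⬝ᵥ w) • w)
    ⟨by simp [h1, ha], by simp [h1', hb]⟩
  rw [mulVec_sub, mulVec_sub, mulVec_smul, mulVec_smul, e1, e2, sub_left_inj, sub_left_inj] at this
  simpa using this

/-- In characteristic two, two opposite transvections are swapped by an involution of `P`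
(apply this to `P ⊓ fixV S`, `P ⊓ fixD S` or a closure to control the involution). -/
theorem dc [Finite F] (h2 : (2 : F) = 0) (h1 : Tv P v φ) (h1' : Tv P w ψ) (ha : φ ⬝ᵥ w ≠ 0)
    (hb : ψ ⬝ᵥ v ≠ 0) : ∃ n ∈ P, n * n = 1 ∧ n * tvGL v φ h1.1 * n⁻¹ = tvGL w ψ h1'.1 ∧
      ∃ c : F, c ≠ 0 ∧ (n : Matrix ι ι F) *ᵥ v = c • w ∧ (n : Matrix ι ι F) *ᵥ w = c⁻¹ • v ∧
        φ ᵥ* (n : Matrix ι ι F) = c⁻¹ • ψ ∧ ψ ᵥ* (n : Matrix ι ι F) = c • φ := by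
  have tt := tvGL_mul_self h2 h1.1
  have ss := tvGL_mul_self h2 h1'.1
  obtain ⟨k, hk⟩ := Invol.exists_pow_conj_of_odd tt ss (odd_orderOf_tv h2 h1.1 h1'.1 ha hb)
  have nn : (tvGL v φ h1.1 * tvGL w ψ h1'.1) ^ k * tvGL v φ h1.1 *
      ((tvGL v φ h1.1 * tvGL w ψ h1'.1) ^ k * tvGL v φ h1.1) = 1 := by
    have := Invol.conj_pow_of_inverts (Invol.conj_mul_eq_inv tt ss) k
    rw [inv_eq_of_mul_eq_one_right tt] at this
    rw [mul_assoc, ← mul_assoc (tvGL v φ h1.1), this, mul_inv_cancel]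
  have hn : (tvGL v φ h1.1 * tvGL w ψ h1'.1) ^ k * tvGL v φ h1.1 * tvGL v φ h1.1 *
      ((tvGL v φ h1.1 * tvGL w ψ h1'.1) ^ k * tvGL v φ h1.1)⁻¹ = tvGL w ψ h1'.1 := by
    refine Eq.trans ?_ hk
    group
  refine ⟨_, mul_mem (pow_mem (mul_mem h1.mem h1'.mem) k) h1.mem, nn, hn, ?_⟩
  generalize (tvGL v φ h1.1 * tvGL w ψ h1'.1) ^ k * tvGL v φ h1.1 = n at nn hn
  rw [conj_tvGL] at hn
  obtain ⟨c, hc, e1, e2⟩ := parallel_of_tvGL_eq hn (mulVec_ne_zero n (ne_zero_of_dot_right hb))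
    (vecMul_ne_zero _ (ne_zero_of_dot_left ha))
  have ni := inv_eq_of_mul_eq_one_right nn
  refine ⟨c, hc, e1, ?_, ?_, ?_⟩
  · rw [← inv_mulVec_mulVec n v, e1, mulVec_smul, smul_smul, inv_mul_cancel₀ hc, one_smul, ni]
  · rw [e2, smul_smul, inv_mul_cancel₀ hc, one_smul, ni]
  · rw [e2, smul_vecMul, vecMul_inv_vecMul]

end CfsgLib.TvN
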