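import Mathlib
import Cfsg.Agent.Lib.ZStar.Main
import Cfsg.Agent.Lib.FT.OddOrder
import Cfsg.Agent.Lib.Core.Cores
import Cfsg.Agent.Lib.Invol.Dihedral

/-! A group generated by a class of isolated involutions has an abelian normal subgroup on which
the involutions act non-trivially.  See `plans/TVN.md`. -/

set_option autoImplicit false

namespace CfsgLib.TvN.Trix

open Cfsg Subgroup
open scoped commutatorElement

variable {G : Type*} [Group G] [Finite G]

theorem eq_one_of_sq {B : Subgroup G} (hB : Odd (Nat.card B)) {z : G} (hz : z ∈ B)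
    (h : z * z = 1) : z = 1 := by
  by_contra h1
  have := B.orderOf_dvd_natCard hz
  rw [Invol.orderOf_eq_two h1 h] at this
  exact Nat.not_even_iff_odd.2 hB (even_iff_two_dvd.2 this)

/-- `b = c i` with `c` centralised and `i` inverted -/
theorem exists_split {B : Subgroup G} [hn : B.Normal] (hB : Odd (Nat.card B)) {t : G}
    (tt : t * t = 1) {b : G} (hb : b ∈ B) :
    ∃ c ∈ B, ∃ i ∈ B, b = c * i ∧ Commute c t ∧ t * i * t⁻¹ = i⁻¹ := by
  obtain ⟨k, hk⟩ := hB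
  have ti := inv_eq_of_mul_eq_one_right tt
  have hj : b⁻¹ * (t * b * t⁻¹) ∈ B := mul_mem (inv_mem hb) (hn.conj_mem b hb t)
  have inv : t * (b⁻¹ * (t * b * t⁻¹)) * t⁻¹ = (b⁻¹ * (t * b * t⁻¹))⁻¹ := by
    rw [ti]
    calc t * (b⁻¹ * (t * b * t)) * t = t * b⁻¹ * t * b * (t * t) := by group
      _ = (b⁻¹ * (t⁻¹ * b * t⁻¹))⁻¹ := by rw [tt]; group
      _ = _ := by rw [ti]
  have e : t * b * t⁻¹ = b * (b⁻¹ * (t * b * t⁻¹)) := by group
  generalize b⁻¹ * (t * b * t⁻¹) = j at *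
  have j1 : j ^ (2 * k + 1) = 1 := hk ▸ orderOf_dvd_iff_pow_eq_one.1 (B.orderOf_dvd_natCard hj)
  have ik := Invol.conj_pow_of_inverts inv k
  refine ⟨b * (j ^ k)⁻¹, mul_mem hb (inv_mem (pow_mem hj k)), j ^ k, pow_mem hj k, by group, ?_, ik⟩
  have : t * (b * (j ^ k)⁻¹) * t⁻¹ = b * (j ^ k)⁻¹ := by
    calc t * (b * (j ^ k)⁻¹) * t⁻¹ = t * b * t⁻¹ * (t * j ^ k * t⁻¹)⁻¹ := by group
      _ = b * j ^ (2 * k + 1) * (j ^ k)⁻¹ := by rw [e, ik]; group
      _ = _ := by rw [j1, mul_one]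
  exact (mul_inv_eq_iff_eq_mul.1 this).symm

theorem exists_abelian {t : G} (ht : IsIsolatedInvolution t)
    (hgen : ∀ K : Subgroup G, (∀ g, g * t * g⁻¹ ∈ K) → K = ⊤) (hnc : t ∉ center G)
    (hF : ∀ c₁ c₂, Commute c₁ t → Commute c₂ t → ⁅c₁, c₂⁆ ∈ center G → ⁅c₁, c₂⁆ = 1) :
    ∃ B : Subgroup G, B.Normal ∧ (∀ a ∈ B, ∀ b ∈ B, a * b = b * a) ∧ ∃ b ∈ B, ¬ Commute b t := by
  have tt := Invol.mul_self_of_orderOf_two ht.1
  have ti := inv_eq_of_mul_eq_one_right tt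
  have hO := Core.odd_card_oddCore G
  have hex : ¬ pPrimeCore 2 G ≤ center G := fun h => hnc (mem_center_iff.2 fun g => by
    have h1 := ZStar.zstar ht g
    have h2 := mem_center_iff.1 (h h1) t
    have := eq_one_of_sq hO h1 (by
      calc t * g * t⁻¹ * g⁻¹ * (t * g * t⁻¹ * g⁻¹)
          = (t * g * t⁻¹ * g⁻¹ * t) * (g * t⁻¹ * g⁻¹) := by group
        _ = (t * t) * g * (t * t)⁻¹ * g⁻¹ := by rw [← h2]; group
        _ = 1 := by rw [tt]; group)
    rw [mul_inv_eq_one, mul_inv_eq_iff_eq_mul] at this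
    exact this.symm)
  obtain ⟨B, ⟨hBn, hBO, hBZ⟩, hmin⟩ := WellFounded.has_min (wellFounded_lt (α := Subgroup G))
    {B : Subgroup G | B.Normal ∧ B ≤ pPrimeCore 2 G ∧ ¬ B ≤ center G} ⟨_, inferInstance, le_rfl, hex⟩
  have hB : Odd (Nat.card B) := hO.of_dvd_nat (card_dvd_of_le hBO)
  have min : ∀ A : Subgroup G, A.Normal → A ≤ B → A ≤ center G ∨ A = B := fun A hA hle => by
    by_contra! hc
    exact hmin A ⟨hA, hle.trans hBO, hc.1⟩ (lt_of_le_of_ne hle hc.2)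
  have hb : ∃ b ∈ B, ¬ Commute b t := by
    by_contra! hc
    refine hBZ fun b hb => mem_center_iff.2 fun g => ?_
    have := hgen (centralizer {b}) fun h => mem_centralizer_singleton_iff.2 (by
      have := (hc _ (hBn.conj_mem b hb h⁻¹)).eq
      calc h * t * h⁻¹ * b = h * (t * (h⁻¹ * b * h⁻¹⁻¹)) * h⁻¹ := by group
        _ = _ := by rw [← this]; group)
    exact mem_centralizer_singleton_iff.1 (this ▸ mem_top g)
  refine ⟨B, hBn, ?_, hb⟩
  have hcomm : ⁅B, B⁆ ≤ center G := by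
    refine (min _ inferInstance (commutator_le_left B B)).resolve_right fun e => ?_
    have := FT.odd_subgroup_solvable hB
    have : Nontrivial B := (nontrivial_iff_ne_bot B).2 fun e => hBZ (e ▸ bot_le)
    refine (Group.IsSolvable.commutator_lt_top_of_nontrivial B).ne (map_injective B.subtype_injective ?_)
    rw [map_subtype_commutator, e, ← MonoidHom.range_eq_map, range_subtype]
  have hc : ∀ c ∈ B, Commute c t → c ∈ B ⊓ centralizer (B : Set G) := fun c hc hct =>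
    ⟨hc, mem_centralizer_iff.2 fun b hb => by
      obtain ⟨c', hc', i, hi, rfl, h1, h2⟩ := exists_split hB tt hb
      have e1 := commutatorElement_eq_one_iff_mul_comm.1
        (hF c' c h1 hct (hcomm (commutator_mem_commutator hc' hc)))
      have z1 := mem_center_iff.1 (hcomm (commutator_mem_commutator hc hi))
      have e2 : ⁅c, i⁆ = 1 := eq_one_of_sq hB (commutator_le_left B B (commutator_mem_commutator hc hi))
        (by
          have a1 : ⁅c, i⁆ = t * ⁅c, i⁆ * t⁻¹ := by rw [z1 t]; group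
          have a2 : t * ⁅c, i⁆ * t⁻¹ = ⁅c, i⁻¹⁆ := by
            rw [← h2, conjugate_commutatorElement, ← hct.eq, mul_inv_cancel_right]
          have a3 : i⁻¹ * ⁅c, i⁆ * i = ⁅c, i⁆ := by rw [z1 i⁻¹]; group
          nth_rewrite 1 [a1]
          rw [a2, ← a3]
          simp only [commutatorElement_def]
          group)
      rw [mul_assoc, ← commutatorElement_eq_one_iff_mul_comm.1 e2, ← mul_assoc, e1, mul_assoc]⟩
  rcases min (B ⊓ centralizer (B : Set G)) inferInstance inf_le_left with h | h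
  swap
  · intro a ha b hb
    rw [← h] at hb
    exact mem_centralizer_iff.1 hb.2 a ha
  have inv : ∀ b ∈ B, ∃ z ∈ B ⊓ center G, t * b * t⁻¹ = z * b⁻¹ := fun b hb => by
    obtain ⟨c, hc', i, hi, rfl, h1, h2⟩ := exists_split hB tt hb
    have hz := h (hc c hc' h1)
    refine ⟨c * c, mul_mem ⟨hc', hz⟩ ⟨hc', hz⟩, ?_⟩
    calc t * (c * i) * t⁻¹ = (t * c * t⁻¹) * (t * i * t⁻¹) := by group
      _ = c * (i⁻¹ * c) * c⁻¹ := by rw [h2, ← h1.eq]; group
      _ = _ := by rw [mem_center_iff.1 hz i⁻¹]; group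
  obtain ⟨b, hb, hbZ⟩ := SetLike.not_le_iff_exists.1 hBZ
  let A : Subgroup G := zpowers b ⊔ (B ⊓ center G)
  have hA : ∀ a ∈ A, ∃ k : ℤ, ∃ z ∈ center G, a = b ^ k * z := fun a ha => by
    obtain ⟨_, ⟨k, rfl⟩, z, hz, rfl⟩ := mem_sup_of_normal_right.1 ha
    exact ⟨k, z, hz.2, rfl⟩
  have hAn : A.Normal := by
    refine normalizer_eq_top_iff.1 (hgen _ fun g => mem_normalizer_fintype fun a ha => ?_)
    obtain ⟨_, ⟨k, rfl⟩, z, hz, rfl⟩ := mem_sup_of_normal_right.1 ha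
    obtain ⟨w, hw, e⟩ := inv _ (hBn.conj_mem b hb g⁻¹)
    have e1 : g * t * g⁻¹ * b * (g * t * g⁻¹)⁻¹ = w * b⁻¹ := by
      calc g * t * g⁻¹ * b * (g * t * g⁻¹)⁻¹ = g * (t * (g⁻¹ * b * g⁻¹⁻¹) * t⁻¹) * g⁻¹ := by group
        _ = (g * w) * g⁻¹ * b⁻¹ := by rw [e]; group
        _ = _ := by rw [mem_center_iff.1 hw.2 g]; group
    have e2 : g * t * g⁻¹ * (b ^ k * z) * (g * t * g⁻¹)⁻¹ =
        (g * t * g⁻¹ * b * (g * t * g⁻¹)⁻¹) ^ k * z := by
      rw [conj_zpow, mul_assoc _ _ z, mem_center_iff.1 hz.2 (g * t * g⁻¹)⁻¹]; group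
    simp only
    rw [e2, e1]
    exact mul_mem (zpow_mem (mul_mem (mem_sup_right hw) (inv_mem (mem_sup_left (mem_zpowers b)))) k)
      (mem_sup_right hz)
  have eA := (min A hAn (sup_le (zpowers_le.2 hb) inf_le_left)).resolve_left fun h =>
    hbZ (h (mem_sup_left (mem_zpowers b)))
  intro a ha a' ha'
  obtain ⟨k, z, hz, rfl⟩ := hA a (eA ▸ ha)
  obtain ⟨k', z', hz', rfl⟩ := hA a' (eA ▸ ha')
  calc b ^ k * z * (b ^ k' * z') = b ^ k * (z * b ^ k') * z' := by group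
    _ = b ^ k' * (b ^ k * z * z') := by rw [← mem_center_iff.1 hz (b ^ k')]; group
    _ = _ := by rw [mem_center_iff.1 hz' (b ^ k * z)]; group

end CfsgLib.TvN.Trix
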