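import Mathlib
import Cfsg.Agent.Lib.TvN.Dc
import Cfsg.Agent.Lib.TvN.TriG
import Cfsg.Agent.Lib.Mit.Root

/-! Three transvections spanning a non-degenerate space generate a monomial group.  See `plans/TVN.md`. -/

set_option autoImplicit false

namespace CfsgLib.TvN

open Matrix Cfsg Cfsg.Geo CfsgLib.Asch
open scoped MatrixGroups commutatorElement

variable {ι : Type} [Fintype ι] [DecidableEq ι] {F : Type*} [Field F]
  {P : Subgroup (GL ι F)} {K : Subfield F}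

namespace Trix

section Emb

variable {κ : Type} [Fintype κ] [DecidableEq κ] {X : Matrix ι κ F} {Y : Matrix κ ι F}

/-- the embedding of `GL κ` attached to a direct summand -/
def emb (h : Y * X = 1) : GL κ F →* GL ι F := Units.map
  { toFun := fun A : Matrix κ κ F => 1 + X * (A - 1) * Y
    map_one' := by simp
    map_mul' := fun A B => by
      have : X * (A - 1) * Y * (X * (B - 1) * Y) = X * ((A - 1) * (B - 1)) * Y := by
        simp only [Matrix.mul_assoc]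
        rw [← Matrix.mul_assoc Y, h, Matrix.one_mul]
      rw [add_mul, mul_add, mul_add, this]
      simp only [one_mul, mul_one, Matrix.mul_sub, Matrix.sub_mul, Matrix.mul_one]
      abel }

theorem tv_emb (h : Y * X = 1) {v φ : κ → F} :
    Tv (P.comap (emb h)) v φ ↔ Tv P (X *ᵥ v) (φ ᵥ* Y) := by
  have e0 : (φ ᵥ* Y) ⬝ᵥ (X *ᵥ v) = φ ⬝ᵥ v := by
    rw [← dotProduct_mulVec, mulVec_mulVec, h, one_mulVec]
  have e : ∀ h0 : φ ⬝ᵥ v = 0, (emb h (tvGL v φ h0) : Matrix ι ι F) =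
      1 + vecMulVec (X *ᵥ v) (φ ᵥ* Y) := fun h0 => by
    change 1 + X * (1 + vecMulVec v φ - 1) * Y = _
    rw [add_sub_cancel_left, Matrix.mul_vecMulVec, Matrix.vecMulVec_mul]
  refine ⟨fun h1 => tv_of_mem h1.mem (e0 ▸ h1.1) (e _), fun h1 => ?_⟩
  refine tv_of_mem (x := tvGL v φ (e0 ▸ h1.1)) ?_ (e0 ▸ h1.1) rfl
  exact Subgroup.mem_comap.2 ((Units.ext (e _) : emb h (tvGL v φ _) = tvGL _ _ h1.1) ▸ h1.mem)

theorem sk_emb (h : Y * X = 1) {v φ : κ → F} :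
    SK (P.comap (emb h)) K v φ ↔ SK P K (X *ᵥ v) (φ ᵥ* Y) := by
  have e1 : X *ᵥ v = 0 ↔ v = 0 := ⟨fun e => by
    rw [← one_mulVec v, ← h, ← mulVec_mulVec, e, mulVec_zero], fun e => by simp [e]⟩
  have e2 : φ ᵥ* Y = 0 ↔ φ = 0 := ⟨fun e => by
    rw [← vecMul_one φ, ← h, ← vecMul_vecMul, e, zero_vecMul], fun e => by simp [e]⟩
  simp only [SK, tv_emb, ne_eq, e1, e2, smul_vecMul]

theorem s2_emb (h : Y * X = 1) (hS : S2 P) : S2 (P.comap (emb h)) :=
  ⟨hS.two, fun v φ ψ h1 h2 => by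
    rw [← vecMul_one φ, ← vecMul_one ψ, ← h, ← vecMul_vecMul, ← vecMul_vecMul,
      hS.ua ((sk_emb h).1 h1) ((sk_emb h).1 h2)], fun v w φ h1 h2 => by
    rw [← one_mulVec v, ← one_mulVec w, ← h, ← mulVec_mulVec, ← mulVec_mulVec,
      hS.uc ((sk_emb h).1 h1) ((sk_emb h).1 h2)]⟩

end Emb

section Three

variable {P : Subgroup (GL (Fin 3) F)} {x φ u χ : Fin 3 → F}

theorem eq_of_dot (hS : S2 P) (h1 : SK P ⊥ x φ) (h2 : SK P ⊥ u χ) (h0 : φ ⬝ᵥ u = 0) :
    tvGL u χ h2.dot = tvGL x φ h1.dot := by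
  have h0' := hS.noNil h1 h2 h0
  have hc : x ⨯₃ u = 0 := by
    by_contra hc
    have : φ ⨯₃ χ = 0 := by
      by_contra hc'
      exact (Mit.dot_ne_or h1.dot h0' hc' hc).elim (fun e => e h0) fun e => e h2.dot
    obtain ⟨c, rfl⟩ := Mit.parallel_of_cross h1.2.1 this
    have c0 : c ≠ 0 := fun e => h2.2.1 (by simp [e])
    rw [← hS.uc h1 ((sk_smul_iff c0).2 h2)] at hc
    simp at hc
  obtain ⟨c, rfl⟩ := Mit.parallel_of_cross h1.1 hc
  have c0 : c ≠ 0 := fun e => h2.1 (by simp [e])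
  refine Units.ext ?_
  rw [coe_tvGL, coe_tvGL, ← hS.ua h1 ((sk_smul_iff c0).1 h2), smul_vecMulVec, vecMulVec_smul]

theorem dot_of_commute {h1 : φ ⬝ᵥ x = 0} {h2 : χ ⬝ᵥ u = 0} (hx : x ≠ 0) (hφ : φ ≠ 0) (hχ : χ ≠ 0)
    (h : tvGL u χ h2 * tvGL x φ h1 * (tvGL u χ h2)⁻¹ = tvGL x φ h1) : φ ⬝ᵥ u = 0 := by
  obtain ⟨c, -, -, e⟩ := fix_of_commute hx hφ h
  by_contra h0
  have e1 := congrArg (· ⬝ᵥ u) e
  simp only [vecMul_tvGL, add_dotProduct, smul_dotProduct, h2, smul_zero, add_zero] at e1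
  rw [vecMul_tvGL, mul_right_cancel₀ h0 (e1.symm.trans (one_mul _).symm), one_smul,
    add_eq_left] at e
  exact hχ ((smul_eq_zero.1 e).resolve_left h0)

variable {G : Matrix (Fin 3) (Fin 3) F}

/-- the transvections with centres the standard basis have no common invariant line -/
theorem no_fix (hG : G.det ≠ 0) (hd : ∀ i, G i i = 0)
    {p : Fin 3 → F} (hp : p ≠ 0) (h : ∀ i, ∃ c : F, p + (G i ⬝ᵥ p) • Pi.single i 1 = c • p) :
    False := by
  have k : ∀ i, G i ⬝ᵥ p ≠ 0 → p = p i • Pi.single i 1 := fun i hi => by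
    obtain ⟨c, e⟩ := h i
    have c1 : c - 1 ≠ 0 := fun e1 => by
      rw [sub_eq_zero.1 e1, one_smul, add_eq_left] at e
      simpa [hi] using congrFun e i
    ext j
    by_cases hj : j = i
    · simp [hj]
    · have := congrFun e j
      simp only [Pi.add_apply, Pi.smul_apply, Pi.single_eq_of_ne hj, smul_eq_mul, mul_zero,
        add_zero] at this ⊢
      exact (mul_eq_zero.1 (by linear_combination -this)).resolve_left c1
  refine hp (Matrix.eq_zero_of_mulVec_eq_zero hG (funext fun i => ?_))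
  by_contra hi
  have e := k i hi
  exact hi (by change G i ⬝ᵥ p = 0; rw [e]; simp [hd])

/-- a transvection permuting the lines of a frame -/
theorem type_of_perm (h2 : (2 : F) = 0) (b : Module.Basis (Fin 3) F (Fin 3 → F)) (h0 : χ ⬝ᵥ u = 0)
    (hu : u ≠ 0) (hχ : χ ≠ 0) (h : ∀ i, ∃ j, ∃ c : F, b i + (χ ⬝ᵥ b i) • u = c • b j) :
    ∃ k, χ ⬝ᵥ b k = 0 ∧ b.repr u k = 0 ∧ ∀ i, i ≠ k → χ ⬝ᵥ b i * b.repr u i = 1 := by
  have hs : ∑ i, χ ⬝ᵥ b i * b.repr u i = 0 := by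
    rw [← h0]
    conv_rhs => rw [← b.sum_repr u, dotProduct_sum]
    simp [mul_comm]
  have k : ∀ i, χ ⬝ᵥ b i ≠ 0 → χ ⬝ᵥ b i * b.repr u i = 1 ∧
      ∃ j, j ≠ i ∧ ∀ l, l ≠ i → l ≠ j → b.repr u l = 0 := fun i hi => by
    obtain ⟨j, c, e⟩ := h i
    have e' : ∀ l, (if i = l then 1 else 0) + χ ⬝ᵥ b i * b.repr u l = if j = l then c else 0 :=
      fun l => by simpa [Finsupp.single_apply] using congrArg (fun v => b.repr v l) e
    have z : ∀ l, l ≠ i → l ≠ j → b.repr u l = 0 := fun l h1 h2 => by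
      simpa [h1.symm, h2.symm, hi] using e' l
    have hj : j ≠ i := by
      rintro rfl
      rw [Finset.sum_eq_single j (fun l _ hl => by rw [z l hl hl, mul_zero]) (by simp)] at hs
      refine hu (b.repr.injective (Finsupp.ext fun l => ?_))
      by_cases hl : l = j
      · simpa [hl, hi] using hs
      · simpa using z l hl hl
    have := e' i
    rw [if_pos rfl, if_neg hj] at this
    exact ⟨by linear_combination this - h2, j, hj, z⟩
  obtain ⟨i, hi⟩ : ∃ i, χ ⬝ᵥ b i ≠ 0 := by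
    by_contra! hc
    exact hχ (eq_zero_of_span b.span_eq (by rintro _ ⟨i, rfl⟩; exact hc i))
  obtain ⟨a1, j, hj, z⟩ := k i hi
  obtain ⟨l, h1, h3, h4⟩ : ∃ l, l ≠ i ∧ l ≠ j ∧ ∀ m, m = i ∨ m = j ∨ m = l := by
    clear * - hj
    revert i j
    decide
  have a2 : χ ⬝ᵥ b j * b.repr u j = 1 := by
    rw [show (Finset.univ : Finset (Fin 3)) = {i, j, l} from Finset.ext (by simpa using h4),
      Finset.sum_insert (by simp [hj.symm, h1.symm]), Finset.sum_pair h3.symm, z l h1 h3] at hs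
    linear_combination hs - a1 - h2
  refine ⟨l, ?_, z l h1 h3, fun m hm => ?_⟩
  · by_contra hl
    simpa [z l h1 h3] using (k l hl).1
  · rcases h4 m with rfl | rfl | rfl
    exacts [a1, a2, absurd rfl hm]

/-- transvections of different types have a product of order three -/
theorem one_of_types (b : Module.Basis (Fin 3) F (Fin 3 → F)) {k l : Fin 3} (hkl : k ≠ l)
    (h1 : φ ⬝ᵥ b k = 0 ∧ b.repr x k = 0 ∧ ∀ i, i ≠ k → φ ⬝ᵥ b i * b.repr x i = 1)
    (h2 : χ ⬝ᵥ b l = 0 ∧ b.repr u l = 0 ∧ ∀ i, i ≠ l → χ ⬝ᵥ b i * b.repr u i = 1) :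
    φ ⬝ᵥ u * χ ⬝ᵥ x = 1 := by
  obtain ⟨i, h3, h4, h5⟩ : ∃ i, i ≠ k ∧ i ≠ l ∧ ∀ m, m ≠ i → m = k ∨ m = l := by
    clear * - hkl
    revert k l
    decide
  have e : ∀ ξ v : Fin 3 → F, (∀ m, m ≠ i → ξ ⬝ᵥ b m * b.repr v m = 0) →
      ξ ⬝ᵥ v = ξ ⬝ᵥ b i * b.repr v i := fun ξ v h => by
    conv_lhs => rw [← b.sum_repr v, dotProduct_sum]
    rw [Finset.sum_eq_single i (fun m _ hm => by simpa [mul_comm] using h m hm) (by simp)]
    simp [mul_comm]
  rw [e φ u fun m hm => by rcases h5 m hm with rfl | rfl <;> simp [h1.1, h2.2.1],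
    e χ x fun m hm => by rcases h5 m hm with rfl | rfl <;> simp [h2.1, h1.2.1]]
  linear_combination (φ ⬝ᵥ b i * b.repr x i) * h2.2.2 i h4 + h1.2.2 i h3

theorem exists_frame [Finite F] (hS : S2 P) (hG : G.det ≠ 0)
    (h : ∀ i, SK P ⊥ (Pi.single i 1) (G i)) (ho : ∀ i j, i ≠ j → G i j ≠ 0) :
    ∃ b : Module.Basis (Fin 3) F (Fin 3 → F), ∀ k i, ∃ j, ∃ c : F,
      b i + (G k ⬝ᵥ b i) • Pi.single k 1 = c • b j := by
  have : Finite (GL (Fin 3) F) := Finite.of_injective _ Units.val_injective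
  have hd : ∀ i, G i i = 0 := fun i => by simpa using (h i).dot
  let t : Fin 3 → GL (Fin 3) F := fun i => tvGL _ _ (h i).dot
  let H := Subgroup.closure (Set.range t)
  have hH : H ≤ P := (Subgroup.closure_le _).2 (by rintro _ ⟨i, rfl⟩; exact (h i).tv.mem)
  have ht : ∀ i, t i ∈ H := fun i => Subgroup.subset_closure ⟨i, rfl⟩
  let τ : H := ⟨t 0, ht 0⟩
  have tt : t 0 * t 0 = 1 := tvGL_mul_self hS.two _
  have hcj : ∀ g : H, ∃ u χ, ∃ hu : SK P ⊥ u χ, ((g * τ * g⁻¹ : H) : GL (Fin 3) F) =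
      tvGL u χ hu.dot := fun g => ⟨_, _, (h 0).conj (hH g.2), conj_tvGL _ (h 0).dot⟩
  have iso : IsIsolatedInvolution τ := ⟨Invol.orderOf_eq_two (fun e => tvGL_not_mem_scalars
      (h 0).dot (h 0).1 (h 0).2.1 (show t 0 ∈ _ from (show t 0 = 1 from congrArg Subtype.val e) ▸ one_mem _))
      (Subtype.ext tt), fun g hg => by
    obtain ⟨u, χ, hu, e⟩ := hcj g
    refine Subtype.ext (e.trans (eq_of_dot hS (h 0) hu
      (dot_of_commute (h1 := (h 0).dot) (h2 := hu.dot) (h 0).1 (h 0).2.1 hu.2.1 ?_)))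
    rw [← e, mul_inv_eq_iff_eq_mul]
    exact congrArg Subtype.val hg.eq.symm⟩
  have sc : ∀ z : H, z ∈ Subgroup.center H →
      ((z : GL (Fin 3) F) : Matrix (Fin 3) (Fin 3) F) *ᵥ Pi.single 0 1 = Pi.single 0 1 → z = 1 :=
    fun z hz h0 => by
      have k := fun i => fix_of_commute (h i).1 (h i).2.1 (z := z) (h := (h i).dot)
        (mul_inv_eq_iff_eq_mul.2 (congrArg Subtype.val
          (Subgroup.mem_center_iff.1 hz ⟨t i, ht i⟩).symm))
      choose c _ e1 e2 using k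
      have c0 : c 0 = 1 := smul_left_injective F (h 0).1 (by simpa [← e1] using h0)
      have ci : ∀ i, c i = 1 := fun i => by
        by_cases hi : i = 0
        · rw [hi, c0]
        have := congrArg (· ⬝ᵥ Pi.single i 1) (e2 0)
        simp only [← dotProduct_mulVec, e1] at this
        simp only [c0, one_smul, dotProduct_smul, dotProduct_single, mul_one, smul_eq_mul] at this
        exact mul_right_cancel₀ (ho 0 i (Ne.symm hi)) (this.trans (one_mul _).symm)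
      refine Subtype.ext (Units.ext (Matrix.ext fun i j => ?_))
      simpa [ci, Pi.single_apply, Matrix.one_apply] using congrFun (e1 j) i
  obtain ⟨B, hBn, hB, β, hβ, hβt⟩ := exists_abelian iso (fun K hK => by
      have : H ≤ K.map H.subtype := (Subgroup.closure_le _).2 (by
        rintro _ ⟨i, rfl⟩
        by_cases hi : i = 0
        · exact ⟨_, hK 1, by simp [hi, τ]⟩
        have m : ∀ i, Tv H (Pi.single i 1) (G i) := fun i => tv_of_mem (ht i) (h i).dot rfl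
        obtain ⟨n, hn, -, e, -⟩ := dc hS.two (m 0) (m i) (by simpa using ho 0 i (Ne.symm hi))
          (by simpa using ho i 0 hi)
        exact ⟨_, hK ⟨n, hn⟩, e⟩)
      exact eq_top_iff.2 fun g _ => by
        obtain ⟨k, hk, e⟩ := this g.2
        exact (Subtype.ext e : k = g) ▸ hk)
    (fun hc => ho 1 0 (by simp) (by
      simpa using dot_of_commute (h1 := (h 1).dot) (h2 := (h 0).dot) (h 1).1 (h 1).2.1 (h 0).2.1
        (mul_inv_eq_iff_eq_mul.2 (congrArg Subtype.val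
          (Subgroup.mem_center_iff.1 hc ⟨t 1, ht 1⟩).symm))))
    (fun c₁ c₂ h1 h2 hc => sc _ hc (by
      obtain ⟨a, ha, e1, -⟩ := fix_of_commute (h 0).1 (h 0).2.1 (z := c₁) (h := (h 0).dot)
        (mul_inv_eq_iff_eq_mul.2 (congrArg Subtype.val h1.eq))
      obtain ⟨b, hb, e2, -⟩ := fix_of_commute (h 0).1 (h 0).2.1 (z := c₂) (h := (h 0).dot)
        (mul_inv_eq_iff_eq_mul.2 (congrArg Subtype.val h2.eq))
      have i1 : ∀ {z : GL (Fin 3) F} {a : F}, a ≠ 0 →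
          (z : Matrix (Fin 3) (Fin 3) F) *ᵥ Pi.single 0 1 = a • Pi.single 0 1 →
          ((z⁻¹ : GL (Fin 3) F) : Matrix (Fin 3) (Fin 3) F) *ᵥ Pi.single 0 1 =
            a⁻¹ • Pi.single 0 1 := fun {z a} ha e => by
        conv_rhs => rw [← inv_mulVec_mulVec z (Pi.single 0 1), e, mulVec_smul, smul_smul,
          inv_mul_cancel₀ ha, one_smul]
      change (((c₁ : GL (Fin 3) F) * c₂ * (c₁ : GL (Fin 3) F)⁻¹ * (c₂ : GL (Fin 3) F)⁻¹ :
        GL (Fin 3) F) : Matrix (Fin 3) (Fin 3) F) *ᵥ _ = _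
      simp only [Units.val_mul, ← mulVec_mulVec, e1, e2, i1 ha e1, i1 hb e2, mulVec_smul, smul_smul]
      rw [show b⁻¹ * (a⁻¹ * (b * a)) = 1 by field_simp, one_smul]))
  obtain ⟨u, χ, hu, es⟩ := hcj β
  have ττ : τ * τ = 1 := Subtype.ext tt
  have hg : β * τ * β⁻¹ * τ ∈ B := by
    have := mul_mem hβ (hBn.conj_mem _ (inv_mem hβ) τ)
    rwa [inv_eq_of_mul_eq_one_right ττ, ← mul_assoc, ← mul_assoc] at this
  have a0 : G 0 ⬝ᵥ u ≠ 0 := fun e => hβt (mul_inv_eq_iff_eq_mul.1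
    (Subtype.ext (es.trans (eq_of_dot hS (h 0) hu e)) : β * τ * β⁻¹ = τ))
  have a1 : χ ⬝ᵥ Pi.single 0 1 ≠ 0 := fun e => a0 (hS.noNil hu (h 0) e)
  have hp : G 0 ⨯₃ χ ≠ 0 := fun e => by
    obtain ⟨c, rfl⟩ := Mit.parallel_of_cross (h 0).2.1 e
    exact a1 (by rw [smul_dotProduct, (h 0).dot, smul_zero])
  let act : H →* Module.End F (Fin 3 → F) :=
    (Matrix.toLinAlgEquiv' (R := F)).toAlgHom.toMonoidHom.comp ((Units.coeHom _).comp H.subtype)
  have ha : ∀ (z : H) v, act z v = ((z : GL (Fin 3) F) : Matrix (Fin 3) (Fin 3) F) *ᵥ v :=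
    fun _ _ => rfl
  have hm : ∀ (a b : H) v, act (a * b) v = act a (act b v) := fun a b v => by rw [map_mul]; rfl
  have at' : ∀ i v, act ⟨t i, ht i⟩ v = v + (G i ⬝ᵥ v) • Pi.single i 1 := fun i v =>
    tvGL_mulVec (h i).dot _
  have as' : ∀ v, act (β * τ * β⁻¹) v = v + (χ ⬝ᵥ v) • u := fun v => by rw [ha, es, tvGL_mulVec]
  have ss : β * τ * β⁻¹ * (β * τ * β⁻¹) = 1 := by
    rw [conj_mul, ττ, mul_one, mul_inv_cancel]
  generalize β * τ * β⁻¹ = s at hg as' ss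
  have fx : ∀ v, act (s * τ) v = v ↔ ∃ c : F, v = c • (G 0 ⨯₃ χ) := fun v => by
    rw [hm, at', as']
    refine ⟨fun e => Mit.parallel_of_cross hp ?_, ?_⟩
    · rw [add_assoc, add_eq_left] at e
      have e1 := congrArg (G 0 ⬝ᵥ ·) e
      simp only [dotProduct_add, dotProduct_smul, (h 0).dot, smul_eq_mul, mul_zero, zero_add,
        dotProduct_zero, mul_eq_zero, a0, or_false] at e1
      rw [dotProduct_add, dotProduct_smul, smul_eq_mul, e1, zero_smul, add_zero] at e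
      have e2 := (smul_eq_zero.1 e).resolve_right (h 0).1
      rw [e2, zero_mul, add_zero] at e1
      rw [← neg_cross, cross_cross_eq_smul_sub_smul', dotProduct_comm _ χ]
      simp [e1, e2]
    · rintro ⟨c, rfl⟩
      simp [dot_self_cross, dot_cross_self]
  generalize G 0 ⨯₃ χ = p at hp fx
  have eig : ∀ z : H, ∃ c : F, act (s * τ) (act z p) = c • act z p := fun z => by
    obtain ⟨c, e⟩ := (fx (act (z⁻¹ * (s * τ) * z⁻¹⁻¹) p)).1 (by
      rw [← hm, hB _ hg _ (hBn.conj_mem _ hg z⁻¹), hm, (fx p).2 ⟨1, by simp⟩])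
    exact ⟨c, by rw [← map_smul, ← e, ← hm, ← hm]; congr 2; group⟩
  have inj : ∀ (z : H) {v}, v ≠ 0 → act z v ≠ 0 := fun z v hv => mulVec_ne_zero _ hv
  obtain ⟨i, hi⟩ : ∃ i, ∀ c : F, act ⟨t i, ht i⟩ p ≠ c • p := by
    by_contra! hc
    exact no_fix hG hd hp fun i => (hc i).imp fun c e => at' i p ▸ e
  generalize (⟨t i, ht i⟩ : H) = r at hi
  obtain ⟨l, hl⟩ := eig r
  have l1 : l ≠ 1 := fun e => ((fx _).1 (by rw [hl, e, one_smul])).elim hi
  have l0 : l ≠ 0 := fun e => inj _ (inj r hp) (by rw [hl, e, zero_smul])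
  have l2 : l ≠ l⁻¹ := fun e => l1 (by
    have : (l - 1) * (l - 1) = 0 := by
      linear_combination l * e + mul_inv_cancel₀ l0 + (1 - l) * hS.two
    exact sub_eq_zero.1 (mul_self_eq_zero.1 this))
  have hl' : act (s * τ) (act (τ * r) p) = l⁻¹ • act (τ * r) p := by
    have := congrArg (act s) hl
    rw [← hm, ← hm, ← mul_assoc, ss, one_mul, map_smul] at this
    rw [this, smul_smul, inv_mul_cancel₀ l0, one_smul, ← this, ← hm, ← hm, mul_assoc, ← mul_assoc τ,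
      ττ, one_mul]
  let z : Fin 3 → H := ![1, r, τ * r]
  let μ : Fin 3 → F := ![1, l, l⁻¹]
  have hμ : Function.Injective μ := by
    have l3 : l⁻¹ ≠ 1 := by simpa using l1
    intro i j
    fin_cases i <;> fin_cases j <;> simp [μ, l1, l1.symm, l2, l2.symm, l3, l3.symm]
  have he : ∀ i, act (s * τ) (act (z i) p) = μ i • act (z i) p := fun i => by
    fin_cases i
    · simpa [z, μ] using (fx p).2 ⟨1, by simp⟩
    exacts [hl, hl']
  let b := basisOfLinearIndependentOfCardEqFinrank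
    (Module.End.eigenvectors_linearIndependent' (act (s * τ)) μ hμ (fun i => act (z i) p) fun i =>
      ⟨Module.End.mem_eigenspace_iff.2 (he i), inj _ hp⟩) (by simp)
  have hb : ∀ i, b i = act (z i) p := fun i => by simp [b]
  refine ⟨b, fun k i => ?_⟩
  obtain ⟨c, hc⟩ := eig (⟨t k, ht k⟩ * z i)
  rw [hm ⟨t k, ht k⟩, ← hb, at'] at hc
  generalize b i + (G k ⬝ᵥ b i) • Pi.single k 1 = v at hc ⊢
  have co : ∀ j, μ j ≠ c → b.repr v j = 0 := fun j hj => by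
    have e := congrArg (fun w => b.repr w j) hc
    conv_lhs at e => rw [← b.sum_repr v]
    simp only [map_sum, map_smul, hb, he] at e
    simp only [← hb, Module.Basis.repr_self, Finsupp.coe_finsetSum, Finset.sum_apply,
      Finsupp.smul_apply, Finsupp.single_apply, smul_eq_mul, mul_ite, mul_one, mul_zero,
      Finset.sum_ite_eq', Finset.mem_univ, if_true] at e
    exact (mul_eq_zero.1 (by linear_combination e)).resolve_right (sub_ne_zero.2 hj)
  obtain ⟨j, hj⟩ : ∃ j, ∀ m, m ≠ j → μ m ≠ c := by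
    by_cases hc : ∃ j, μ j = c
    · obtain ⟨j, rfl⟩ := hc
      exact ⟨j, fun m hm e => hm (hμ e)⟩
    · exact ⟨0, fun m _ e => hc ⟨m, e⟩⟩
  refine ⟨j, b.repr v j, ?_⟩
  conv_lhs => rw [← b.sum_repr v]
  exact Finset.sum_eq_single j (fun m _ hm => by rw [co m (hj m hm), zero_smul]) (by simp)

theorem tri3 [Finite F] (hS : S2 P) (hG : G.det ≠ 0) (h : ∀ i, SK P ⊥ (Pi.single i 1) (G i)) :
    (G 0 1 * G 1 0 = 1 ∧ G 0 2 * G 2 0 = 1) ∨ (G 0 1 * G 1 0 = 1 ∧ G 1 2 * G 2 1 = 1) ∨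
      (G 0 2 * G 2 0 = 1 ∧ G 1 2 * G 2 1 = 1) := by
  have hd : ∀ i, G i i = 0 := fun i => by simpa using (h i).dot
  have ho : ∀ i j, i ≠ j → G i j ≠ 0 := fun i j hij e => by
    have e' : G j i = 0 := by simpa using hS.noNil (h i) (h j) (by simpa using e)
    apply hG
    rw [det_fin_three, hd, hd, hd]
    fin_cases i <;> fin_cases j <;> simp_all
  obtain ⟨b, hb⟩ := exists_frame hS hG h ho
  choose k hk using fun i => type_of_perm hS.two b (h i).dot (h i).1 (h i).2.1 (hb i)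
  have o : ∀ i j, k i ≠ k j → G i j * G j i = 1 := fun i j hij => by
    simpa using one_of_types b hij (hk i) (hk j)
  by_cases h01 : k 0 = k 1 <;> by_cases h02 : k 0 = k 2
  · refine (no_fix hG hd (b.ne_zero (k 0)) fun i => ⟨1, ?_⟩).elim
    have : k 0 = k i := by fin_cases i <;> simp [h01, ← h02]
    rw [this, (hk i).1, zero_smul, add_zero, one_smul]
  · exact Or.inr (Or.inr ⟨o 0 2 h02, o 1 2 (h01 ▸ h02)⟩)
  · exact Or.inr (Or.inl ⟨o 0 1 h01, o 1 2 fun e => h01 (h02.trans e.symm)⟩)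
  · exact Or.inl ⟨o 0 1 h01, o 0 2 h02⟩

end Three

end Trix

theorem tri [Finite F] (hS : S2 P) {x φ y η z ζ : ι → F} (h1 : SK P ⊥ x φ) (h2 : SK P ⊥ y η)
    (h3 : SK P ⊥ z ζ) (hδ : φ ⬝ᵥ y * η ⬝ᵥ z * ζ ⬝ᵥ x ≠ φ ⬝ᵥ z * ζ ⬝ᵥ y * η ⬝ᵥ x) :
    (φ ⬝ᵥ y * η ⬝ᵥ x = 1 ∧ φ ⬝ᵥ z * ζ ⬝ᵥ x = 1) ∨ (φ ⬝ᵥ y * η ⬝ᵥ x = 1 ∧ η ⬝ᵥ z * ζ ⬝ᵥ y = 1) ∨
      (φ ⬝ᵥ z * ζ ⬝ᵥ x = 1 ∧ η ⬝ᵥ z * ζ ⬝ᵥ y = 1) := by
  let X : Matrix ι (Fin 3) F := (Matrix.of ![x, y, z])ᵀ
  let Φ : Matrix (Fin 3) ι F := Matrix.of ![φ, η, ζ]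
  have e : Φ * X = !![0, φ ⬝ᵥ y, φ ⬝ᵥ z; η ⬝ᵥ x, 0, η ⬝ᵥ z; ζ ⬝ᵥ x, ζ ⬝ᵥ y, 0] := by
    ext i j
    fin_cases i <;> fin_cases j <;> first | rfl | exact h1.dot | exact h2.dot | exact h3.dot
  have hG : (Φ * X).det ≠ 0 := fun h0 => hδ (by
    rw [e, det_fin_three] at h0
    simp at h0
    linear_combination h0 - (φ ⬝ᵥ z * ζ ⬝ᵥ y * η ⬝ᵥ x) * hS.two)
  have hY : ((Φ * X)⁻¹ * Φ) * X = 1 := by
    rw [Matrix.mul_assoc, nonsing_inv_mul _ (Ne.isUnit hG)]
  have := Trix.tri3 (Trix.s2_emb hY hS) hG fun i => (Trix.sk_emb hY).2 (by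
    have e1 : (Φ * X) i ᵥ* ((Φ * X)⁻¹ * Φ) = Φ i := by
      change (Φ * X).row i ᵥ* _ = Φ.row i
      rw [← single_one_vecMul, vecMul_vecMul, ← Matrix.mul_assoc, mul_nonsing_inv _ (Ne.isUnit hG),
        Matrix.one_mul, single_one_vecMul]
    rw [e1, mulVec_single_one]
    fin_cases i
    exacts [h1, h2, h3])
  simpa [e] using this

end CfsgLib.TvN
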