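import Mathlib
import Cfsg.Agent.Lib.TvN.Tri

/-! The position of a transvection relative to a monomial frame.  See `plans/TVN.md`. -/

set_option autoImplicit false

namespace CfsgLib.TvN

open Matrix Cfsg Cfsg.Geo CfsgLib.Asch
open scoped MatrixGroups commutatorElement

variable {ι : Type} [Fintype ι] [DecidableEq ι] {F : Type*} [Field F]
  {P : Subgroup (GL ι F)} {K : Subfield F}

namespace A2x

/-- two vectors with dual forms -/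
structure Du (e e' ε ε' : ι → F) : Prop where
  d11 : ε ⬝ᵥ e = 1
  d12 : ε ⬝ᵥ e' = 0
  d21 : ε' ⬝ᵥ e = 0
  d22 : ε' ⬝ᵥ e' = 1

/-- the monomial transvection with parameter `a` -/
def Pr (P : Subgroup (GL ι F)) (e e' ε ε' : ι → F) (a : F) : Prop :=
  a ≠ 0 ∧ SK P ⊥ (e + a • e') (ε + a⁻¹ • ε')

variable {e e' ε ε' u χ v ψ : ι → F} {a b ζ : F}

omit [DecidableEq ι] in
theorem Du.symm (d : Du e e' ε ε') : Du e' e ε' ε := ⟨d.d22, d.d21, d.d12, d.d11⟩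

theorem Pr.symm (h : Pr P e e' ε ε' a) : Pr P e' e ε' ε a⁻¹ := by
  have := h.1
  exact ⟨inv_ne_zero h.1, (h.2.scale (inv_ne_zero h.1)).congr (by match_scalars <;> field_simp)
    (by match_scalars <;> field_simp)⟩

theorem Pr.swap (h2 : (2 : F) = 0) (d : Du e e' ε ε') (h : Pr P e e' ε ε' a) {α β : F}
    (hv : SK P ⊥ (v + α • e) (ψ + β • ε)) (h1 : ε ⬝ᵥ v = 0) (h1' : ε' ⬝ᵥ v = 0) (h3 : ψ ⬝ᵥ e = 0)
    (h3' : ψ ⬝ᵥ e' = 0) : SK P ⊥ (v + (α * a) • e') (ψ + (β * a⁻¹) • ε') := by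
  refine (hv.conj_tv h.2.tv).congr ?_ ?_ <;>
    simp only [add_dotProduct, dotProduct_add, smul_dotProduct, dotProduct_smul, d.d11, d.d12, d.d21, h1,
      h1', h3, h3', smul_eq_mul, mul_zero, mul_one, add_zero, zero_add] <;> match_scalars
  · rfl
  · linear_combination α * h2
  · ring
  · rfl
  · ring
  · linear_combination (-β * a⁻¹) * h2

theorem tri_pr [Finite F] (hS : S2 P) (d : Du e e' ε ε') (ha : Pr P e e' ε ε' a) (hb : Pr P e e' ε ε' (ζ * a))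
    (z1 : ζ ≠ 1) (z3 : ζ ^ 2 + ζ + 1 ≠ 0) (hu : SK P ⊥ u χ) (hk : ε ⬝ᵥ u * χ ⬝ᵥ e ≠ ε' ⬝ᵥ u * χ ⬝ᵥ e') :
    (ε ⬝ᵥ u + a⁻¹ * ε' ⬝ᵥ u) * (χ ⬝ᵥ e + a * χ ⬝ᵥ e') = 1 ∧
      (ε ⬝ᵥ u + (ζ * a)⁻¹ * ε' ⬝ᵥ u) * (χ ⬝ᵥ e + ζ * a * χ ⬝ᵥ e') = 1 := by
  have h2 := hS.two
  have a0 := ha.1
  have z0 : ζ ≠ 0 := left_ne_zero_of_mul hb.1
  have t := tri hS ha.2 hb.2 hu
  simp only [add_dotProduct, dotProduct_add, smul_dotProduct, dotProduct_smul, d.d11, d.d12, d.d21, d.d22,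
    smul_eq_mul, mul_zero, mul_one, add_zero, zero_add] at t
  have hw : (1 + ζ * a * a⁻¹) * (1 + a * (ζ * a)⁻¹) ≠ 1 := fun k => z3 (by
    field_simp at k
    linear_combination k)
  have z1' : 1 + ζ ≠ 0 := fun k => z1 (by linear_combination k - h2)
  refine ((t fun k => hk (mul_left_cancel₀ (mul_ne_zero z1' z1') ?_)).resolve_left fun k => hw k.1).resolve_left
    fun k => hw k.1
  field_simp at k
  generalize ε ⬝ᵥ u = u1, ε' ⬝ᵥ u = u2, χ ⬝ᵥ e = c1, χ ⬝ᵥ e' = c2 at k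
  refine mul_left_cancel₀ a0 ?_
  linear_combination k + (a * (1 + ζ) * u1 * c1 - a * (1 + ζ) * u2 * c2) * h2

theorem line [Finite F] (hS : S2 P) (d : Du e e' ε ε') (hp : ∀ k : ℕ, Pr P e e' ε ε' (ζ ^ k))
    (z1 : ζ ≠ 1) (z3 : ζ ^ 2 + ζ + 1 ≠ 0) (hu : SK P ⊥ u χ) (hk : ε ⬝ᵥ u * χ ⬝ᵥ e ≠ ε' ⬝ᵥ u * χ ⬝ᵥ e') :
    (ε' ⬝ᵥ u = 0 ∧ χ ⬝ᵥ e' = 0 ∧ ε ⬝ᵥ u * χ ⬝ᵥ e = 1) ∨ (ε ⬝ᵥ u = 0 ∧ χ ⬝ᵥ e = 0 ∧ ε' ⬝ᵥ u * χ ⬝ᵥ e' = 1) := by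
  have h2 := hS.two
  have z0 : ζ ≠ 0 := by simpa using (hp 1).1
  obtain ⟨k0, k1⟩ := tri_pr hS d (hp 0) (pow_succ' ζ 0 ▸ hp 1) z1 z3 hu hk
  obtain ⟨-, k2⟩ := tri_pr hS d (hp 1) (pow_succ' ζ 1 ▸ hp 2) z1 z3 hu hk
  generalize ε ⬝ᵥ u = u1, ε' ⬝ᵥ u = u2, χ ⬝ᵥ e = c1, χ ⬝ᵥ e' = c2 at *
  have z1' : ζ - 1 ≠ 0 := sub_ne_zero.2 z1
  field_simp at k0 k1 k2
  have q1 : u2 * c1 = u1 * c2 * ζ := mul_left_cancel₀ z1' (by linear_combination ζ * k0 - k1)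
  have q2 : u2 * c1 = u1 * c2 * ζ ^ 3 := mul_left_cancel₀ z1' (by linear_combination ζ * k1 - k2)
  have p : u1 * c2 = 0 := mul_left_cancel₀ (mul_ne_zero z0 (mul_ne_zero z1' z1')) (by
    linear_combination q1 - q2 + (u1 * c2 * ζ - u1 * c2 * ζ ^ 2) * h2)
  rw [p, zero_mul] at q1
  by_cases h1 : u1 * c1 = 0
  · have k : u2 * c2 = 1 := by linear_combination k0 - h1 - p - q1
    exact .inr ⟨(mul_eq_zero.1 p).resolve_right (right_ne_zero_of_mul_eq_one k),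
      (mul_eq_zero.1 q1).resolve_left (left_ne_zero_of_mul_eq_one k), k⟩
  · have e1 := (mul_eq_zero.1 q1).resolve_right (right_ne_zero_of_mul h1)
    have e2 := (mul_eq_zero.1 p).resolve_left (left_ne_zero_of_mul h1)
    exact .inl ⟨e1, e2, by rw [e1, e2] at k0; linear_combination k0⟩

theorem nn (hS : S2 P) (hp : ∀ k : ℕ, Pr P e e' ε ε' (ζ ^ k)) (z1 : ζ ≠ 1) (hu : SK P ⊥ u χ) :
    (ε ⬝ᵥ u = 0 ∧ ε' ⬝ᵥ u = 0) ↔ (χ ⬝ᵥ e = 0 ∧ χ ⬝ᵥ e' = 0) := by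
  have z0 : ζ ≠ 0 := by simpa using (hp 1).1
  have z1' : ζ - 1 ≠ 0 := sub_ne_zero.2 z1
  refine ⟨fun h => ?_, fun h => ?_⟩
  · have k0 := hS.noNil (hp 0).2 hu (by simp [h.1, h.2])
    have k1 := hS.noNil (hp 1).2 hu (by simp [h.1, h.2])
    simp only [dotProduct_add, dotProduct_smul, smul_eq_mul] at k0 k1
    have : χ ⬝ᵥ e' = 0 := mul_left_cancel₀ z1' (by linear_combination k1 - k0)
    exact ⟨by simpa [this] using k0, this⟩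
  · have k0 := hS.noNil hu (hp 0).2 (by simp [h.1, h.2])
    have k1 := hS.noNil hu (hp 1).2 (by simp [h.1, h.2])
    simp only [add_dotProduct, smul_dotProduct, smul_eq_mul] at k0 k1
    field_simp at k0 k1
    have : ε ⬝ᵥ u = 0 := mul_left_cancel₀ z1' (by linear_combination k1 - k0)
    exact ⟨this, by simpa [this] using k0⟩

theorem pick (h2 : (2 : F) = 0) (z0 : ζ ≠ 0) (z1 : ζ ≠ 1) (z3 : ζ ^ 2 + ζ + 1 ≠ 0) {c k : F} (hc : c ≠ 0)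
    (hk : k ≠ 0) (x y : F) : ∃ i : ℕ, ζ ^ i * c ≠ x ∧ ζ ^ i * c ≠ y ∧ k * (ζ ^ i * c) ^ 2 + ζ ^ i * c + k ≠ 0 := by
  have z1' : ζ - 1 ≠ 0 := sub_ne_zero.2 z1
  have key : ∀ i j : ℕ, i < j → j < 5 → ζ ^ i ≠ ζ ^ j := fun i j h1 h3 e => by
    obtain ⟨d, rfl⟩ := Nat.exists_eq_add_of_lt h1
    rw [add_assoc, pow_add, left_eq_mul₀ (pow_ne_zero i z0)] at e
    have : d < 4 := by omega
    interval_cases d
    · exact z1 (by simpa using e)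
    · exact pow_ne_zero 2 z1' (by linear_combination e + (1 - ζ) * h2)
    · exact mul_ne_zero z1' z3 (by linear_combination e)
    · exact pow_ne_zero 4 z1' (by linear_combination e + (1 - 2 * ζ + 3 * ζ ^ 2 - 2 * ζ ^ 3) * h2)
  by_contra! hc'
  open Polynomial in
  have := eq_zero_of_natDegree_lt_card_of_eval_eq_zero ((X - C x) * (X - C y) * (C k * X ^ 2 + X + C k))
    (f := fun i : Fin 5 => ζ ^ (i : ℕ) * c) (fun i j e => by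
      have e := mul_right_cancel₀ hc e
      rcases lt_trichotomy (i : ℕ) j with h | h | h
      · exact absurd e (key i j h j.2)
      · exact Fin.ext h
      · exact absurd e.symm (key j i h i.2)) (fun i => by
      simp only [eval_mul, eval_sub, eval_add, eval_pow, eval_X, eval_C, mul_eq_zero, sub_eq_zero]
      have := hc' i
      tauto) (by rw [Fintype.card_fin, Nat.lt_succ_iff]; compute_degree)
  simp only [mul_eq_zero, Polynomial.X_sub_C_ne_zero, false_or] at this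
  exact hk (by simpa using congrArg (Polynomial.eval 0) this)

/-- the case of a pair `x + u`, `ξ + χ` over a monomial pair -/
theorem tail [Finite F] (hS : S2 P) (z0 : ζ ≠ 0) (z1 : ζ ≠ 1) (z3 : ζ ^ 2 + ζ + 1 ≠ 0) {x y ξ η : ι → F}
    (hx : ∀ k : ℕ, SK P ⊥ (x + (ζ ^ k)⁻¹ • u) (ξ + ζ ^ k • χ))
    (hy : ∀ k : ℕ, SK P ⊥ (y + (ζ ^ k)⁻¹ • u) (η + ζ ^ k • χ)) (d1 : ξ ⬝ᵥ x = 0) (d2 : ξ ⬝ᵥ y = 1)
    (d3 : η ⬝ᵥ x = 1) (d4 : η ⬝ᵥ y = 0) (d5 : ξ ⬝ᵥ u = 0) (d6 : η ⬝ᵥ u = 0) (d7 : χ ⬝ᵥ x = 0) (d8 : χ ⬝ᵥ y = 0)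
    (d9 : χ ⬝ᵥ u = 0) : u = 0 ∧ χ = 0 := by
  have h2 := hS.two
  have z1' : ζ - 1 ≠ 0 := sub_ne_zero.2 z1
  by_cases hu : u = 0
  · have := hS.ua (by simpa [hu] using hx 0 : SK P ⊥ x (ξ + χ)) (by simpa [hu] using hx 1 : SK P ⊥ x (ξ + ζ • χ))
    rw [add_right_inj, ← sub_eq_zero, ← one_smul F χ, smul_smul, mul_one, ← sub_smul] at this
    exact ⟨hu, (smul_eq_zero.1 this).resolve_left z1'⟩
  by_cases hχ : χ = 0
  · have := hS.uc (by simpa [hχ] using hx 1 : SK P ⊥ (x + ζ⁻¹ • u) ξ) (by simpa [hχ] using hx 0 : SK P ⊥ (x + u) ξ)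
    rw [add_right_inj, eq_inv_smul_iff₀ z0, ← sub_eq_zero, ← one_smul F u, smul_smul, mul_one, ← sub_smul] at this
    exact absurd ((smul_eq_zero.1 this).resolve_left z1') hu
  exfalso
  let Q : F → F → F → F → Prop := fun α β γ δ => 1 + (α • vecMulVec x ξ + β • vecMulVec x χ + γ • vecMulVec u ξ +
    δ • vecMulVec u χ) ∈ matrixSet P
  have Qm : ∀ {α β γ δ α' β' γ' δ' : F}, Q α β γ δ → Q α' β' γ' δ' → Q (α + α') (β + β') (γ + γ') (δ + δ') :=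
    fun h h' => by
      convert matrixSet_mul_mem P _ h _ h' using 1
      simp only [add_mul, mul_add, one_mul, mul_one, smul_mul_assoc, mul_smul_comm, vv_mul_vv, d1, d5, d7, d9,
        zero_smul, smul_zero, add_zero]
      module
  have Qs : ∀ {s t : F}, SK P ⊥ (x + s • u) (ξ + t • χ) → Q 1 t s (s * t) := fun h => by
    convert h.tv.2 using 2
    simp only [add_vecMulVec, vecMulVec_add, smul_vecMulVec, vecMulVec_smul]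
    module
  have key : ∀ i j k : ℕ, Tv P u ((((ζ ^ i)⁻¹ + (ζ ^ j)⁻¹ + (ζ ^ k)⁻¹) * (ζ ^ i + ζ ^ j + ζ ^ k) + 1) • χ) :=
    fun i j k => by
      have p : SK P ⊥ (x + ((ζ ^ i)⁻¹ + (ζ ^ j)⁻¹ + (ζ ^ k)⁻¹) • u) (ξ + (ζ ^ i + ζ ^ j + ζ ^ k) • χ) := by
        refine ((hy k).conj_tv ((hx i).conj_tv (hy j).tv).tv).congr ?_ ?_ <;>
          simp only [add_dotProduct, dotProduct_add, smul_dotProduct, dotProduct_smul, sub_dotProduct, d2, d3,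
            d4, d5, d6, d7, d8, d9, smul_eq_mul, mul_zero, add_zero, sub_zero] <;> match_scalars
        · linear_combination h2
        · ring
        · ring
        · linear_combination h2
        · linear_combination (-ζ ^ i) * h2
        · linear_combination -h2
      refine ⟨by simp [d9], ?_⟩
      convert Qm (Qm (Qm (Qs p) (Qs (hx i))) (Qs (hx j))) (Qs (hx k)) using 2
      rw [vecMulVec_smul]
      match_scalars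
      · rw [inv_mul_cancel₀ (pow_ne_zero i z0), inv_mul_cancel₀ (pow_ne_zero j z0),
          inv_mul_cancel₀ (pow_ne_zero k z0)]
        linear_combination -h2
      · linear_combination -2 * h2
      · linear_combination -(ζ ^ i + ζ ^ j + ζ ^ k) * h2
      · linear_combination -((ζ ^ i)⁻¹ + (ζ ^ j)⁻¹ + (ζ ^ k)⁻¹) * h2
  have s0 : (ζ - 1) ^ 4 / ζ ^ 2 ≠ 0 := div_ne_zero (pow_ne_zero 4 z1') (pow_ne_zero 2 z0)
  have k1 := key 0 1 2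
  have k2 := key 0 2 4
  rw [show ((ζ ^ 0)⁻¹ + (ζ ^ 1)⁻¹ + (ζ ^ 2)⁻¹) * (ζ ^ 0 + ζ ^ 1 + ζ ^ 2) + 1 = (ζ - 1) ^ 4 / ζ ^ 2 by
    field_simp; linear_combination (3 * ζ ^ 3 - ζ ^ 2 + 3 * ζ) * h2] at k1
  rw [show ((ζ ^ 0)⁻¹ + (ζ ^ 2)⁻¹ + (ζ ^ 4)⁻¹) * (ζ ^ 0 + ζ ^ 2 + ζ ^ 4) + 1 = ((ζ - 1) ^ 4 / ζ ^ 2) ^ 2 by
    field_simp
    linear_combination (4 * ζ ^ 7 - 13 * ζ ^ 6 + 28 * ζ ^ 5 - 33 * ζ ^ 4 + 28 * ζ ^ 3 - 13 * ζ ^ 2 + 4 * ζ) * h2] at k2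
  have k3 := smul_left_injective F hχ (hS.ua (sk_bot_iff.2 ⟨hu, smul_ne_zero s0 hχ, k1⟩)
    (sk_bot_iff.2 ⟨hu, smul_ne_zero (pow_ne_zero 2 s0) hχ, k2⟩))
  rw [sq, mul_eq_left₀ s0, div_eq_one_iff_eq (pow_ne_zero 2 z0)] at k3
  exact pow_ne_zero 2 z3 (by linear_combination k3 + (3 * ζ ^ 3 - ζ ^ 2 + 3 * ζ) * h2)

end A2x

open A2x

theorem Fr3.all (h2 : (2 : F) = 0) {ζ : F} {e₁ e₂ e₃ ε₁ ε₂ ε₃ : ι → F} (h : Fr3 P ζ e₁ e₂ e₃ ε₁ ε₂ ε₃) :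
    (∀ k : ℕ, Pr P e₁ e₂ ε₁ ε₂ (ζ ^ k)) ∧ (∀ k : ℕ, Pr P e₁ e₃ ε₁ ε₃ (ζ ^ k)) ∧
      ∀ k : ℕ, Pr P e₂ e₃ ε₂ ε₃ (ζ ^ k) := by
  have z0 := h.z0
  have D12 : Du e₁ e₂ ε₁ ε₂ := ⟨h.d11, h.d12, h.d21, h.d22⟩
  have D32 : Du e₃ e₂ ε₃ ε₂ := ⟨h.d33, h.d32, h.d23, h.d22⟩
  have s1 : Pr P e₁ e₂ ε₁ ε₂ 1 := ⟨one_ne_zero, by simpa using h.s1⟩
  have s2 : Pr P e₁ e₂ ε₁ ε₂ ζ := ⟨z0, h.s2⟩
  have a : ∀ {b : F}, Pr P e₁ e₃ ε₁ ε₃ b → Pr P e₂ e₃ ε₂ ε₃ b := fun {b} p =>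
    ⟨p.1, (s1.swap h2 D12 (v := b • e₃) (ψ := b⁻¹ • ε₃) (α := 1) (β := 1) (p.2.congr (by module) (by module))
      (by simp [h.d13]) (by simp [h.d23]) (by simp [h.d31]) (by simp [h.d32])).congr (by simp [add_comm])
      (by simp [add_comm])⟩
  have p13 : ∀ k : ℕ, Pr P e₁ e₃ ε₁ ε₃ (ζ ^ k) := fun k => by
    induction k with
    | zero => exact ⟨by simp, by simpa using h.s3⟩
    | succ k ih =>
      exact ⟨pow_ne_zero _ z0, ((s2.symm.swap h2 D12.symm (v := ζ ^ k • e₃) (ψ := (ζ ^ k)⁻¹ • ε₃) (α := 1) (β := 1)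
        ((a ih).2.congr (by module) (by module)) (by simp [h.d23]) (by simp [h.d13]) (by simp [h.d32])
        (by simp [h.d31])).scale z0).congr (by rw [pow_succ']; match_scalars <;> field_simp)
        (by rw [pow_succ']; match_scalars <;> field_simp)⟩
  refine ⟨fun k => ⟨pow_ne_zero _ z0, ?_⟩, p13, fun k => a (p13 k)⟩
  simpa using (a (p13 0)).symm.swap h2 D32 (p13 k).2 h.d31 h.d21 h.d13 h.d12

theorem Fr3.third [Finite F] (hS : S2 P) {ζ : F} {e₁ e₂ e₃ ε₁ ε₂ ε₃ : ι → F}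
    (h : Fr3 P ζ e₁ e₂ e₃ ε₁ ε₂ ε₃) {u χ : ι → F} (hu : SK P ⊥ u χ) :
    (ε₁ ⬝ᵥ u = 0 ∧ ε₂ ⬝ᵥ u = 0 ∧ χ ⬝ᵥ e₁ = 0 ∧ χ ⬝ᵥ e₂ = 0) ∨
    (∃ a b : F, a ≠ 0 ∧ b ≠ 0 ∧ u = a • e₁ + b • e₂ ∧ χ = a⁻¹ • ε₁ + b⁻¹ • ε₂) ∨
    (ε₂ ⬝ᵥ u = 0 ∧ χ ⬝ᵥ e₂ = 0 ∧ ε₁ ⬝ᵥ u * χ ⬝ᵥ e₁ = 1) ∨
    (ε₁ ⬝ᵥ u = 0 ∧ χ ⬝ᵥ e₁ = 0 ∧ ε₂ ⬝ᵥ u * χ ⬝ᵥ e₂ = 1) := by
  have h2 := hS.two
  have z0 := h.z0
  obtain ⟨p12, p13, p23⟩ := h.all h2
  have D12 : Du e₁ e₂ ε₁ ε₂ := ⟨h.d11, h.d12, h.d21, h.d22⟩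
  have D13 : Du e₁ e₃ ε₁ ε₃ := ⟨h.d11, h.d13, h.d31, h.d33⟩
  have D23 : Du e₂ e₃ ε₂ ε₃ := ⟨h.d22, h.d23, h.d32, h.d33⟩
  by_cases k12 : ε₁ ⬝ᵥ u * χ ⬝ᵥ e₁ ≠ ε₂ ⬝ᵥ u * χ ⬝ᵥ e₂
  · exact .inr (.inr (line hS D12 p12 h.z1 h.z3 hu k12))
  push Not at k12
  by_cases k13 : ε₁ ⬝ᵥ u * χ ⬝ᵥ e₁ = ε₃ ⬝ᵥ u * χ ⬝ᵥ e₃
  · left
    by_cases k0 : ε₁ ⬝ᵥ u * χ ⬝ᵥ e₁ = 0
    · have n12 := nn hS p12 h.z1 hu
      have n13 := nn hS p13 h.z1 hu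
      have n23 := nn hS p23 h.z1 hu
      have k2 := k12.symm.trans k0
      have k3 := k13.symm.trans k0
      rw [mul_eq_zero] at k0 k2 k3
      tauto
    exfalso
    have u1 := left_ne_zero_of_mul k0
    have u2 := left_ne_zero_of_mul (k12 ▸ k0)
    have u3 := left_ne_zero_of_mul (k13 ▸ k0)
    obtain ⟨i, i1, -, i3⟩ := pick h2 z0 h.z1 h.z3 (div_ne_zero u1 u2) k0 1 1
    obtain ⟨j, j1, j2, j3⟩ := pick h2 z0 h.z1 h.z3 (div_ne_zero u1 u3) k0 1 (ζ ^ i * (ε₁ ⬝ᵥ u / ε₂ ⬝ᵥ u))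
    have t := tri hS (p12 i).2 hu (p13 j).2
    simp only [add_dotProduct, dotProduct_add, smul_dotProduct, dotProduct_smul, h.d11, h.d12, h.d13, h.d21, h.d23,
      h.d31, h.d32, smul_eq_mul, mul_zero, mul_one, add_zero, one_mul] at t
    have a0 := pow_ne_zero i z0
    have b0 := pow_ne_zero j z0
    generalize ζ ^ i = a, ζ ^ j = b, ε₁ ⬝ᵥ u = x1, ε₂ ⬝ᵥ u = x2, ε₃ ⬝ᵥ u = x3, χ ⬝ᵥ e₁ = c1, χ ⬝ᵥ e₂ = c2,
      χ ⬝ᵥ e₃ = c3 at *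
    obtain rfl : c2 = x1 * c1 / x2 := by field_simp; linear_combination -k12
    obtain rfl : c3 = x1 * c1 / x3 := by field_simp; linear_combination -k13
    have c0 := right_ne_zero_of_mul k0
    have i1' : a * x1 + x2 ≠ 0 := fun e => i1 (by field_simp; linear_combination e - x2 * h2)
    have j1' : b * x1 + x3 ≠ 0 := fun e => j1 (by field_simp; linear_combination e - x3 * h2)
    rcases t fun e => j2 (by
      field_simp at e ⊢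
      refine mul_left_cancel₀ (mul_ne_zero i1' j1') ?_
      linear_combination e) with ⟨e, -⟩ | ⟨e, -⟩ | ⟨-, e⟩
    · exact i3 (by field_simp at e ⊢; linear_combination x1 * e + (a * x1 * x2 - x1 ^ 2 * a * x2 * c1) * h2)
    · exact i3 (by field_simp at e ⊢; linear_combination x1 * e + (a * x1 * x2 - x1 ^ 2 * a * x2 * c1) * h2)
    · exact j3 (by field_simp at e ⊢; linear_combination x1 * e + (b * x1 * x3 - x1 ^ 2 * b * x3 * c1) * h2)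
  rcases line hS D13 p13 h.z1 h.z3 hu k13 with ⟨u3, c3, k1⟩ | ⟨u1, c1, k3⟩ <;>
    rcases line hS D23 p23 h.z1 h.z3 hu (k12 ▸ k13) with ⟨u3', c3', k2⟩ | ⟨u2, c2, k3'⟩
  · right; left
    have u1 := left_ne_zero_of_mul_eq_one k1
    have u2 := left_ne_zero_of_mul_eq_one k2
    have c1 := eq_inv_of_mul_eq_one_right k1
    have c2 := eq_inv_of_mul_eq_one_right k2
    have d := hu.dot
    obtain ⟨u', eu⟩ : ∃ u', u = u' + (ε₂ ⬝ᵥ u) • e₂ + (ε₁ ⬝ᵥ u) • e₁ :=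
      ⟨u - (ε₁ ⬝ᵥ u) • e₁ - (ε₂ ⬝ᵥ u) • e₂, by abel⟩
    obtain ⟨χ', eχ⟩ : ∃ χ', χ = χ' + (ε₂ ⬝ᵥ u)⁻¹ • ε₂ + (ε₁ ⬝ᵥ u)⁻¹ • ε₁ :=
      ⟨χ - (ε₁ ⬝ᵥ u)⁻¹ • ε₁ - (ε₂ ⬝ᵥ u)⁻¹ • ε₂, by abel⟩
    have v1 := congrArg (ε₁ ⬝ᵥ ·) eu
    have v2 := congrArg (ε₂ ⬝ᵥ ·) eu
    have v3 := congrArg (ε₃ ⬝ᵥ ·) eu
    have w1 := congrArg (· ⬝ᵥ e₁) eχ
    have w2 := congrArg (· ⬝ᵥ e₂) eχ
    have w3 := congrArg (· ⬝ᵥ e₃) eχ
    simp only [add_dotProduct, dotProduct_add, smul_dotProduct, dotProduct_smul, h.d11, h.d12, h.d13, h.d21, h.d22,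
      h.d23, h.d31, h.d32, smul_eq_mul, mul_zero, mul_one, add_zero, c1, c2, c3, u3, right_eq_add,
      eq_comm (a := (0 : F))] at v1 v2 v3 w1 w2 w3
    generalize ε₁ ⬝ᵥ u = x1, ε₂ ⬝ᵥ u = x2 at eu eχ u1 u2
    subst eu eχ
    have d' : χ' ⬝ᵥ u' = 0 := by
      simp only [add_dotProduct, dotProduct_add, smul_dotProduct, dotProduct_smul, h.d11, h.d12, h.d21, h.d22,
        v1, v2, w1, w2, smul_eq_mul, mul_zero, mul_one, add_zero, zero_add, mul_inv_cancel₀ u1,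
        mul_inv_cancel₀ u2] at d
      linear_combination d - h2
    have hy : ∀ k : ℕ, SK P ⊥ (u' + (x1 * ζ ^ k) • e₁ + (x2 * ζ ^ k) • e₃)
        (χ' + (x1⁻¹ * (ζ ^ k)⁻¹) • ε₁ + (x2⁻¹ * (ζ ^ k)⁻¹) • ε₃) := fun k => by
      have s1 := (p13 0).symm.swap h2 D13.symm ((p13 k).swap h2 D13 hu (by simp [v1, h.d12]) (by simp [v3, h.d32])
        (by simp [w1, h.d21]) (by simp [w3, h.d23])) (by simp [v3, h.d32]) (by simp [v1, h.d12])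
        (by simp [w3, h.d23]) (by simp [w1, h.d21])
      exact (p23 k).swap h2 D23 (s1.congr (by simp [add_right_comm]) (by simp [add_right_comm]))
        (by simp [v2, h.d21]) (by simp [v3, h.d31]) (by simp [w2, h.d12]) (by simp [w3, h.d13])
    obtain ⟨rfl, rfl⟩ := tail hS z0 h.z1 h.z3 (u := u') (χ := χ') (x := x1 • e₁ + x2 • e₂) (y := x1 • e₁ + x2 • e₃)
      (ξ := x1⁻¹ • ε₁ + x2⁻¹ • ε₂) (η := x1⁻¹ • ε₁ + x2⁻¹ • ε₃)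
      (fun k => (((p23 0).symm.swap h2 D23.symm (hy k) (by simp [v3, h.d31]) (by simp [v2, h.d21])
        (by simp [w3, h.d13]) (by simp [w2, h.d12])).scale (inv_ne_zero (pow_ne_zero k z0))).congr
        (by match_scalars <;> field_simp) (by match_scalars <;> field_simp))
      (fun k => ((hy k).scale (inv_ne_zero (pow_ne_zero k z0))).congr
        (by match_scalars <;> field_simp) (by match_scalars <;> field_simp))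
      (by simp [h.d11, h.d12, h.d21, h.d22, u1, u2, one_add_one_eq_two, h2])
      (by simp [h.d11, h.d13, h.d21, h.d23, u1]) (by simp [h.d11, h.d12, h.d31, h.d32, u1])
      (by simp [h.d11, h.d13, h.d31, h.d33, u1, u2, one_add_one_eq_two, h2])
      (by simp [v1, v2]) (by simp [v1, v3]) (by simp [w1, w2]) (by simp [w1, w3]) d'
    exact ⟨x1, x2, u1, u2, by module, by module⟩
  · exact absurd k3' (by simp [u3])
  · exact absurd k3 (by simp [u3'])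
  · exact .inl ⟨u1, u2, c1, c2⟩

end CfsgLib.TvN
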