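import Mathlib
import Cfsg.Agent.Lib.TvN.Defs
import Cfsg.Agent.Lib.Mit.TVU

/-! No nilpotent pairs: the invariant form.  See `plans/TVN.md`. -/

set_option autoImplicit false

namespace CfsgLib.TvN

open Matrix Cfsg Cfsg.Geo CfsgLib.Asch
open scoped MatrixGroups commutatorElement

variable {ι : Type} [Fintype ι] [DecidableEq ι] {F : Type*} [Field F]
  {P : Subgroup (GL ι F)} {K : Subfield F}

namespace FORMx

/-- a non-degenerate skew-hermitian correlation -/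
structure SQ (σ : F →+* F) (D : (ι → F) → (ι → F)) : Prop where
  add : ∀ x y, D (x + y) = D x + D y
  smul : ∀ (c : F) x, D (c • x) = σ c • D x
  skew : ∀ x y, D x ⬝ᵥ y = -σ (D y ⬝ᵥ x)
  inj : ∀ x, D x = 0 → x = 0

theorem sesq {σ : F →+* F} (hσ : ∀ a, σ (σ a) = a) {Y : (ι → F) → (ι → F) → Prop}
    (hS : Submodule.span F {y | ∃ η, Y y η} = ⊤) (hΦ : Submodule.span F {η | ∃ y, Y y η} = ⊤)
    (h : ∀ y η y' η', Y y η → Y y' η' → η ⬝ᵥ y' = -σ (η' ⬝ᵥ y)) :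
    ∃ D, SQ σ D ∧ ∀ y η, Y y η → D y = η := by
  obtain ⟨B, hB⟩ := exists_gl_cols hS
  choose e he using hB
  let c : (ι → F) → ι → F := fun x => ((B⁻¹ : GL ι F) : Matrix ι ι F) *ᵥ x
  let b : ι → ι → F := fun j => (B : Matrix ι ι F) *ᵥ Pi.single j 1
  have hx : ∀ (ω x : ι → F), ω ⬝ᵥ x = ∑ j, c x j * ω ⬝ᵥ b j := fun ω x => by
    have : x = ∑ j, c x j • b j := by
      simp only [b, ← mulVec_smul, ← mulVec_sum]
      rw [← pi_eq_sum_univ' (c x), mulVec_mulVec, Units.mul_inv, one_mulVec]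
    conv_lhs => rw [this]
    simp only [dotProduct_sum, dotProduct_smul, smul_eq_mul]
  let D : (ι → F) → ι → F := fun x => ∑ j, σ (c x j) • e j
  have hD : ∀ x y, D x ⬝ᵥ y = ∑ j, σ (c x j) * e j ⬝ᵥ y := fun x y => by
    simp only [D, sum_dotProduct, smul_dotProduct, smul_eq_mul]
  have k1 : ∀ y η, Y y η → ∀ x, η ⬝ᵥ x = -σ (D x ⬝ᵥ y) := fun y η hy x => by
    rw [hx η x, hD, map_sum, ← Finset.sum_neg_distrib]
    refine Finset.sum_congr rfl fun j _ => ?_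
    rw [h _ _ _ _ hy (he j), map_mul, hσ, mul_neg]
  have k2 : ∀ x y, D x ⬝ᵥ y = -σ (D y ⬝ᵥ x) := fun x y => by
    rw [hD, hx (D y) x, map_sum, ← Finset.sum_neg_distrib]
    refine Finset.sum_congr rfl fun j _ => ?_
    rw [k1 _ _ (he j), map_mul, mul_neg]
  refine ⟨D, ⟨fun x y => ?_, fun a x => ?_, k2, fun x h0 => ?_⟩, fun y η hy => ?_⟩
  · simp only [D, c, mulVec_add, Pi.add_apply, map_add, add_smul, Finset.sum_add_distrib]
  · simp only [D, c, mulVec_smul, Pi.smul_apply, smul_eq_mul, map_mul, Finset.smul_sum, smul_smul]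
  · refine eq_zero_of_span hΦ ?_
    rintro η ⟨y, hy⟩
    rw [dotProduct_comm, k1 y η hy, h0, zero_dotProduct, map_zero, neg_zero]
  · refine sub_eq_zero.1 (eq_zero_of_forall_dot fun x => ?_)
    rw [sub_dotProduct, k2, k1 y η hy, sub_self]

/-- the isometry group of a two-argument form -/
def isoG (f : (ι → F) → (ι → F) → F) : Subgroup (GL ι F) where
  carrier := {g | ∀ u v, f ((g : Matrix ι ι F) *ᵥ u) ((g : Matrix ι ι F) *ᵥ v) = f u v}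
  mul_mem' {a b} ha hb u v := by
    rw [Units.val_mul, ← mulVec_mulVec, ← mulVec_mulVec, ha, hb]
  one_mem' u v := by simp
  inv_mem' {a} ha u v := by
    rw [← ha, mulVec_mulVec, mulVec_mulVec, Units.mul_inv, one_mulVec, one_mulVec]

theorem fix (hP : Hy P) (hne : ∃ v φ, SK P K v φ) {σ : F →+* F} {D : (ι → F) → (ι → F)}
    (hD : SQ σ D) (h : ∀ u χ, SK P K u χ → ∃ κ : F, κ ≠ 0 ∧ σ κ = κ ∧ χ = κ • D u) :
    FixesForm (matrixSet P) fun x y => D y ⬝ᵥ x := by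
  have : P ≤ isoG fun x y => D y ⬝ᵥ x := hP.le_of_sk hne fun u χ hu x y => by
    obtain ⟨κ, h0, h1, rfl⟩ := h u χ hu
    have h2 : D u ⬝ᵥ u = 0 := by
      have := hu.dot
      rw [smul_dotProduct, smul_eq_mul] at this
      exact (mul_eq_zero.1 this).resolve_left h0
    simp only [tvGL_mulVec, hD.add, hD.smul, add_dotProduct, dotProduct_add, smul_dotProduct,
      dotProduct_smul, smul_eq_mul, h2, map_mul, h1, hD.skew y u]
    ring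
  rintro _ ⟨g, hg, rfl⟩
  exact this hg

theorem span_c (hP : Hy P) (hN : NoNil P K) {x φ : ι → F} (h0 : SK P K x φ)
    {Y : (ι → F) → (ι → F) → Prop}
    (h3 : ∀ y η, SK P K y η → φ ⬝ᵥ y ≠ 0 → ∃ a b : F, a ≠ 0 ∧ b ≠ 0 ∧ Y (a • y) (b • η)) :
    Submodule.span F {y | ∃ η, Y y η} = ⊤ ∧ Submodule.span F {η | ∃ y, Y y η} = ⊤ := by
  constructor
  · refine eq_top_iff.2 ?_
    rw [← hP.span_nb ⟨x, φ, h0⟩ h0.1]
    refine Submodule.span_le.2 ?_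
    rintro y ⟨η, hy, e⟩
    obtain ⟨a, b, ha, -, h⟩ := h3 y η hy fun e' => e (hN h0 hy e')
    exact (Submodule.smul_mem_iff _ ha).1 (Submodule.subset_span ⟨_, h⟩)
  · refine eq_top_iff.2 ?_
    rw [← hP.span_nb' ⟨x, φ, h0⟩ h0.2.1]
    refine Submodule.span_le.2 ?_
    rintro η ⟨y, hy, e⟩
    obtain ⟨a, b, -, hb, h⟩ := h3 y η hy e
    exact (Submodule.smul_mem_iff _ hb).1 (Submodule.subset_span ⟨_, h⟩)

theorem exists_Y {Y : (ι → F) → (ι → F) → Prop} (hS : Submodule.span F {y | ∃ η, Y y η} = ⊤)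
    {χ : ι → F} (h : χ ≠ 0) : ∃ y η, Y y η ∧ χ ⬝ᵥ y ≠ 0 := by
  by_contra! hc
  exact h (eq_zero_of_span hS fun y hy => hy.elim fun η hη => hc y η hη)

theorem core (hP : Hy P) (hN : NoNil P K) {x φ : ι → F} (h0 : SK P K x φ) {σ : F →+* F}
    (hσ : ∀ a, σ (σ a) = a)
    (hW : ∀ u χ y η, SK P K u χ → SK P K y η → σ (χ ⬝ᵥ y * η ⬝ᵥ u) = χ ⬝ᵥ y * η ⬝ᵥ u)
    {Y : (ι → F) → (ι → F) → Prop} (h1 : ∀ y η, Y y η → SK P K y η)
    (h2 : ∀ y η y' η', Y y η → Y y' η' → η ⬝ᵥ y' = -σ (η' ⬝ᵥ y))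
    (h3 : ∀ y η, SK P K y η → φ ⬝ᵥ y ≠ 0 → ∃ a b : F, a ≠ 0 ∧ b ≠ 0 ∧ Y (a • y) (b • η))
    (h4 : ∀ y η u χ, Y y η → SK P K u χ → φ ⬝ᵥ u = 0 → χ ⬝ᵥ x = 0 →
      Y (y + (χ ⬝ᵥ y) • u) (η - (η ⬝ᵥ u) • χ)) :
    ∃ D, SQ σ D ∧ (∀ y η, Y y η → D y = η) ∧
      (∀ u χ, SK P K u χ → ∃ κ : F, κ ≠ 0 ∧ σ κ = κ ∧ χ = κ • D u) ∧
      FixesForm (matrixSet P) fun x y => D y ⬝ᵥ x := by
  obtain ⟨hS, hΦ⟩ := span_c hP hN h0 h3
  obtain ⟨D, hD, hY⟩ := sesq hσ hS hΦ h2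
  have key : ∀ u χ, SK P K u χ → ∃ κ : F, κ ≠ 0 ∧ σ κ = κ ∧ χ = κ • D u := fun u χ hu => by
    obtain ⟨y, η, hy, e⟩ := exists_Y hS hu.2.1
    have e' : η ⬝ᵥ u ≠ 0 := fun e' => e (hN (h1 y η hy) hu e')
    obtain ⟨κ, hκ⟩ : ∃ κ : F, χ = κ • D u := by
      by_cases hu0 : φ ⬝ᵥ u = 0
      · have := hY _ _ (h4 y η u χ hy hu hu0 (hN h0 hu hu0))
        rw [hD.add, hD.smul, hY y η hy, sub_eq_add_neg, add_right_inj] at this
        refine ⟨-(η ⬝ᵥ u)⁻¹ * σ (χ ⬝ᵥ y), ?_⟩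
        rw [← smul_smul, this, smul_neg, smul_smul, neg_mul, inv_mul_cancel₀ e', neg_smul, neg_neg,
          one_smul]
      · obtain ⟨a, b, -, hb, h⟩ := h3 u χ hu hu0
        have := hY _ _ h
        rw [hD.smul] at this
        exact ⟨b⁻¹ * σ a, by rw [← smul_smul, this, smul_smul, inv_mul_cancel₀ hb, one_smul]⟩
    refine ⟨κ, fun h => hu.2.1 (by rw [hκ, h, zero_smul]), ?_, hκ⟩
    have := hW u χ y η hu (h1 y η hy)
    have e2 : χ ⬝ᵥ y = -κ * σ (η ⬝ᵥ u) := by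
      conv_lhs => rw [hκ]
      rw [smul_dotProduct, hD.skew, hY y η hy, smul_eq_mul, mul_neg, neg_mul]
    rw [e2, map_mul, map_mul, hσ, map_neg] at this
    have e3 : σ (η ⬝ᵥ u) ≠ 0 := (map_ne_zero σ).2 e'
    exact mul_right_cancel₀ (mul_ne_zero e' e3) (by linear_combination -this)
  exact ⟨D, hD, hY, key, fix hP ⟨x, φ, h0⟩ hD key⟩

theorem symp (hP : Hy P) {x φ : ι → F} (h0 : SK P K x φ) {D : (ι → F) → (ι → F)}
    (hD : SQ (RingHom.id F) D)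
    (h : ∀ u χ, SK P K u χ → ∃ κ : F, κ ≠ 0 ∧ RingHom.id F κ = κ ∧ χ = κ • D u) :
    IsSymplecticForm fun x y => D y ⬝ᵥ x := by
  refine ⟨⟨fun x y v => dotProduct_add _ _ _, fun c x v => dotProduct_smul _ _ _,
    fun v x y => by rw [hD.add, add_dotProduct], fun c v x => by
      rw [hD.smul, smul_dotProduct]; rfl⟩, fun v w => hD.skew w v, fun v => ?_, fun v hv => ?_⟩
  · have hv : v ∈ Submodule.span F {y | ∃ η, SK P K y η ∧ η ⬝ᵥ x ≠ 0} := by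
      rw [hP.span_nb ⟨x, φ, h0⟩ h0.1]; trivial
    refine Submodule.span_induction (p := fun v _ => D v ⬝ᵥ v = 0) ?_ (by simp)
      (fun a b _ _ ha hb => ?_) (fun c a _ ha => ?_) hv
    · rintro u ⟨χ, hu, -⟩
      obtain ⟨κ, h1, -, rfl⟩ := h u χ hu
      have := hu.dot
      rw [smul_dotProduct, smul_eq_mul] at this
      exact (mul_eq_zero.1 this).resolve_left h1
    · rw [hD.add, add_dotProduct, dotProduct_add, dotProduct_add, ha, hb, hD.skew a b]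
      simp
    · rw [hD.smul, smul_dotProduct, dotProduct_smul, ha, smul_zero, smul_zero]
  · obtain ⟨y, hy⟩ := exists_dot_ne fun e => hv (hD.inj v e)
    exact ⟨⟨y, hy⟩, y, by rw [hD.skew]; simpa using hy⟩

theorem triple (hW : Wk P K) (hN : NoNil P K) {σ : F →+* F} (hσ : ∀ x, σ x = x ↔ x ∈ K)
    {v φ w ψ u χ : ι → F} (h1 : SK P K v φ) (h2 : SK P K w ψ) (h3 : SK P K u χ) :
    σ (φ ⬝ᵥ u * χ ⬝ᵥ w * ψ ⬝ᵥ v) = -(φ ⬝ᵥ w * ψ ⬝ᵥ u * χ ⬝ᵥ v) := by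
  have a12 := hW h1 h2
  have a23 := hW h2 h3
  have a13 := hW h1 h3
  have d : φ ⬝ᵥ u * χ ⬝ᵥ w * ψ ⬝ᵥ v - φ ⬝ᵥ w * ψ ⬝ᵥ u * χ ⬝ᵥ v ∈ K := by
    have := hW (h1.conj_tv h2.tv) h3
    simp only [sub_dotProduct, dotProduct_add, smul_dotProduct, dotProduct_smul,
      smul_eq_mul] at this
    convert K.add_mem (K.sub_mem this a13) (K.mul_mem a12 a23) using 1
    ring
  refine (Mit.conj_of_quad hσ d (by convert K.mul_mem (K.mul_mem a12 a23) a13 using 1; ring)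
    fun ht => ?_).1
  have ht' : φ ⬝ᵥ w * ψ ⬝ᵥ u * χ ⬝ᵥ v ∈ K := by simpa using K.sub_mem ht d
  by_cases e1 : φ ⬝ᵥ w = 0
  · simp [e1, hN h1 h2 e1]
  by_cases e2 : ψ ⬝ᵥ u = 0
  · simp [e2, hN h2 h3 e2]
  by_cases e3 : χ ⬝ᵥ v = 0
  · simp [e3, hN h3 h1 e3]
  have e4 : φ ⬝ᵥ u ≠ 0 := fun e => e3 (hN h1 h3 e)
  have := hN (h1.conj_tv (h2.2.2 _ (K.div_mem a13 ht'))) h3 (by
    simp only [sub_dotProduct, smul_dotProduct, smul_eq_mul]
    field_simp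
    ring)
  simp only [dotProduct_add, smul_dotProduct, dotProduct_smul, smul_eq_mul] at this
  field_simp at this
  linear_combination this

end FORMx

theorem form [Finite F] (hP : Hy P) (hne : ∃ v φ, SK P K v φ) (hW : Wk P K) (hN : NoNil P K) :
    (∃ f, IsSymplecticForm f ∧ FixesForm (matrixSet P) f) ∨ ∃ σ f, UF P K σ f := by
  obtain ⟨x, φ, h0⟩ := id hne
  obtain ⟨σ, hσ⟩ := Mit.exists_frob K
  let Y : (ι → F) → (ι → F) → Prop := fun y η => SK P K y η ∧ φ ⬝ᵥ y = 1 ∧ η ⬝ᵥ x = -1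
  have h2 : ∀ y η y' η', Y y η → Y y' η' → η ⬝ᵥ y' = -σ (η' ⬝ᵥ y) := fun y η y' η' h h' => by
    have := FORMx.triple hW hN hσ h0 h.1 h'.1
    rw [h.2.1, h.2.2, h'.2.1, h'.2.2, one_mul, one_mul, mul_neg, mul_neg, mul_one, mul_one,
      map_neg, neg_neg] at this
    exact this.symm
  have h3' : ∀ y η, SK P K y η → φ ⬝ᵥ y ≠ 0 →
      ∃ a b : F, a ≠ 0 ∧ b ≠ 0 ∧ a * b ∈ K ∧ Y (a • y) (b • η) := fun y η hy e => by
    have e' : η ⬝ᵥ x ≠ 0 := fun e' => e (hN hy h0 e')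
    have hk : (φ ⬝ᵥ y)⁻¹ * -(η ⬝ᵥ x)⁻¹ ∈ K := by
      convert K.neg_mem (K.inv_mem (hW h0 hy)) using 1
      rw [mul_inv, mul_neg]
    refine ⟨(φ ⬝ᵥ y)⁻¹, -(η ⬝ᵥ x)⁻¹, inv_ne_zero e, neg_ne_zero.2 (inv_ne_zero e'), hk, ?_,
      by simp [e], by simp [e']⟩
    rw [sk_smul_iff (inv_ne_zero e), smul_smul]
    exact hy.smul hk (by simp [e, e'])
  have h3 : ∀ y η, SK P K y η → φ ⬝ᵥ y ≠ 0 → ∃ a b : F, a ≠ 0 ∧ b ≠ 0 ∧ Y (a • y) (b • η) :=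
    fun y η hy e => let ⟨a, b, ha, hb, _, h⟩ := h3' y η hy e; ⟨a, b, ha, hb, h⟩
  have h4 : ∀ y η u χ, Y y η → SK P K u χ → φ ⬝ᵥ u = 0 → χ ⬝ᵥ x = 0 →
      Y (y + (χ ⬝ᵥ y) • u) (η - (η ⬝ᵥ u) • χ) := fun y η u χ hy hu e1 e2 =>
    ⟨hy.1.conj_tv hu.tv, by simp [e1, hy.2.1], by simp [e2, hy.2.2]⟩
  by_cases hK : ∀ y η y' η', Y y η → Y y' η' → η ⬝ᵥ y' ∈ K
  · obtain ⟨D, hD, -, hr, hf⟩ := FORMx.core hP hN h0 (σ := RingHom.id F) (fun _ => rfl)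
      (fun _ _ _ _ _ _ => rfl) (Y := Y) (fun _ _ h => h.1) (fun y η y' η' h h' => by
        rw [h2 y η y' η' h h', (hσ _).2 (hK _ _ _ _ h' h)]; rfl) h3 h4
    exact Or.inl ⟨_, FORMx.symp hP h0 hD hr, hf⟩
  obtain ⟨hS, hΦ⟩ := FORMx.span_c hP hN h0 h3
  have hσσ : ∀ a, σ (σ a) = a := by
    let L : Subfield F := (σ.comp σ).eqLocusField (RingHom.id F)
    have hL : ∀ a, a ∈ L ↔ σ (σ a) = a := fun _ => Iff.rfl
    have hKL : ∀ a ∈ K, a ∈ L := fun a ha => (hL a).2 (by rw [(hσ a).2 ha, (hσ a).2 ha])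
    have hY : ∀ y η y' η', Y y η → Y y' η' → η ⬝ᵥ y' ∈ L := fun y η y' η' h h' => (hL _).2 (by
      rw [← neg_neg (σ (η ⬝ᵥ y')), ← h2 _ _ _ _ h' h, map_neg, ← h2 _ _ _ _ h h'])
    have : L = ⊤ := by
      refine hP.eq_top hne hS hΦ ?_ ?_
      · rintro η ⟨y, h⟩ y' ⟨η', h'⟩
        exact hY _ _ _ _ h h'
      rintro u χ hu η ⟨y, h⟩ y' ⟨η', h'⟩
      by_cases e : φ ⬝ᵥ u = 0
      · obtain ⟨y1, η1, h1, e1⟩ := FORMx.exists_Y hS hu.2.1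
        have e2 : η1 ⬝ᵥ u ≠ 0 := fun e' => e1 (hN h1.1 hu e')
        have h5 := h4 y1 η1 u χ h1 hu e (hN h0 hu e)
        have a1 := L.sub_mem (hY _ _ _ _ h h5) (hY _ _ _ _ h h1)
        have a2 := L.sub_mem (hY _ _ _ _ h1 h') (hY _ _ _ _ h5 h')
        have := L.div_mem (L.mul_mem a1 a2) (hKL _ (hW hu h1.1))
        simp only [dotProduct_add, sub_dotProduct, dotProduct_smul, smul_dotProduct,
          smul_eq_mul] at this
        convert this using 1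
        field_simp
        ring
      · obtain ⟨a, b, ha, hb, hab, h5⟩ := h3' u χ hu e
        have := L.div_mem (L.mul_mem (hY _ _ _ _ h h5) (hY _ _ _ _ h5 h')) (hKL _ hab)
        simp only [dotProduct_smul, smul_dotProduct, smul_eq_mul] at this
        convert this using 1
        field_simp
    exact fun a => (hL a).1 (this ▸ trivial)
  obtain ⟨D, hD, hY, hr, hf⟩ := FORMx.core hP hN h0 hσσ
    (fun _ _ _ _ h h' => (hσ _).2 (hW h h')) (Y := Y) (fun _ _ h => h.1) h2 h3 h4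
  push Not at hK
  obtain ⟨y, η, z, ζ, hy, hz, ht⟩ := hK
  set t := η ⬝ᵥ z with ht'
  have hε : t - σ t ≠ 0 := fun e => ht ((hσ t).1 (sub_eq_zero.1 e).symm)
  have hε' : σ (t - σ t) = -(t - σ t) := by rw [map_sub, hσσ, neg_sub]
  let τ : F ≃+* F := { σ with invFun := σ, left_inv := hσσ, right_inv := hσσ }
  have hτ : ∀ a, τ a = σ a := fun _ => rfl
  refine Or.inr ⟨τ, fun v w => (t - σ t) * D w ⬝ᵥ v, ⟨fun e => ht ((hσ t).1 ?_), hσσ,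
    fun a b v => by rw [dotProduct_add, mul_add], fun c a v => ?_, fun v w => ?_, fun v hv => ?_⟩,
    fun s hs u v => congrArg _ (hf s hs u v), hσ, fun u χ hu => ?_,
    x, φ, y, η, z, ζ, h0, hy.1, hz.1, ?_⟩
  · rw [← hτ, e]; rfl
  · rw [dotProduct_smul, smul_eq_mul, mul_left_comm]
  · rw [hτ, map_mul, hε', hD.skew w v, mul_neg, neg_mul]
  · obtain ⟨w, hw⟩ := exists_dot_ne fun e => hv (hD.inj v e)
    exact ⟨⟨w, mul_ne_zero hε hw⟩, w, mul_ne_zero hε (by rw [hD.skew]; simpa using hw)⟩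
  · obtain ⟨κ, k0, k1, rfl⟩ := hr u χ hu
    refine ⟨κ / (t - σ t), div_ne_zero k0 hε, by rw [hτ, map_div₀, k1, hε', div_neg], fun w => ?_⟩
    rw [smul_dotProduct, smul_eq_mul]
    field_simp
  · rw [hD.skew x z, hD.skew x y, hY y η hy, hY z ζ hz, hy.2.2, hz.2.2, h2 _ _ _ _ hz hy, ← ht']
    intro e
    refine pow_ne_zero 4 hε ?_
    simp only [map_neg, map_one] at e
    linear_combination -e

theorem sym [Finite F] (hP : Hy P) (h2 : (2 : F) = 0) (hN : NoNil P ⊥) {x φ : ι → F}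
    (h0 : SK P ⊥ x φ) (hs : ∀ y η z ζ, SK P ⊥ y η → SK P ⊥ z ζ →
      φ ⬝ᵥ y * η ⬝ᵥ z * ζ ⬝ᵥ x = φ ⬝ᵥ z * ζ ⬝ᵥ y * η ⬝ᵥ x) :
    ∃ f, IsSymplecticForm f ∧ FixesForm (matrixSet P) f := by
  have hsq : ∀ a : F, ∃ s, s * s = a := by
    refine Finite.injective_iff_surjective.1 (fun a b (e : a * a = b * b) => ?_)
    have : (a - b) ^ 2 = 0 := by linear_combination e + (b * b - a * b) * h2
    exact sub_eq_zero.1 (pow_eq_zero_iff two_ne_zero |>.1 this)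
  obtain ⟨D, hD, -, hr, hf⟩ := FORMx.core hP hN h0 (σ := RingHom.id F) (fun _ => rfl)
    (fun _ _ _ _ _ _ => rfl) (Y := fun y η => SK P ⊥ y η ∧ φ ⬝ᵥ y ≠ 0 ∧ η ⬝ᵥ x = φ ⬝ᵥ y)
    (fun _ _ h => h.1) (fun y η z ζ h h' => by
      have := hs y η z ζ h.1 h'.1
      rw [h.2.2, h'.2.2] at this
      have e : η ⬝ᵥ z = ζ ⬝ᵥ y :=
        mul_left_cancel₀ (mul_ne_zero h.2.1 h'.2.1) (by linear_combination this)
      rw [e, RingHom.id_apply]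
      linear_combination (ζ ⬝ᵥ y) * h2) (fun y η hy e => by
      have e' : η ⬝ᵥ x ≠ 0 := fun e' => e (hN hy h0 e')
      obtain ⟨s, hs⟩ := hsq (η ⬝ᵥ x / φ ⬝ᵥ y)
      have s0 : s ≠ 0 := fun h => div_ne_zero e' e (by rw [← hs, h, mul_zero])
      refine ⟨s, s⁻¹, s0, inv_ne_zero s0, hy.scale s0, by simp [s0, e], ?_⟩
      rw [smul_dotProduct, dotProduct_smul, smul_eq_mul, smul_eq_mul]
      field_simp at hs ⊢
      linear_combination -hs) fun y η u χ hy hu e1 e2 =>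
    ⟨hy.1.conj_tv hu.tv, by simpa [e1] using hy.2.1, by simp [e1, e2, hy.2.2]⟩
  exact ⟨_, FORMx.symp hP h0 hD hr, hf⟩

end CfsgLib.TvN
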