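import Mathlib
import Cfsg.Agent.Lib.TvN.Asy2
import Cfsg.Agent.Lib.TvN.Form

/-! Unique axes and centres: a symplectic form or a class of 3-transpositions.  See `plans/TVN.md`. -/

set_option autoImplicit false

namespace CfsgLib.TvN

open Matrix Cfsg Cfsg.Geo CfsgLib.Asch
open scoped MatrixGroups commutatorElement

variable {ι : Type} [Fintype ι] [DecidableEq ι] {F : Type*} [Field F]
  {P : Subgroup (GL ι F)} {K : Subfield F}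

namespace Asyx

theorem fr3_norm [Finite F] (hS : S2 P) {x φ y η z θ : ι → F} (h1 : SK P ⊥ x φ)
    (h2 : SK P ⊥ y η) (h3 : SK P ⊥ z θ) {s ρ : F} (s0 : s ≠ 0) (ρ0 : ρ ≠ 0) (a1 : φ ⬝ᵥ y = s) (a2 : η ⬝ᵥ x = s)
    (a3 : φ ⬝ᵥ z = 1) (a4 : θ ⬝ᵥ x = 1) (a5 : θ ⬝ᵥ y = ρ) (a6 : η ⬝ᵥ z = ρ⁻¹) (hw : s * s ≠ 1) (hδ : ρ * ρ ≠ 1) :
    ∃ ζ e₁ e₂ e₃ ε₁ ε₂ ε₃, Fr3 P ζ e₁ e₂ e₃ ε₁ ε₂ ε₃ ∧ x = e₁ + e₂ ∧ φ = ε₁ + ε₂ ∧ y = ρ • (e₁ + ζ • e₂) ∧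
      η = ρ⁻¹ • (ε₁ + ζ⁻¹ • ε₂) := by
  have two := hS.two
  have b1 := h1.dot
  have b2 := h2.dot
  have b3 := h3.dot
  have t := tri hS (h1.conj_tv h2.tv) h2 h3
  simp only [dotProduct_add, smul_dotProduct, dotProduct_smul, sub_dotProduct, a1, a2, a3, a4, a5, a6, b2,
    smul_eq_mul, mul_zero, add_zero, sub_zero] at t
  have hs : s = ρ + ρ⁻¹ := by
    have k := (((t fun k => hδ (by
      field_simp at k
      linear_combination -k + s * ρ * two)).resolve_left fun k => hw k.1).resolve_left fun k => hw k.1).1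
    field_simp at k ⊢
    refine mul_left_cancel₀ s0 ?_
    linear_combination -k - s * two
  have hy : y = ρ • (s⁻¹ • (ρ⁻¹ • x + y) + (ρ * ρ)⁻¹ • (x - s⁻¹ • (ρ⁻¹ • x + y))) := by
    match_scalars <;> field_simp <;> rw [hs] <;> field_simp
    · linear_combination two
    · linear_combination -ρ ^ 2 * two
  have hη : η = ρ⁻¹ • (s⁻¹ • (ρ • φ + η) + (ρ * ρ)⁻¹⁻¹ • (φ - s⁻¹ • (ρ • φ + η))) := by
    match_scalars <;> field_simp <;> rw [hs] <;> field_simp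
    · linear_combination ρ ^ 2 * two
    · linear_combination -ρ * two
  have e1 : (s⁻¹ • (ρ • φ + η)) ⬝ᵥ x = 1 := by simp [a2, b1, s0]
  have e2 : (s⁻¹ • (ρ • φ + η)) ⬝ᵥ z = 1 := by
    simp only [smul_dotProduct, add_dotProduct, a3, a6, smul_eq_mul, mul_one, ← hs, inv_mul_cancel₀ s0]
  have e3 : φ ⬝ᵥ (s⁻¹ • (ρ⁻¹ • x + y)) = 1 := by simp [a1, b1, s0]
  have e4 : θ ⬝ᵥ (s⁻¹ • (ρ⁻¹ • x + y)) = 1 := by
    simp only [dotProduct_smul, dotProduct_add, a4, a5, smul_eq_mul, mul_one, add_comm ρ⁻¹, ← hs, inv_mul_cancel₀ s0]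
  have e5 : (s⁻¹ • (ρ • φ + η)) ⬝ᵥ (s⁻¹ • (ρ⁻¹ • x + y)) = 1 := by
    simp only [dotProduct_add, add_dotProduct, smul_dotProduct, dotProduct_smul, a1, a2, b1, b2, smul_eq_mul]
    field_simp
    rw [hs]; field_simp; ring
  generalize s⁻¹ • (ρ⁻¹ • x + y) = e at *
  generalize s⁻¹ • (ρ • φ + η) = ε at *
  refine ⟨(ρ * ρ)⁻¹, e, x - e, z - e, ε, φ - ε, θ - ε, ⟨inv_ne_zero (mul_ne_zero ρ0 ρ0), by rwa [Ne, inv_eq_one],
    fun k => hw ?_, e5, by simp [e1, e5], by simp [e2, e5], by simp [e3, e5], ?_, by simp [a3, e2, e3, e5],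
    by simp [e4, e5], by simp [a4, e1, e4, e5], ?_, by simpa using h1, ?_, ?_⟩, by simp, by simp, hy, hη⟩
  · rw [hs]
    field_simp at k ⊢
    linear_combination k
  · simp only [dotProduct_sub, sub_dotProduct, b1, e1, e3, e5]; linear_combination -two
  · simp only [dotProduct_sub, sub_dotProduct, b3, e2, e4, e5]; linear_combination -two
  · have := h2.scale (inv_ne_zero ρ0)
    rwa [hy, hη, inv_inv ρ, inv_smul_smul₀ ρ0, smul_inv_smul₀ ρ0] at this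
  · simpa using h3

/-- every opposite pair has an asymmetric third pair -/
theorem asy0 [Finite F] (hP : Hy P) (hS : S2 P) (hf : ¬ ∃ f, IsSymplecticForm f ∧ FixesForm (matrixSet P) f)
    {x φ y η : ι → F} (h1 : SK P ⊥ x φ) (hw : φ ⬝ᵥ y * η ⬝ᵥ x ≠ 0) :
    ∃ z θ, SK P ⊥ z θ ∧ φ ⬝ᵥ y * η ⬝ᵥ z * θ ⬝ᵥ x ≠ φ ⬝ᵥ z * θ ⬝ᵥ y * η ⬝ᵥ x := by
  by_contra! H
  have two := hS.two
  have A0 := left_ne_zero_of_mul hw
  have B0 := right_ne_zero_of_mul hw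
  refine hf (sym hP two hS.noNil h1 fun u χ v ψ hu hv => ?_)
  by_cases u0 : φ ⬝ᵥ u = 0
  · rw [u0, hS.noNil h1 hu u0]; ring
  by_cases v0 : φ ⬝ᵥ v = 0
  · rw [v0, hS.noNil h1 hv v0]; ring
  have key : ∀ {v ψ : ι → F}, SK P ⊥ v ψ → φ ⬝ᵥ u * η ⬝ᵥ v ≠ φ ⬝ᵥ v * η ⬝ᵥ u →
      φ ⬝ᵥ u * χ ⬝ᵥ v * ψ ⬝ᵥ x + φ ⬝ᵥ v * ψ ⬝ᵥ u * χ ⬝ᵥ x = 0 := fun {v ψ} hv ne => by
    have k1 := H _ _ hu
    have k2 := H _ _ hv
    have k3 := H _ _ (hu.conj_tv hv.tv)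
    simp only [dotProduct_add, smul_dotProduct, dotProduct_smul, sub_dotProduct, smul_eq_mul] at k3
    refine mul_left_cancel₀ (mul_ne_zero A0 (sub_ne_zero.2 ne)) ?_
    generalize φ ⬝ᵥ y = A, η ⬝ᵥ x = B, φ ⬝ᵥ u = s, χ ⬝ᵥ x = s', η ⬝ᵥ u = p, χ ⬝ᵥ y = p', φ ⬝ᵥ v = r, ψ ⬝ᵥ x = r',
      η ⬝ᵥ v = q, ψ ⬝ᵥ y = q', χ ⬝ᵥ v = τ, ψ ⬝ᵥ u = τ' at k1 k2 k3 ⊢
    linear_combination (s * r) * k3 - (s * r + r * r * τ') * k1 + (s * s * τ + s * r * τ * τ') * k2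
  by_cases c : φ ⬝ᵥ u * η ⬝ᵥ v = φ ⬝ᵥ v * η ⬝ᵥ u
  · have := key (hv.conj_tv h1.tv) fun k => mul_ne_zero u0 (mul_ne_zero v0 B0) (by
      simp only [dotProduct_add, dotProduct_smul, h1.dot, smul_eq_mul] at k
      linear_combination k - c)
    simp only [dotProduct_add, smul_dotProduct, dotProduct_smul, sub_dotProduct, h1.dot, smul_eq_mul] at this
    linear_combination this - (φ ⬝ᵥ v * ψ ⬝ᵥ u * χ ⬝ᵥ x) * two
  · linear_combination key hv c - (φ ⬝ᵥ v * ψ ⬝ᵥ u * χ ⬝ᵥ x) * two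

/-- pairs whose product has large order -/
def Ap (P : Subgroup (GL ι F)) (x φ y η : ι → F) : Prop :=
  SK P ⊥ x φ ∧ SK P ⊥ y η ∧ φ ⬝ᵥ y * η ⬝ᵥ x ≠ 0 ∧ φ ⬝ᵥ y * η ⬝ᵥ x ≠ 1

theorem Ap.symm {x φ y η : ι → F} (h : Ap P x φ y η) : Ap P y η x φ :=
  ⟨h.2.1, h.1, mul_comm (φ ⬝ᵥ y) _ ▸ h.2.2.1, mul_comm (φ ⬝ᵥ y) _ ▸ h.2.2.2⟩

theorem Ap.conj {x φ y η : ι → F} (h : Ap P x φ y η) {g : GL ι F} (hg : g ∈ P) :
    Ap P ((g : Matrix ι ι F) *ᵥ x) (φ ᵥ* ((g⁻¹ : GL ι F) : Matrix ι ι F)) ((g : Matrix ι ι F) *ᵥ y)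
      (η ᵥ* ((g⁻¹ : GL ι F) : Matrix ι ι F)) :=
  ⟨h.1.conj hg, h.2.1.conj hg, by rw [dot_cj, dot_cj]; exact h.2.2.1, by rw [dot_cj, dot_cj]; exact h.2.2.2⟩

end Asyx

open Asyx

theorem exists_fr3 [Finite F] (hS : S2 P) {x φ y η z θ : ι → F} (h1 : SK P ⊥ x φ)
    (h2 : SK P ⊥ y η) (h3 : SK P ⊥ z θ) (hw : φ ⬝ᵥ y * η ⬝ᵥ x ≠ 1)
    (hδ : φ ⬝ᵥ y * η ⬝ᵥ z * θ ⬝ᵥ x ≠ φ ⬝ᵥ z * θ ⬝ᵥ y * η ⬝ᵥ x) :
    ∃ ζ e₁ e₂ e₃ ε₁ ε₂ ε₃, Fr3 P ζ e₁ e₂ e₃ ε₁ ε₂ ε₃ ∧ ∃ c d : F, c ≠ 0 ∧ d ≠ 0 ∧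
      x = c • (e₁ + e₂) ∧ φ = c⁻¹ • (ε₁ + ε₂) ∧ y = d • (e₁ + ζ • e₂) ∧
      η = d⁻¹ • (ε₁ + ζ⁻¹ • ε₂) := by
  obtain ⟨k1, k2⟩ := ((tri hS h1 h2 h3 hδ).resolve_left fun k => hw k.1).resolve_left fun k => hw k.1
  have A0 : φ ⬝ᵥ y ≠ 0 := fun e => hδ (by rw [e, hS.noNil h1 h2 e]; ring)
  have B0 : η ⬝ᵥ x ≠ 0 := fun e => hδ (by rw [e, hS.noNil h2 h1 e]; ring)
  have : CharP F 2 := CharTwo.of_one_ne_zero_of_two_eq_zero one_ne_zero hS.two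
  obtain ⟨l, hl⟩ := isSquare_of_charTwo' (η ⬝ᵥ x / φ ⬝ᵥ y)
  have l0 : l ≠ 0 := fun e => div_ne_zero B0 A0 (by rw [hl, e, mul_zero])
  have m0 := left_ne_zero_of_mul_eq_one k1
  have r0 := right_ne_zero_of_mul_eq_one k2
  rw [div_eq_iff A0] at hl
  have k1' := eq_inv_of_mul_eq_one_right k1
  have k2' := eq_inv_of_mul_eq_one_left k2
  obtain ⟨ζ, e₁, e₂, e₃, ε₁, ε₂, ε₃, h, e1, e2, e3, e4⟩ := fr3_norm hS h1 (h2.scale l0) (h3.scale (inv_ne_zero m0))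
    (s := l * φ ⬝ᵥ y) (ρ := l * φ ⬝ᵥ z * θ ⬝ᵥ y) (mul_ne_zero l0 A0) (mul_ne_zero (mul_ne_zero l0 m0) r0)
    (by simp) (by simp only [smul_dotProduct, smul_eq_mul, hl]; field_simp) (by simp [m0]) (by simpa using k1)
    (by simp only [smul_dotProduct, dotProduct_smul, smul_eq_mul, inv_inv]; ring)
    (by simp only [smul_dotProduct, dotProduct_smul, smul_eq_mul, k2']; field_simp)
    (fun e => hw (by rw [hl, ← e]; ring)) (fun e => hδ (by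
      rw [k1', k2', hl]
      field_simp
      linear_combination -e))
  refine ⟨ζ, e₁, e₂, e₃, ε₁, ε₂, ε₃, h, 1, φ ⬝ᵥ z * θ ⬝ᵥ y, one_ne_zero, mul_ne_zero m0 r0, by simpa using e1,
    by simpa using e2, smul_right_injective _ l0 ?_, smul_right_injective _ (inv_ne_zero l0) ?_⟩
  · simpa only [smul_smul, mul_assoc] using e3
  · simpa only [smul_smul, mul_assoc, mul_inv] using e4

theorem asy [Finite F] (hP : Hy P) (hn : 3 ≤ Fintype.card ι) (hS : S2 P) :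
    (∃ f, IsSymplecticForm f ∧ FixesForm (matrixSet P) f) ∨ Wk P ⊥ := by
  have _ := hn
  have two := hS.two
  refine or_iff_not_imp_left.2 fun hf x φ y η h1 h2 => ?_
  by_contra hw
  rw [mem_bot_iff_two two, not_or] at hw
  have fr : ∀ {x φ y η : ι → F}, Ap P x φ y η → _ := fun h =>
    let ⟨_, _, h3, hδ⟩ := asy0 hP hS hf h.1 h.2.2.1
    exists_fr3 hS h.1 h.2.1 h3 h.2.2.2 hδ
  have b1 : ∀ {u χ v ψ w ω : ι → F}, Ap P u χ v ψ → Ap P u χ w ω → w ∈ Submodule.span F {u, v} :=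
    fun {u χ v ψ w ω} h h' => by
      obtain ⟨ζ, e₁, e₂, e₃, ε₁, ε₂, ε₃, f, c, d, c0, d0, rfl, rfl, rfl, -⟩ := fr h
      have k : (c⁻¹ • (ε₁ + ε₂)) ⬝ᵥ w * ω ⬝ᵥ (c • (e₁ + e₂)) = (ε₁ ⬝ᵥ w + ε₂ ⬝ᵥ w) * (ω ⬝ᵥ e₁ + ω ⬝ᵥ e₂) := by
        simp only [smul_dotProduct, dotProduct_smul, add_dotProduct, dotProduct_add, smul_eq_mul]; field_simp
      obtain ⟨-, hw, n0, n1⟩ := h'
      rw [k] at n0 n1
      have z1 : ζ - 1 ≠ 0 := sub_ne_zero.2 f.z1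
      rcases f.third hS hw with t | ⟨a, b, -, -, rfl, -⟩ | t | t
      · exact absurd (by simp [t.1, t.2.1]) n0
      · exact Submodule.mem_span_pair.2 ⟨(a * ζ - b) / (ζ - 1) / c, (b - a) / (ζ - 1) / d, by
          match_scalars <;> field_simp <;> ring⟩
      · exact absurd (by simpa [t.1, t.2.1] using t.2.2) n1
      · exact absurd (by simpa [t.1, t.2.1] using t.2.2) n1
  obtain ⟨ζ, e₁, e₂, e₃, ε₁, ε₂, ε₃, f, c, d, c0, d0, ex, -, ey, -⟩ := fr ⟨h1, h2, hw⟩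
  have z0 := f.z0
  have z1 : ζ - 1 ≠ 0 := sub_ne_zero.2 f.z1
  let g := tvGL _ _ f.s1.dot * tvGL _ _ f.s2.dot
  have hg : g ∈ P := mul_mem f.s1.tv.mem f.s2.tv.mem
  have g1 : ∀ v, (g : Matrix ι ι F) *ᵥ v = v + ((ζ - 1) * ε₁ ⬝ᵥ v) • e₁ + ((ζ⁻¹ - 1) * ε₂ ⬝ᵥ v) • e₂ := fun v => by
    rw [Units.val_mul, ← mulVec_mulVec, tvGL_mulVec, tvGL_mulVec]
    simp only [add_dotProduct, dotProduct_add, smul_dotProduct, dotProduct_smul, f.d11, f.d12, f.d21, f.d22,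
      smul_eq_mul, mul_one, add_zero, zero_add]
    match_scalars
    · rfl
    · field_simp; linear_combination (ε₂ ⬝ᵥ v + ζ * ε₂ ⬝ᵥ v + 2 * ζ * ε₁ ⬝ᵥ v) * two
    · field_simp; linear_combination (ζ * ε₁ ⬝ᵥ v + ζ ^ 2 * ε₁ ⬝ᵥ v + 2 * ζ * ε₂ ⬝ᵥ v) * two
  have g2 : ∀ v, ((g⁻¹ : GL ι F) : Matrix ι ι F) *ᵥ v =
      v + ((ζ⁻¹ - 1) * ε₁ ⬝ᵥ v) • e₁ + ((ζ - 1) * ε₂ ⬝ᵥ v) • e₂ := fun v => by
    rw [← inv_mulVec_mulVec g (v + _ + _), g1]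
    congr 1
    simp only [dotProduct_add, dotProduct_smul, f.d11, f.d12, f.d21, f.d22, smul_eq_mul, mul_zero, mul_one, add_zero]
    match_scalars <;> field_simp <;> ring
  have mv : ∀ {h : GL ι F} {a : F}, h ∈ P → a ≠ 0 → a - 1 ≠ 0 → a ^ 2 + a + 1 ≠ 0 →
      (∀ v, (h : Matrix ι ι F) *ᵥ v = v + ((a - 1) * ε₁ ⬝ᵥ v) • e₁ + ((a⁻¹ - 1) * ε₂ ⬝ᵥ v) • e₂) →
      (∀ v, ((h⁻¹ : GL ι F) : Matrix ι ι F) *ᵥ v = v + ((a⁻¹ - 1) * ε₁ ⬝ᵥ v) • e₁ + ((a - 1) * ε₂ ⬝ᵥ v) • e₂) →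
      ∀ {u χ v ψ : ι → F}, Ap P u χ v ψ → (h : Matrix ι ι F) *ᵥ u ∈ Submodule.span F {u, v} :=
    fun {h a} hh a0 a1 a3 k1 k2 u χ v ψ hu => by
      have t := f.third hS hu.1
      rcases t with t | t
      · rw [k1, t.1, t.2.1]
        simpa using Submodule.subset_span (by simp)
      refine b1 hu ⟨hu.1, hu.1.conj hh, ?_⟩
      rw [← dotProduct_mulVec, k1, k2]
      simp only [dotProduct_add, dotProduct_smul, hu.1.dot, smul_eq_mul, zero_add]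
      rcases t with ⟨p, q, p0, q0, rfl, rfl⟩ | t | t
      · simp only [add_dotProduct, dotProduct_add, smul_dotProduct, dotProduct_smul, f.d11, f.d12, f.d21, f.d22,
          smul_eq_mul, mul_zero, mul_one, add_zero, zero_add]
        refine ⟨fun e => pow_ne_zero 4 a1 ?_, fun e => pow_ne_zero 2 a3 ?_⟩ <;> field_simp at e
        · linear_combination e
        · linear_combination e + (3 * a ^ 3 - a ^ 2 + 3 * a) * two
      · rw [t.1, mul_zero, zero_mul, add_zero, mul_zero, zero_mul, add_zero, mul_assoc (a - 1), mul_assoc (a⁻¹ - 1),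
          t.2.2]
        refine ⟨fun e => pow_ne_zero 2 a1 ?_, fun e => a3 ?_⟩ <;> field_simp at e
        · linear_combination -e
        · linear_combination -e + a * two
      · rw [t.1, mul_zero, zero_mul, zero_add, mul_zero, zero_mul, zero_add, mul_assoc (a - 1), mul_assoc (a⁻¹ - 1),
          t.2.2]
        refine ⟨fun e => pow_ne_zero 2 a1 ?_, fun e => a3 ?_⟩ <;> field_simp at e
        · linear_combination -e
        · linear_combination -e + a * two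
  have mv' : ∀ {h : GL ι F}, (∀ {u χ v ψ : ι → F}, Ap P u χ v ψ → (h : Matrix ι ι F) *ᵥ u ∈ Submodule.span F {u, v}) →
      ∀ {u χ v ψ : ι → F}, Ap P u χ v ψ → ∀ w ∈ Submodule.span F {u, v},
        (h : Matrix ι ι F) *ᵥ w ∈ Submodule.span F {u, v} := fun k u χ v ψ hu w hw => by
    obtain ⟨a, b, rfl⟩ := Submodule.mem_span_pair.1 hw
    rw [mulVec_add, mulVec_smul, mulVec_smul]
    exact add_mem (Submodule.smul_mem _ _ (k hu)) (Submodule.smul_mem _ _ (Set.pair_comm v u ▸ k hu.symm))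
  let N : Subgroup (GL ι F) := P ⊓ ⨅ p : {p : (ι → F) × (ι → F) // ∃ χ ψ, Ap P p.1 χ p.2 ψ},
    subspaceStabilizer (Submodule.span F {p.1.1, p.1.2})
  have gN : g ∈ N := ⟨hg, Subgroup.mem_iInf.2 fun ⟨⟨u, v⟩, χ, ψ, hu⟩ => mem_subspaceStabilizer_iff.2 fun w =>
    ⟨mv' (mv hg z0 z1 f.z3 g1 g2) hu w, fun hw => inv_mulVec_mulVec g w ▸ mv' (mv (inv_mem hg) (inv_ne_zero z0)
      (fun e => f.z1 (inv_eq_one.1 (sub_eq_zero.1 e))) (fun e => f.z3 (by field_simp at e; linear_combination e))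
      (by simpa only [inv_inv] using g2) (by simpa only [inv_inv] using g1)) hu _ hw⟩⟩
  have cj : ∀ (k : GL ι F) (u v w : ι → F), w ∈ Submodule.span F {u, v} →
      (k : Matrix ι ι F) *ᵥ w ∈ Submodule.span F {(k : Matrix ι ι F) *ᵥ u, (k : Matrix ι ι F) *ᵥ v} :=
    fun k u v w hw => by
      obtain ⟨a, b, rfl⟩ := Submodule.mem_span_pair.1 hw
      exact Submodule.mem_span_pair.2 ⟨a, b, by rw [mulVec_add, mulVec_smul, mulVec_smul]⟩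
  have mN : ∀ {n : GL ι F}, n ∈ N → ∀ {u χ v ψ w : ι → F}, Ap P u χ v ψ → w ∈ Submodule.span F {u, v} →
      (n : Matrix ι ι F) *ᵥ w ∈ Submodule.span F {u, v} := fun hn u χ v ψ w hu hw =>
    (mem_subspaceStabilizer_iff.1 (Subgroup.mem_iInf.1 hn.2 ⟨(u, v), χ, ψ, hu⟩) w).1 hw
  have nN : ∀ k ∈ P, ∀ n ∈ N, ∀ {u χ v ψ : ι → F}, Ap P u χ v ψ → ∀ w ∈ Submodule.span F {u, v},
      ((k * n * k⁻¹ : GL ι F) : Matrix ι ι F) *ᵥ w ∈ Submodule.span F {u, v} := fun k hk n hn u χ v ψ hu w hw => by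
    have := cj k _ _ _ (mN hn (hu.conj (inv_mem hk)) (cj k⁻¹ u v w hw))
    rwa [mulVec_inv_mulVec, mulVec_inv_mulVec, mulVec_mulVec, mulVec_mulVec, ← Units.val_mul, ← Units.val_mul] at this
  rcases hP.norm N inf_le_left (fun k hk n hn => ⟨P.mul_mem (P.mul_mem hk hn.1) (P.inv_mem hk), Subgroup.mem_iInf.2
    fun ⟨⟨u, v⟩, χ, ψ, hu⟩ => mem_subspaceStabilizer_iff.2 fun w => ⟨nN k hk n hn hu w, fun hw => by
      have := nN k hk _ (inv_mem hn) hu _ hw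
      rwa [← conj_inv, inv_mulVec_mulVec] at this⟩⟩) with e | e
  · rcases hP.irr (Submodule.span F {x, y}) fun k hk w hw' => mN (e ▸ hk) ⟨h1, h2, hw⟩ hw' with e' | e'
    · exact h1.1 ((Submodule.eq_bot_iff _).1 e' x (Submodule.subset_span (by simp)))
    · obtain ⟨a, b, k⟩ := Submodule.mem_span_pair.1 (e' ▸ Submodule.mem_top : e₃ ∈ Submodule.span F {x, y})
      simpa [ex, ey, f.d31, f.d32, f.d33] using congrArg (ε₃ ⬝ᵥ ·) k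
  · obtain ⟨c, hc⟩ := (mem_scalars_iff _).1 (e gN)
    have k1 := congrArg (ε₁ ⬝ᵥ ·) (g1 e₁)
    have k3 := congrArg (ε₃ ⬝ᵥ ·) (g1 e₃)
    simp only [hc, smul_mulVec, one_mulVec, dotProduct_add, dotProduct_smul, f.d11, f.d12, f.d31, f.d32, f.d33,
      smul_eq_mul, mul_zero, mul_one, add_zero] at k1 k3
    exact z1 (by linear_combination k3 - k1)

end CfsgLib.TvN
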