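import Mathlib
import Cfsg.Agent.Lib.TvN.Defs
import Cfsg.Agent.Lib.Mit.Root

/-! Two opposite root groups (Dickson).  See `plans/TVN.md`. -/

set_option autoImplicit false
set_option linter.unusedSectionVars false

namespace CfsgLib.TvN

open Matrix Cfsg Cfsg.Geo CfsgLib.Asch
open scoped MatrixGroups commutatorElement

variable {ι : Type} [Fintype ι] [DecidableEq ι] {F : Type*} [Field F]
  {P : Subgroup (GL ι F)} {K : Subfield F}

namespace Pairx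

variable {B : Matrix ι (Fin 2) F} {C : Matrix (Fin 2) ι F}

theorem emb_mul (h : C * B = 1) (A A' : Matrix (Fin 2) (Fin 2) F) :
    (1 + B * (A - 1) * C) * (1 + B * (A' - 1) * C) = 1 + B * (A * A' - 1) * C := by
  have e : B * (A - 1) * C * (B * (A' - 1) * C) = B * ((A - 1) * (A' - 1)) * C := by
    calc _ = B * (A - 1) * (C * B) * (A' - 1) * C := by simp only [Matrix.mul_assoc]
      _ = _ := by rw [h, Matrix.mul_one]; simp only [Matrix.mul_assoc]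
  have e2 : A * A' - 1 = (A' - 1) + ((A - 1) + (A - 1) * (A' - 1)) := by noncomm_ring
  rw [add_mul, mul_add, mul_add, one_mul, mul_one, one_mul, e, e2, Matrix.mul_add, Matrix.mul_add,
    Matrix.add_mul, Matrix.add_mul, add_assoc]

/-- the elements of `SL₂` whose image lies in `P` -/
def blk (P : Subgroup (GL ι F)) (h : C * B = 1) : Subgroup SL(2, F) where
  carrier := {A | 1 + B * (A.1 - 1) * C ∈ matrixSet P}
  mul_mem' {a b} ha hb := by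
    change 1 + B * (a.1 * b.1 - 1) * C ∈ matrixSet P
    rw [← emb_mul h]
    exact matrixSet_mul_mem P _ ha _ hb
  one_mem' := by
    change 1 + B * ((1 : Matrix (Fin 2) (Fin 2) F) - 1) * C ∈ matrixSet P
    exact ⟨1, P.one_mem, by simp⟩
  inv_mem' {a} ha := by
    obtain ⟨x, hx, e⟩ := ha
    refine ⟨x⁻¹, P.inv_mem hx, Units.inv_eq_of_mul_eq_one_right ?_⟩
    simp only at e
    rw [e, emb_mul h, show a.1 * (a⁻¹).1 = 1 from congrArg Subtype.val (mul_inv_cancel a)]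
    simp

/-- two columns -/
def cols (x y : ι → F) : Matrix ι (Fin 2) F := Matrix.of fun i j => ![x i, y i] j

/-- two rows -/
def rows (ξ η : ι → F) : Matrix (Fin 2) ι F := Matrix.of fun j i => ![ξ i, η i] j

theorem rows_cols {x y ξ η : ι → F} (h1 : ξ ⬝ᵥ x = 1) (h2 : ξ ⬝ᵥ y = 0) (h3 : η ⬝ᵥ x = 0)
    (h4 : η ⬝ᵥ y = 1) : rows ξ η * cols x y = 1 := by
  ext i j
  fin_cases i <;> fin_cases j
  · exact h1
  · exact h2
  · exact h3
  · exact h4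

theorem emb_uu (x y ξ η : ι → F) (b : F) :
    cols x y * ((SL2.uu b).1 - 1) * rows ξ η = vecMulVec x (b • η) := by
  ext i j
  simp [cols, rows, Matrix.mul_apply, Fin.sum_univ_two, vecMulVec_apply, mul_assoc]

theorem emb_ll (x y ξ η : ι → F) (c : F) :
    cols x y * ((SL2.ll c).1 - 1) * rows ξ η = vecMulVec y (c • ξ) := by
  ext i j
  simp [cols, rows, Matrix.mul_apply, Fin.sum_univ_two, vecMulVec_apply, mul_assoc]

end Pairx

theorem Tv.pair [Finite F] {v φ w ψ : ι → F} (h1 : Tv P v φ) (h2 : Tv P w ψ) (ha : φ ⬝ᵥ w ≠ 0)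
    (hb : ψ ⬝ᵥ v ≠ 0) :
    (∃ K : Subfield F, (∀ c, Tv P v (c • φ) ↔ c * (φ ⬝ᵥ w * ψ ⬝ᵥ v) ∈ K) ∧
      ∀ c, Tv P w (c • ψ) ↔ c ∈ K) ∨
    ((2 : F) = 0 ∧ (∀ c : F, Tv P v (c • φ) → c = 0 ∨ c = 1) ∧
      ∀ c : F, Tv P w (c • ψ) → c = 0 ∨ c = 1) ∨
    ((3 : F) = 0 ∧ (φ ⬝ᵥ w * ψ ⬝ᵥ v) ^ 2 = -1 ∧ (∀ c : F, Tv P v (c • φ) → c = 0 ∨ c = 1 ∨ c = -1) ∧
      ∀ c : F, Tv P w (c • ψ) → c = 0 ∨ c = 1 ∨ c = -1) := by
  have hab := mul_ne_zero ha hb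
  have h : Pairx.rows ψ ((φ ⬝ᵥ w)⁻¹ • φ) * Pairx.cols ((ψ ⬝ᵥ v)⁻¹ • v) w = 1 :=
    Pairx.rows_cols (by simp [hb]) h2.1 (by simp [h1.1]) (by simp [ha])
  have k1 : ∀ c : F, SL2.uu (c * (φ ⬝ᵥ w * ψ ⬝ᵥ v)) ∈ Pairx.blk P h ↔ Tv P v (c • φ) := fun c => by
    have e : vecMulVec ((ψ ⬝ᵥ v)⁻¹ • v) ((c * (φ ⬝ᵥ w * ψ ⬝ᵥ v)) • (φ ⬝ᵥ w)⁻¹ • φ) =
        vecMulVec v (c • φ) := by
      rw [smul_vecMulVec, ← vecMulVec_smul, smul_smul, smul_smul]
      congr 2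
      field_simp
    change 1 + _ ∈ matrixSet P ↔ _
    rw [Pairx.emb_uu, e]
    exact ⟨fun h => ⟨by rw [smul_dotProduct, h1.1, smul_zero], h⟩, fun h => h.2⟩
  have k2 : ∀ c : F, SL2.ll c ∈ Pairx.blk P h ↔ Tv P w (c • ψ) := fun c => by
    change 1 + _ ∈ matrixSet P ↔ _
    rw [Pairx.emb_ll]
    exact ⟨fun h => ⟨by rw [smul_dotProduct, h2.1, smul_zero], h⟩, fun h => h.2⟩
  rcases Mit.pair_sl (Pairx.blk P h) hab (by simpa using (k1 1).2 (by simpa using h1))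
    ((k2 1).2 (by simpa using h2)) with ⟨K, a1, a2⟩ | ⟨a0, a1, a2⟩ | ⟨a0, a0', a1, a2⟩
  · exact Or.inl ⟨K, fun c => by rw [← k1, a1], fun c => by rw [← k2, a2]⟩
  · refine Or.inr (Or.inl ⟨a0, fun c hc => ?_, fun c hc => a2 c ((k2 c).2 hc)⟩)
    rcases a1 _ ((k1 c).2 hc) with e | e
    · exact Or.inl ((mul_eq_zero.1 e).resolve_right hab)
    · exact Or.inr (mul_right_cancel₀ hab (by rw [e, one_mul]))
  · refine Or.inr (Or.inr ⟨a0, a0', fun c hc => ?_, fun c hc => a2 c ((k2 c).2 hc)⟩)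
    rcases a1 _ ((k1 c).2 hc) with e | e | e
    · exact Or.inl ((mul_eq_zero.1 e).resolve_right hab)
    · exact Or.inr (Or.inl (mul_right_cancel₀ hab (by rw [e, one_mul])))
    · exact Or.inr (Or.inr (mul_right_cancel₀ hab (by rw [e, neg_one_mul])))

end CfsgLib.TvN
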