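import Mathlib
import Cfsg.Agent.Lib.TvN.Pair

/-! The pair generating `SL₂(5)` in characteristic three does not occur.  See `plans/TVN.md`. -/

set_option autoImplicit false

namespace CfsgLib.TvN

open Matrix Cfsg Cfsg.Geo CfsgLib.Asch
open scoped MatrixGroups commutatorElement

variable {ι : Type} [Fintype ι] [DecidableEq ι] {F : Type*} [Field F]
  {P : Subgroup (GL ι F)} {K : Subfield F}

namespace Excx

variable {v φ u χ v' φ' w ψ : ι → F} {I : F}

theorem pairE (h1 : φ ⬝ᵥ v = 0) (h2 : φ ⬝ᵥ u = 0) (h3 : χ ⬝ᵥ v = 0) (h4 : χ ⬝ᵥ u = 0)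
    (t1 : Tv P (v + u) (φ + χ)) (t2 : Tv P (-v + u) (-φ + χ)) :
    1 + (2 : F) • (vecMulVec v χ + vecMulVec u φ) ∈ matrixSet P := by
  convert matrixSet_mul_mem P _ t1.2 _ t2.neg.2 using 1
  simp only [add_mul, mul_add, one_mul, mul_one, vv_mul_vv, h1, h2, h3, h4, neg_zero, add_zero, zero_smul,
    vecMulVec_add, add_vecMulVec, vecMulVec_neg, neg_vecMulVec, neg_add, neg_neg, mul_neg]
  module

theorem commE (h1 : φ ⬝ᵥ v = 0) (h2 : φ ⬝ᵥ u = 0) (h3 : χ ⬝ᵥ v = 0) (h4 : χ ⬝ᵥ u = 0)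
    (h5 : φ' ⬝ᵥ v' = 0) (h6 : φ' ⬝ᵥ u = 0) (h7 : χ ⬝ᵥ v' = 0)
    (t1 : Tv P (v + u) (φ + χ)) (t2 : Tv P (-v + u) (-φ + χ)) (t3 : Tv P (v' + u) (φ' + χ))
    (t4 : Tv P (-v' + u) (-φ' + χ)) : Tv P u ((4 * (φ ⬝ᵥ v' - φ' ⬝ᵥ v)) • χ) := by
  have e1 := pairE h1 h2 h3 h4 t1 t2
  have e2 := pairE (by simp [h1]) (by simp [h2]) (by simp [h3]) h4 t2 (by simpa using t1)
  have e3 := pairE h5 h6 h7 h4 t3 t4
  have e4 := pairE (by simp [h5]) (by simp [h6]) (by simp [h7]) h4 t4 (by simpa using t3)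
  refine ⟨by simp [h4], ?_⟩
  convert matrixSet_mul_mem P _ (matrixSet_mul_mem P _ e1 _ e3) _ (matrixSet_mul_mem P _ e2 _ e4) using 1
  simp only [add_mul, mul_add, one_mul, mul_one, smul_add, smul_mul_assoc, mul_smul_comm, vv_mul_vv, h1, h2, h3, h4,
    h5, h6, h7, zero_smul, smul_zero, add_zero, zero_add, vecMulVec_neg, neg_vecMulVec, mul_neg, neg_mul, smul_neg,
    neg_zero, vecMulVec_smul, neg_neg]
  module

/-- conjugation by an element acting as `I` on `v` -/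
theorem conj_d (hI : I ^ 2 = -1) (h1 : Tv P v φ) (h2 : Tv P w ψ) (e1 : φ ⬝ᵥ w = I) (e2 : ψ ⬝ᵥ v = 1)
    (h : Tv P u χ) (a1 : φ ⬝ᵥ u = 0) (c1 : χ ⬝ᵥ v = 0) :
    Tv P (u + ((I - 1) * ψ ⬝ᵥ u) • v) (χ + ((1 + I) * χ ⬝ᵥ w) • φ) := by
  refine (((((h.conj_tv h2).conj_tv h1).conj_tv h2.neg).conj_tv h1.neg).conj_tv h2).congr ?_ ?_
  · simp only [dotProduct_add, dotProduct_smul, neg_dotProduct, smul_eq_mul, e1, e2, a1, h1.1, h2.1]
    match_scalars <;> grind
  · simp only [sub_dotProduct, smul_dotProduct, neg_dotProduct, smul_eq_mul, e1, e2, c1, h1.1, h2.1]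
    match_scalars <;> grind

abbrev Z : Type := ZMod 3 × ZMod 3

def mi (a : Z) : Z := (-a.2, a.1)

def chk : ℕ → Z → Z → Z → Bool
  | 0, p, q, r => p.1 * p.2 ≠ 0 || q.1 * q.2 ≠ 0 || (p = 0 && r = 0)
  | n + 1, p, q, r => chk 0 p q r || chk n p (q + r - mi p) (r + mi p) || chk n (p - r - mi q) q (r - mi q)

theorem chk_all : ∀ p q r, chk 4 p q r = true := by decide +kernel

end Excx

open Excx in
theorem no_exc [Finite F] (hP : Hy P) (hn : 3 ≤ Fintype.card ι) (h3 : (3 : F) = 0)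
    (hR : ∀ (v φ : ι → F) (c : F), v ≠ 0 → φ ≠ 0 → Tv P v φ → Tv P v (c • φ) →
      c = 0 ∨ c = 1 ∨ c = -1)
    {v φ w ψ : ι → F} (h1 : SK P ⊥ v φ) (h2 : SK P ⊥ w ψ) : (φ ⬝ᵥ w * ψ ⬝ᵥ v) ^ 2 ≠ -1 := by
  intro hI
  have h20 : (2 : F) ≠ 0 := fun h => one_ne_zero (by linear_combination h3 - h : (1 : F) = 0)
  wlog e2 : ψ ⬝ᵥ v = 1 generalizing v φ
  · have b : ψ ⬝ᵥ v ≠ 0 := fun e => by simp [e] at hI
    refine this (h1.scale (inv_ne_zero b)) ?_ (by simp [b])
    rw [← hI, dotProduct_smul, smul_dotProduct, smul_eq_mul, smul_eq_mul, inv_mul_cancel₀ b, inv_inv]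
    ring
  rw [e2, mul_one] at hI
  generalize e1 : φ ⬝ᵥ w = I at hI
  have hI0 : I ≠ 0 := fun e => by simp [e] at hI
  have no {u χ : ι → F} (hu : u ≠ 0) (hχ : χ ≠ 0) (t : Tv P u χ) : ¬ Tv P u (I • χ) := fun t' => by
    rcases hR u χ I hu hχ t t' with e | e | e
    exacts [hI0 e, h20 (by rw [e] at hI; linear_combination hI), h20 (by rw [e] at hI; linear_combination hI)]
  have hT {u χ x ξ : ι → F} (hu : SK P ⊥ u χ) (hx : SK P ⊥ x ξ) :
      ξ ⬝ᵥ u * χ ⬝ᵥ x = 0 ∨ (ξ ⬝ᵥ u * χ ⬝ᵥ x) ^ 4 = 1 := by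
    refine or_iff_not_imp_left.2 fun h0 => ?_
    rcases hx.tv.pair hu.tv (left_ne_zero_of_mul h0) (right_ne_zero_of_mul h0) with ⟨L, k1, k2⟩ | k | k
    · rcases hR u χ _ hu.1 hu.2.1 hu.tv ((k2 _).2 ((k1 1).1 (by simpa using hx.tv))) with e | e | e
      · exact absurd (by simpa using e) h0
      · rw [← one_mul (_ * _), e, one_pow]
      · rw [← one_mul (_ * _), e]; norm_num
    · exact absurd k.1 h20
    · rw [show 4 = 2 * 2 from rfl, pow_mul, k.2.1]; norm_num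
  have d := @conj_d ι _ _ F _ P v φ
  let U := Submodule.span F {v, w}
  have mv : v ∈ U := Submodule.subset_span (by simp)
  have mw : w ∈ U := Submodule.subset_span (by simp)
  have term {u χ : ι → F} (hu : SK P ⊥ u χ) (hp : φ ⬝ᵥ u * χ ⬝ᵥ v = 0)
      (hr : φ ⬝ᵥ u * χ ⬝ᵥ w - I * (ψ ⬝ᵥ u * χ ⬝ᵥ v) = 0) (hc : χ ⬝ᵥ v ≠ 0 ∨ χ ⬝ᵥ w ≠ 0) : u ∈ U := by
    have a1 : φ ⬝ᵥ u = 0 := by
      by_contra a1
      have c1 := (mul_eq_zero.1 hp).resolve_left a1
      rw [c1, mul_zero, mul_zero, sub_zero] at hr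
      exact hc.elim (fun h => h c1) fun h => mul_ne_zero a1 h hr
    by_cases a2 : ψ ⬝ᵥ u = 0
    · exfalso
      wlog c1 : χ ⬝ᵥ v ≠ 0 generalizing χ
      · have c2 := hc.resolve_left c1
        have := this (χ := χ - (χ ⬝ᵥ w) • ψ) (by simpa [a2] using hu.conj_tv h2.tv) (by simp [a1]) (by simp [a1, a2])
        simp [not_not.1 c1, e2, c2] at this
      have k := hu.comm h1 a1 c1
      refine no k.1 k.2.1 k.tv ((conj_d hI h1.tv h2.tv e1 e2 k.tv a1 (by simp [h1.dot])).congr (by simp [a2]) ?_)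
      rw [smul_dotProduct, e1, smul_eq_mul]
      match_scalars
      linear_combination (χ ⬝ᵥ v) * hI
    have c1 : χ ⬝ᵥ v = 0 := by simpa [a1, a2, hI0] using hr
    have c2 := hc.resolve_left (not_not.2 c1)
    wlog a3 : ψ ⬝ᵥ u = 1 generalizing u χ
    · exact (U.smul_mem_iff (inv_ne_zero a2)).1 (this (hu.scale (inv_ne_zero a2)) (by simp [a1]) (by simp [a1, c1])
        (by simp [a2, c2]) (by simp [a1]) (by simp [a2]) (by simp [c1]) (by simp [a2, c2]) (by simp [a2]))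
    obtain ⟨y, rfl⟩ : ∃ y, u = v + y := ⟨u - v, by simp⟩
    obtain ⟨z, hz⟩ : ∃ z : F, z * I = χ ⬝ᵥ w := ⟨_, div_mul_cancel₀ _ hI0⟩
    obtain ⟨η, rfl⟩ : ∃ η, χ = z • φ + η := ⟨χ - z • φ, by simp⟩
    have hz0 : z ≠ 0 := fun e => c2 (by rw [← hz, e, zero_mul])
    have y1 : φ ⬝ᵥ y = 0 := by simpa [h1.dot] using a1
    have y2 : ψ ⬝ᵥ y = 0 := by simpa [e2] using a3
    have n1 : η ⬝ᵥ v = 0 := by simpa [h1.dot] using c1
    have n2 : η ⬝ᵥ w = 0 := by simpa [e1] using hz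
    have n3 : η ⬝ᵥ y = 0 := by simpa [h1.dot, y1, n1] using hu.dot
    have st (s : F) (t : Tv P (s • v + y) ((s * z) • φ + η)) : Tv P ((I * s) • v + y) ((I * s * z) • φ + η) := by
      refine (conj_d hI h1.tv h2.tv e1 e2 t (by simp [h1.dot, y1]) (by simp [h1.dot, n1])).congr ?_ ?_
      · simp only [dotProduct_add, dotProduct_smul, smul_eq_mul, e2, y2]
        module
      · simp only [add_dotProduct, smul_dotProduct, smul_eq_mul, e1, n2]
        match_scalars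
        · linear_combination s * z * hI
        · rfl
    have t0 : Tv P ((1 : F) • v + y) ((1 * z) • φ + η) := by simpa using hu.tv
    have t1 := st _ t0
    have t2 := st _ t1
    have t3 := st _ t2
    rw [show I * (I * 1) = -1 by linear_combination hI] at t2 t3
    by_contra hy
    have hy0 : y ≠ 0 := fun e => hy (by simpa [e] using mv)
    by_cases hη : η = 0
    · subst hη
      have k : Tv P ((2 : F) • y) (z • φ) :=
        ((t0.congr rfl (by module)).sub' (t2.neg'.neg.congr rfl (by module))).congr (by module) rfl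
      refine no (smul_ne_zero h20 hy0) (smul_ne_zero hz0 h1.2.1) k
        ((conj_d hI h1.tv h2.tv e1 e2 k (by simp [y1]) (by simp [h1.dot])).congr (by simp [y2]) ?_)
      rw [smul_dotProduct, e1, smul_eq_mul]
      match_scalars
      linear_combination z * hI
    · have k (s : F) (t : Tv P (s • v + y) ((s * z) • φ + η)) (t' : Tv P ((-s) • v + y) ((-s * z) • φ + η)) :
          Tv P y (s • (8 * z * I) • η) := by
        refine (commE (v := s • v) (φ := (s * z) • φ) (v' := v + w) (φ' := z • (φ - I • ψ)) (by simp [h1.dot])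
          (by simp [y1]) (by simp [n1]) n3 (by simp [h1.dot, h2.dot, e1, e2]) (by simp [y1, y2]) (by simp [n1, n2])
          t (t'.congr (by module) (by module)) ((t0.conj_tv h2.tv).congr ?_ ?_)
          ((t2.conj_tv h2.tv).congr ?_ ?_)).congr rfl ?_
        all_goals simp only [dotProduct_add, add_dotProduct, dotProduct_smul, smul_dotProduct, sub_dotProduct,
          smul_eq_mul, e1, e2, y2, n2, h1.dot]
        all_goals module
      have h8 : (8 : F) ≠ 0 := by rw [show (8 : F) = 2 ^ 3 by norm_num]; exact pow_ne_zero _ h20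
      exact no hy0 (smul_ne_zero (mul_ne_zero (mul_ne_zero h8 hz0) hI0) hη) (by simpa using k 1 t0 t2)
        (k I (by simpa using t1) (by simpa using t3))
  have : CharP F 3 := CharP.ringChar_of_prime_eq_zero Nat.prime_three (by exact_mod_cast h3) ▸ ringChar.charP F
  let g := ZMod.castHom (dvd_refl 3) F
  let ev : Z → F := fun a => g a.1 + g a.2 * I
  have ev1 (a b : Z) : ev (a + b) = ev a + ev b := by simp only [ev, Prod.fst_add, Prod.snd_add, map_add]; ring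
  have ev2 (a b : Z) : ev (a - b) = ev a - ev b := by simp only [ev, Prod.fst_sub, Prod.snd_sub, map_sub]; ring
  have ev3 (a : Z) : ev (mi a) = I * ev a := by simp only [ev, mi, map_neg]; linear_combination (-g a.2) * hI
  have ev4 (a : Z) (h : ev a = 0 ∨ ev a ^ 4 = 1) : a.1 * a.2 = 0 := by
    by_contra h0
    have k : ∀ x y : ZMod 3, x * y ≠ 0 → x ^ 2 = 1 ∧ y ^ 2 = 1 := by decide
    have k1 := congrArg g (k _ _ h0).1
    have k2 := congrArg g (k _ _ h0).2
    rw [map_pow, map_one] at k1 k2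
    have k3 : ev a ^ 4 = -1 := by simp only [ev]; grind
    rcases h with h | h <;> rw [h] at k3
    · simp at k3
    · exact h20 (by linear_combination k3)
  have ev5 (x : F) (h : x = 0 ∨ x ^ 4 = 1) : ∃ a, ev a = x := by
    have : x * (x - 1) * (x + 1) * (x - I) * (x + I) = 0 := by rcases h with h | h <;> grind
    simp only [mul_eq_zero, sub_eq_zero, add_eq_zero_iff_eq_neg] at this
    rcases this with (((rfl | rfl) | rfl) | rfl) | rfl
    exacts [⟨(0, 0), by simp [ev]⟩, ⟨(1, 0), by simp [ev]⟩, ⟨(-1, 0), by simp [ev]⟩, ⟨(0, 1), by simp [ev]⟩,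
      ⟨(0, -1), by simp [ev]⟩]
  have ind (n : ℕ) : ∀ p q r, chk n p q r = true → ∀ u χ, SK P ⊥ u χ → ev p = φ ⬝ᵥ u * χ ⬝ᵥ v →
      ev q = ψ ⬝ᵥ u * χ ⬝ᵥ w → ev r = φ ⬝ᵥ u * χ ⬝ᵥ w - I * (ψ ⬝ᵥ u * χ ⬝ᵥ v) → χ ⬝ᵥ v ≠ 0 ∨ χ ⬝ᵥ w ≠ 0 → u ∈ U := by
    induction n using Nat.strong_induction_on with | _ n ih => ?_
    intro p q r h u χ hu hp hq hr hc
    rcases n with _ | n
    · simp only [chk, Bool.or_eq_true, Bool.and_eq_true, decide_eq_true_eq] at h
      rcases h with (h | h) | ⟨rfl, rfl⟩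
      · exact absurd (ev4 p (hp ▸ hT hu h1)) h
      · exact absurd (ev4 q (hq ▸ hT hu h2)) h
      · exact term hu (by rw [← hp]; simp [ev]) (by rw [← hr]; simp [ev]) hc
    simp only [chk, Bool.or_eq_true] at h
    rcases h with (h | h) | h
    · exact ih 0 n.succ_pos p q r (by simpa only [chk, Bool.or_eq_true] using h) u χ hu hp hq hr hc
    · refine (U.add_mem_iff_left (U.smul_mem _ mv)).1 (ih n n.lt_succ_self _ _ _ h _ _ (hu.conj_tv h1.tv) ?_ ?_ ?_ ?_)
      all_goals simp only [ev1, ev2, ev3, hp, hq, hr, dotProduct_add, dotProduct_smul, sub_dotProduct,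
        smul_dotProduct, smul_eq_mul, e1, e2, h1.dot]
      · ring
      · ring
      · linear_combination (I * (φ ⬝ᵥ u * χ ⬝ᵥ v)) * h3
      · by_contra! k
        grind
    · refine (U.add_mem_iff_left (U.smul_mem _ mw)).1 (ih n n.lt_succ_self _ _ _ h _ _ (hu.conj_tv h2.tv) ?_ ?_ ?_ ?_)
      all_goals simp only [ev1, ev2, ev3, hp, hq, hr, dotProduct_add, dotProduct_smul, sub_dotProduct,
        smul_dotProduct, smul_eq_mul, e1, e2, h2.dot]
      · ring
      · ring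
      · linear_combination (-I * (ψ ⬝ᵥ u * χ ⬝ᵥ w)) * h3
      · by_contra! k
        grind
  have hU : U = ⊤ := hP.span_c ⟨v, φ, h1⟩ (fun e => h1.1 ((Submodule.eq_bot_iff _).1 e v mv)) fun u χ hu x hx hne => by
    obtain ⟨p, hp⟩ := ev5 _ (hT hu h1)
    obtain ⟨q, hq⟩ := ev5 _ (hT hu h2)
    obtain ⟨q', hq'⟩ := ev5 _ (hT (hu.conj_tv h1.tv) h2)
    refine ind 4 p q (q' - q + mi p) (chk_all _ _ _) u χ hu hp hq ?_ ?_
    · simp only [ev1, ev2, ev3, hp, hq, hq', dotProduct_add, dotProduct_smul, sub_dotProduct,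
        smul_dotProduct, smul_eq_mul, e1, e2]
      ring
    · by_contra! k
      obtain ⟨a, b, rfl⟩ := Submodule.mem_span_pair.1 hx
      simp [k.1, k.2] at hne
  classical
  have := finrank_span_finset_le_card (R := F) ({v, w} : Finset (ι → F))
  rw [Set.finrank, Finset.coe_pair, show Submodule.span F {v, w} = ⊤ from hU, finrank_top,
    Module.finrank_fintype_fun_eq_card] at this
  have := Finset.card_le_two (a := v) (b := w)
  omega

end CfsgLib.TvN
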