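import Mathlib
import Cfsg.Agent.Lib.TvN.Exc

/-! Root groups with at least three elements are lines over a subfield.  See `plans/TVN.md`. -/

set_option autoImplicit false

namespace CfsgLib.TvN

open Matrix Cfsg Cfsg.Geo CfsgLib.Asch
open scoped MatrixGroups commutatorElement

variable {ι : Type} [Fintype ι] [DecidableEq ι] {F : Type*} [Field F]
  {P : Subgroup (GL ι F)} {K : Subfield F}

namespace Bigx

/-- the parameters of a root group -/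
def R (P : Subgroup (GL ι F)) (v φ : ι → F) : Set F := {c | Tv P v (c • φ)}

theorem exc [Finite F] (hP : Hy P) (hn : 3 ≤ Fintype.card ι) (h3 : (3 : F) = 0)
    (hm : ∀ v φ : ι → F, v ≠ 0 → φ ≠ 0 → Tv P v φ → (R P v φ).ncard ≤ 3)
    {v φ w ψ : ι → F} (h1 : SK P ⊥ v φ) (h2 : SK P ⊥ w ψ) : (φ ⬝ᵥ w * ψ ⬝ᵥ v) ^ 2 ≠ -1 := by
  refine no_exc hP hn h3 (fun v φ c hv hφ h hc => ?_) h1 h2
  have n1 : (1 : F) ≠ -1 := fun e => one_ne_zero (α := F) (by linear_combination h3 - e)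
  have hs : ({0, 1, -1} : Set F) ⊆ R P v φ := by
    rintro d (rfl | rfl | rfl)
    · simpa [R] using tv_zero_right P v
    · simpa [R] using h
    · simpa [R] using h.neg
  have h3' : ({0, 1, -1} : Set F).ncard = 3 :=
    Set.ncard_eq_three.2 ⟨0, 1, -1, zero_ne_one, by simp, n1, rfl⟩
  have := Set.eq_of_subset_of_ncard_le hs (h3' ▸ hm v φ hv hφ h)
  have hc' : c ∈ R P v φ := hc
  rwa [← this] at hc'

theorem le_three [Finite F] {s : Set F} (h : ∀ c ∈ s, c = 0 ∨ c = 1 ∨ c = -1) : s.ncard ≤ 3 :=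
  (Set.ncard_le_ncard (t := {0, 1, -1}) h).trans (Set.ncard_insert_le _ _ |>.trans
    (Nat.succ_le_succ (Set.ncard_insert_le _ _ |>.trans (by simp))))

end Bigx

theorem big_field [Finite F] (hP : Hy P) (hn : 3 ≤ Fintype.card ι) (hb : ¬ Small P) :
    ∃ K : Subfield F, (∃ c ∈ K, c ≠ 0 ∧ c ≠ 1) ∧ (∃ v φ, SK P K v φ) ∧ Wk P K := by
  have sm : ∀ {K : Subfield F} {v φ : ι → F}, SK P K v φ → SK P ⊥ v φ := fun h =>
    sk_bot_iff.2 ⟨h.1, h.2.1, h.tv⟩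
  simp only [Small, not_forall, not_or] at hb
  obtain ⟨v1, φ1, c1, hv1, hφ1, t1, t1', c0, c1'⟩ := hb
  obtain ⟨⟨v0, φ0⟩, h0, hmax⟩ := Set.exists_max_image
    {p : (ι → F) × (ι → F) | SK P ⊥ p.1 p.2} (fun p => (Bigx.R P p.1 p.2).ncard) (Set.toFinite _)
    ⟨(v1, φ1), sk_bot_iff.2 ⟨hv1, hφ1, t1⟩⟩
  change SK P ⊥ v0 φ0 at h0
  have hm : ∀ v φ : ι → F, v ≠ 0 → φ ≠ 0 → Tv P v φ →
      (Bigx.R P v φ).ncard ≤ (Bigx.R P v0 φ0).ncard := fun v φ hv hφ h =>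
    hmax (v, φ) (sk_bot_iff.2 ⟨hv, hφ, h⟩)
  have h3 : 3 ≤ (Bigx.R P v0 φ0).ncard := by
    refine le_trans ?_ (hm v1 φ1 hv1 hφ1 t1)
    rw [← Set.ncard_eq_three.2 ⟨0, 1, c1, zero_ne_one, Ne.symm c0, Ne.symm c1', rfl⟩]
    refine Set.ncard_le_ncard ?_
    rintro d (rfl | rfl | rfl)
    · simpa [Bigx.R] using tv_zero_right P v1
    · simpa [Bigx.R] using t1
    · exact t1'
  have hc : ∃ c ∈ Bigx.R P v0 φ0, c ≠ 0 ∧ c ≠ 1 := by
    by_contra! hc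
    have : (Bigx.R P v0 φ0).ncard ≤ ({0, 1} : Set F).ncard := Set.ncard_le_ncard fun c h => by
      by_cases e : c = 0
      · exact Or.inl e
      · exact Or.inr (hc c h e)
    rw [Set.ncard_pair zero_ne_one] at this
    omega
  obtain ⟨c, hc, hc0, hc1⟩ := hc
  obtain ⟨w, ψ, hw, ha, hb⟩ := hP.exists_opp ⟨v0, φ0, h0⟩ h0.1 h0.2.1
  rcases h0.tv.pair hw.tv ha hb with ⟨K, a1, -⟩ | ⟨-, a1, -⟩ | ⟨a0, a0', a1, -⟩
  · have hab : φ0 ⬝ᵥ w * ψ ⬝ᵥ v0 ∈ K := by simpa using (a1 1).1 (by simpa using h0.tv)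
    have hK : Bigx.R P v0 φ0 = K := Set.ext fun d => (a1 d).trans
      ⟨fun h => by
        have := K.mul_mem h (K.inv_mem hab)
        rwa [mul_inv_cancel_right₀ (mul_ne_zero ha hb)] at this, fun h => K.mul_mem h hab⟩
    have hcK : c ∈ K := hK.subset hc
    refine ⟨K, ⟨c, hcK, hc0, hc1⟩, ⟨v0, φ0, h0.1, h0.2.1, fun d hd => hK.superset hd⟩,
      fun v φ w ψ h1 h2 => ?_⟩
    by_cases ha : φ ⬝ᵥ w = 0
    · rw [ha, zero_mul]; exact K.zero_mem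
    by_cases hb : ψ ⬝ᵥ v = 0
    · rw [hb, mul_zero]; exact K.zero_mem
    rcases h1.tv.pair h2.tv ha hb with ⟨K', b1, b2⟩ | ⟨-, b1, -⟩ | ⟨b0, b0', b1, -⟩
    · have e1 : Bigx.R P w ψ = K' := Set.ext b2
      have e2 : (K : Set F) = K' := Set.eq_of_subset_of_ncard_le
        (fun d hd => (b2 d).1 (h2.2.2 d hd)) (by rw [← e1, ← hK]; exact hm w ψ h2.1 h2.2.1 h2.tv)
      have : φ ⬝ᵥ w * ψ ⬝ᵥ v ∈ K' := by simpa using (b1 1).1 (by simpa using h1.tv)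
      exact e2.superset this
    · exact absurd (b1 c (h1.2.2 c hcK)) (not_or.2 ⟨hc0, hc1⟩)
    · refine absurd b0' (Bigx.exc hP hn b0 (fun v φ hv hφ h => (hm v φ hv hφ h).trans ?_)
        (sm h1) (sm h2))
      rw [hK]
      exact Bigx.le_three fun d hd => b1 d (h1.2.2 d hd)
  · exact absurd (a1 c hc) (not_or.2 ⟨hc0, hc1⟩)
  · exact absurd a0' (Bigx.exc hP hn a0 (fun v φ hv hφ h => (hm v φ hv hφ h).trans
      (Bigx.le_three a1)) h0 hw)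

end CfsgLib.TvN
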