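import Mathlib
import Cfsg.Agent.Lib.TvN.Defs
import Cfsg.Agent.Lib.Forms.SUGenAbs

/-! A group containing all unitary transvections contains the special unitary group. -/

set_option autoImplicit false

namespace CfsgLib.TvN

open Matrix Cfsg Cfsg.Geo CfsgLib.Asch CfsgLib.Forms
open scoped MatrixGroups

variable {ι : Type} [Fintype ι] [DecidableEq ι] {F : Type*} [Field F]
  {P : Subgroup (GL ι F)} {K : Subfield F}

theorem su_le' [Finite F] (hn : 4 ≤ Fintype.card ι) (hP : Hy P) {σ : F ≃+* F}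
    {f : (ι → F) → (ι → F) → F} (hU : UF P K σ f) (hF : Full P K f) :
    ∀ g ∈ specialLinear ι F, FixesForm {(g : Matrix ι ι F)} f → g ∈ P := by
  intro g hg hgf
  have hf := hU.form
  have hσ : (σ : F →+* F) ≠ RingHom.id F := fun e => hf.ne_refl (RingEquiv.ext fun a =>
    congrArg (fun h : F →+* F => h a) e)
  let B : (ι → F) →ₛₗ[(σ : F →+* F)] (ι → F) →ₗ[F] F :=
    LinearMap.mk₂'ₛₗ (σ : F →+* F) (RingHom.id F) (fun x y => f y x)
      (fun a b y => by rw [hf.herm, hf.add_left, map_add, ← hf.herm, ← hf.herm])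
      (fun c a y => by rw [hf.herm, hf.smul_left, map_mul, ← hf.herm]; rfl)
      (fun x a b => hf.add_left a b x) (fun c x a => hf.smul_left c a x)
  have hS : B.IsSymm := ⟨fun x y => (hf.herm x y).symm⟩
  have hH := ofHerm_isHerm_of_finite hσ hf.involutive B hS
  have hB : ∀ x y, (ofHerm hσ hf.involutive B hS).B x y = f y x := fun _ _ => rfl
  let e : GL ι F ≃* ((ι → F) ≃ₗ[F] (ι → F)) :=
    Matrix.GeneralLinearGroup.toLin.trans (LinearMap.GeneralLinearGroup.generalLinearEquiv F _)
  have he : ∀ (x : GL ι F) v, e x v = (x : Matrix ι ι F) *ᵥ v := fun _ _ => rfl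
  have hdet : ∀ x ∈ specialLinear ι F, LinearMap.det (e x).toLinearMap = 1 := fun x hx => by
    rw [show (e x).toLinearMap = Matrix.toLin' (x : Matrix ι ι F) from LinearMap.ext (he x),
      LinearMap.det_toLin']
    rw [specialLinear, MonoidHom.mem_ker, Units.ext_iff] at hx
    simpa using hx
  have := PQ.IsHerm.mem_of_transvections hH (T := P.map e.toMonoidHom)
    (fun x hx => by
      by_contra h0
      obtain ⟨y, hy⟩ := (hf.nondegenerate x h0).1
      exact hy (hx y))
    (fun t x d hx hd ht => by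
      by_cases h0 : x = 0
      · exact ⟨1, P.one_mem, LinearEquiv.ext fun v => by simp [ht, h0]⟩
      obtain ⟨χ, hχ⟩ := hF x h0 hx
      obtain ⟨c, c0, c1, c2⟩ := hU.root hχ
      have hd' : σ d = -d := eq_neg_of_add_eq_zero_right hd
      have := hχ.2.2 (d / c) ((hU.fixed _).1 (by rw [map_div₀, hd', c1, neg_div_neg_eq]))
      refine ⟨_, this.mem, LinearEquiv.ext fun v => ?_⟩
      change e _ v = _
      rw [he, tvGL_mulVec, ht, hB, smul_dotProduct, c2, smul_eq_mul, ← mul_assoc,
        div_mul_cancel₀ _ c0])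
    (Or.inl (by simpa using hn))
    (by
      rintro _ ⟨x, hx, rfl⟩
      exact ⟨(hH.isIso_iff _).2 fun a b => hU.fix _ (coe_mem_matrixSet hx) b a, hdet x (hP.sl hx)⟩)
    (e g) ((hH.isIso_iff _).2 fun a b => hgf _ rfl b a) (hdet g hg)
  obtain ⟨x, hx, e'⟩ := this
  exact e.injective e' ▸ hx

end CfsgLib.TvN
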