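import Mathlib
import Cfsg.Agent.Lib.TvN.Defs
import Cfsg.Agent.Lib.TvN.SuLe
import Cfsg.Agent.Lib.Forms.SUGenAbs

/-! The unitary case over a field with more than four elements.  See `plans/TVN.md`. -/

set_option autoImplicit false

namespace CfsgLib.TvN

open Matrix Cfsg Cfsg.Geo CfsgLib.Asch
open scoped MatrixGroups commutatorElement

variable {ι : Type} [Fintype ι] [DecidableEq ι] {F : Type*} [Field F]
  {P : Subgroup (GL ι F)} {K : Subfield F}

namespace FULLx

variable {σ : F ≃+* F} {f : (ι → F) → (ι → F) → F}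

section Form

variable (hf : IsUnitaryForm σ f)
include hf

omit [Fintype ι] [DecidableEq ι]

theorem add_right (x a b : ι → F) : f x (a + b) = f x a + f x b := by
  rw [hf.herm, hf.add_left, map_add, ← hf.herm, ← hf.herm]

theorem smul_right (c : F) (x a : ι → F) : f x (c • a) = σ c * f x a := by
  rw [hf.herm, hf.smul_left, map_mul, ← hf.herm]

theorem sub_left (a b x : ι → F) : f (a - b) x = f a x - f b x := by
  rw [sub_eq_add_neg, hf.add_left, ← neg_one_smul F b, hf.smul_left]; ring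

theorem zero_left (x : ι → F) : f 0 x = 0 := by
  simpa using hf.smul_left 0 0 x

theorem flip0 {a b : ι → F} (h : f a b = 0) : f b a = 0 := by rw [hf.herm, h, map_zero]

theorem flip1 {a b : ι → F} (h : f a b = 1) : f b a = 1 := by rw [hf.herm, h, map_one]

theorem noniso_smul {a : ι → F} (h : f a a ≠ 0) {c : F} (hc : c ≠ 0) : f (c • a) (c • a) ≠ 0 := by
  rw [hf.smul_left, smul_right hf]
  exact mul_ne_zero hc (mul_ne_zero ((map_ne_zero σ).2 hc) h)

theorem exists_ne : ∃ t, σ t ≠ t := by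
  by_contra! h
  exact hf.ne_refl (RingEquiv.ext h)

/-- two non-isotropic vectors on the line `w + F a` -/
theorem exists_two [Finite F] {c : F} (hc : σ c = c) (c0 : c ≠ 0) (c1 : c ≠ 1) (w : ι → F)
    {a : ι → F} (ha : f a a ≠ 0) : ∃ s t : F, s ≠ t ∧ f (w + s • a) (w + s • a) ≠ 0 ∧
      f (w + t • a) (w + t • a) ≠ 0 := by
  have hσ : (σ : F →+* F) ≠ RingHom.id F := fun e => hf.ne_refl (RingEquiv.ext fun a =>
    congrArg (fun h : F →+* F => h a) e)
  obtain ⟨μ, hμ⟩ := Forms.norm_surj_of_finite hσ hf.involutive c hc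
  change σ μ * μ = c at hμ
  have q : ∀ m : F, f (w + (m - f w a / f a a) • a) (w + (m - f w a / f a a) • a) =
      σ m * m * f a a + (f w w - f w a * f a w / f a a) := fun m => by
    simp only [hf.add_left, hf.smul_left, add_right hf, smul_right hf, map_sub, map_div₀,
      ← hf.herm]
    field_simp
    ring
  have m0 : μ ≠ 0 := fun e => c0 (by rw [← hμ, e, mul_zero])
  have m1 : μ ≠ 1 := fun e => c1 (by rw [← hμ, e, map_one, mul_one])
  by_cases e0 : f w w - f w a * f a w / f a a = 0
  · refine ⟨1 - f w a / f a a, μ - f w a / f a a, by simpa using m1.symm, ?_, ?_⟩ <;>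
      rw [q, e0, add_zero]
    · simpa using ha
    · exact hμ ▸ mul_ne_zero c0 ha
  by_cases e1 : f a a + (f w w - f w a * f a w / f a a) = 0
  · refine ⟨0 - f w a / f a a, μ - f w a / f a a, fun e => m0 (sub_left_inj.1 e).symm, ?_, ?_⟩ <;> rw [q]
    · simpa using e0
    · rw [hμ]
      exact fun e => mul_ne_zero (sub_ne_zero.2 c1) ha (by linear_combination e - e1)
  · refine ⟨0 - f w a / f a a, 1 - f w a / f a a, fun e => zero_ne_one (sub_left_inj.1 e), ?_, ?_⟩ <;> rw [q]
    · simpa using e0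
    · simpa using e1

end Form

/-- centres -/
def C (P : Subgroup (GL ι F)) (K : Subfield F) (u : ι → F) : Prop := ∃ χ, SK P K u χ

theorem C.smul {u : ι → F} (h : C P K u) {c : F} (hc : c ≠ 0) : C P K (c • u) :=
  h.elim fun _ h => ⟨_, h.scale hc⟩

theorem C.iso (hU : UF P K σ f) {u : ι → F} (h : C P K u) : f u u = 0 := by
  obtain ⟨χ, h⟩ := h
  obtain ⟨c, c0, -, c2⟩ := hU.root h
  exact (mul_eq_zero.1 ((c2 u).symm.trans h.dot)).resolve_left c0

theorem C.move (hU : UF P K σ f) {w u : ι → F} (hw : C P K w) (hu : C P K u) {d : F}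
    (hd : σ d = -d) : C P K (w + (d * f w u) • u) := by
  obtain ⟨χ, h⟩ := hu
  obtain ⟨ψ, h'⟩ := hw
  obtain ⟨c, c0, c1, c2⟩ := hU.root h
  have := h'.conj_c h (c := d / c) ((hU.fixed _).1 (by rw [map_div₀, hd, c1, neg_div_neg_eq]))
  rw [c2, ← mul_assoc, div_mul_cancel₀ _ c0] at this
  exact ⟨_, this⟩

/-- the projections of the normalised centres -/
def M (P : Subgroup (GL ι F)) (K : Subfield F) (f : (ι → F) → (ι → F) → F) (x y w : ι → F) : Prop :=
  f w x = 0 ∧ f w y = 0 ∧ ∃ α : F, C P K (y + w + α • x)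

section Main

variable (hU : UF P K σ f) {x y : ι → F} (hx : C P K x) (hy : C P K y) (hyx : f y x = 1)
include hU hx hy hyx

theorem pair {w w' : ι → F} (h1 : f w x = 0) (h2 : f w y = 0) (h1' : f w' x = 0)
    (h2' : f w' y = 0) (α β : F) : f (y + w + α • x) (y + w' + β • x) = f w w' + α + σ β := by
  have hf := hU.form
  simp only [hf.add_left, hf.smul_left, add_right hf, smul_right hf, hx.iso hU, hy.iso hU, hyx,
    flip1 hf hyx, h1, h2, flip0 hf h1', flip0 hf h2']
  ring

omit hy in
theorem shift {w : ι → F} (h1 : f w x = 0) {α d : F} (h : C P K (y + w + α • x))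
    (hd : σ d = -d) : C P K (y + w + (α + d) • x) := by
  have hf := hU.form
  have := h.move hU hx hd
  simp only [hf.add_left, hf.smul_left, hx.iso hU, hyx, h1, mul_zero, add_zero, mul_one] at this
  rwa [add_smul, ← add_assoc]

theorem M.c {w : ι → F} (h : M P K f x y w) {β : F} (hβ : f w w + β + σ β = 0) :
    C P K (y + w + β • x) := by
  obtain ⟨h1, h2, α, h⟩ := h
  have e := h.iso hU
  rw [pair hU hx hy hyx h1 h2 h1 h2] at e
  have := shift hU hx hyx h1 h (d := β - α) (by rw [map_sub]; linear_combination hβ - e)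
  rwa [add_sub_cancel] at this

theorem line0 {w e : ι → F} (h : M P K f x y w) (h' : M P K f x y (w + e)) (he : f e e ≠ 0)
    {l : F} (hl : σ l ≠ l) : M P K f x y (w + l • e) := by
  have hf := hU.form
  obtain ⟨h1, h2, α, h⟩ := h
  obtain ⟨h1', h2', β, h'⟩ := h'
  have e1 : f e x = 0 := by rwa [hf.add_left, h1, zero_add] at h1'
  have e2 : f e y = 0 := by rwa [hf.add_left, h2, zero_add] at h2'
  refine ⟨by rw [hf.add_left, hf.smul_left, h1, e1, mul_zero, add_zero],
    by rw [hf.add_left, hf.smul_left, h2, e2, mul_zero, add_zero], ?_⟩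
  have i1 := h.iso hU
  have i2 := h'.iso hU
  rw [pair hU hx hy hyx h1 h2 h1 h2] at i1
  rw [pair hU hx hy hyx h1' h2' h1' h2'] at i2
  have l1 : 1 - l ≠ 0 := fun e => hl (by rw [← sub_eq_zero.1 e, map_one])
  have l1' : 1 - σ l ≠ 0 := by simpa using (map_ne_zero σ).2 l1
  have hl' : l - σ l ≠ 0 := sub_ne_zero.2 hl.symm
  set ν := l / (1 - l) with hν
  have hν' : ν - σ ν ≠ 0 := by
    rw [hν, map_div₀, map_sub, map_one, div_sub_div _ _ l1 l1']
    exact div_ne_zero (by convert hl' using 1; ring) (mul_ne_zero l1 l1')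
  have hn : σ (f e e) = f e e := (hf.herm e e).symm
  set d := -(ν - σ ν) / f e e with hd
  have hd0 : d ≠ 0 := div_ne_zero (neg_ne_zero.2 hν') he
  have hd1 : σ d = -d := by
    rw [hd, map_div₀, hn, map_neg, map_sub, hf.involutive]; ring
  have hd2 : d * f e e = -(ν - σ ν) := div_mul_cancel₀ _ he
  have k := shift hU hx hyx h1' h' (d := f w (w + e) + α + σ β - ν / d) (by
    rw [map_sub, map_add, map_add, ← hf.herm, hf.involutive, map_div₀, hd1]
    simp only [hf.add_left, add_right hf] at i2 ⊢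
    field_simp
    linear_combination d * i1 + d * i2 - hd2)
  have k2 := (h.move hU k hd1).smul l1
  rw [pair hU hx hy hyx h1 h2 h1' h2'] at k2
  have k3 : d * (f w (w + e) + α + σ (β + (f w (w + e) + α + σ β - ν / d))) = ν := by
    rw [map_add, map_sub, map_add, map_add, ← hf.herm, hf.involutive, map_div₀, hd1]
    simp only [hf.add_left, add_right hf] at i2 ⊢
    field_simp
    linear_combination d * i1 + d * i2 - hd2
  rw [k3] at k2
  refine ⟨(1 - l) * (α + ν * (β + (f w (w + e) + α + σ β - ν / d))), ?_⟩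
  convert k2 using 1
  have : (1 - l) * ν = l := by rw [hν]; field_simp
  generalize β + (f w (w + e) + α + σ β - ν / d) = γ
  match_scalars
  · linear_combination -this
  · linear_combination -this
  · linear_combination -this
  · ring

theorem line {w e : ι → F} (h : M P K f x y w) (h' : M P K f x y (w + e)) (he : f e e ≠ 0)
    (l : F) : M P K f x y (w + l • e) := by
  by_cases hl : σ l = l
  · by_cases l0 : l = 0
    · rwa [l0, zero_smul, add_zero]
    obtain ⟨t, ht⟩ := exists_ne hU.form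
    have t0 : t ≠ 0 := fun e => ht (by rw [e, map_zero])
    have := line0 hU hx hy hyx h (line0 hU hx hy hyx h h' he ht) (noniso_smul hU.form he t0)
      (l := l / t) (fun e => ht (by
        rw [map_div₀, hl, div_eq_div_iff ((map_ne_zero σ).2 t0) t0] at e
        exact (mul_left_cancel₀ l0 e).symm))
    rwa [smul_smul, div_mul_cancel₀ _ t0] at this
  · exact line0 hU hx hy hyx h h' he hl

/-- a line with non-isotropic direction having two points in `M` lies in `M` -/
theorem line2 {w e : ι → F} {s t : F} (hst : s ≠ t) (h : M P K f x y (w + s • e))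
    (h' : M P K f x y (w + t • e)) (he : f e e ≠ 0) (l : F) : M P K f x y (w + l • e) := by
  have hts : t - s ≠ 0 := sub_ne_zero.2 hst.symm
  have := line hU hx hy hyx h (e := (t - s) • e) (by convert h' using 1; module)
    (noniso_smul hU.form he hts) ((l - s) / (t - s))
  rw [smul_smul, div_mul_cancel₀ _ hts] at this
  convert this using 1
  module

omit hx hyx in
theorem M.zero : M P K f x y 0 :=
  ⟨zero_left hU.form x, zero_left hU.form y, 0, by simpa using hy⟩

theorem plane [Finite F] {c : F} (hc : σ c = c) (c0 : c ≠ 0) (c1 : c ≠ 1) {w a : ι → F}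
    (h : M P K f x y w) (h' : M P K f x y a) (ha : f a a ≠ 0) (p q : F) :
    M P K f x y (p • w + q • a) := by
  have hA : ∀ l : F, M P K f x y (l • a) := fun l => by
    simpa using line hU hx hy hyx (M.zero hU hy) (e := a) (by simpa using h') ha l
  obtain ⟨s, t, hst, hs, ht⟩ := exists_two hU.form hc c0 c1 w ha
  have k : ∀ s : F, f (w + s • a) (w + s • a) ≠ 0 → ∀ p : F,
      M P K f x y (p • w + ((p - 1) * s) • a) := fun s hs p => by
    have := line hU hx hy hyx (hA (-s)) (e := w + s • a) (by convert h using 1; module) hs p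
    convert this using 1
    module
  have k1 : ∀ p : F, p ≠ 1 → ∀ q : F, M P K f x y (p • w + q • a) := fun p hp q =>
    line2 hU hx hy hyx (fun e => hst (mul_left_cancel₀ (sub_ne_zero.2 hp) e)) (k s hs p)
      (k t ht p) ha q
  by_cases hp : p = 1
  · have := line2 hU hx hy hyx (w := p • w + q • a) (e := w + s • a) c1.symm
      (by convert k1 (1 + 1) (by simp) (q + s) using 1; rw [hp]; module)
      (by convert k1 (1 + c) (by simpa using c0) (q + c * s) using 1; rw [hp]; module) hs 0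
    rwa [zero_smul, add_zero] at this
  · exact k1 p hp q

theorem all [Finite F] (hP : Hy P) {c : F} (hc : σ c = c) (c0 : c ≠ 0) (c1 : c ≠ 1) {a : ι → F}
    (h' : M P K f x y a) (ha : f a a ≠ 0) (v : ι → F) :
    M P K f x y (v - f v x • y - f v y • x) := by
  have hf := hU.form
  have sm : ∀ (p : F) w, M P K f x y w → M P K f x y (p • w) := fun p w h => by
    simpa using plane hU hx hy hyx hc c0 c1 h h' ha p 0
  obtain ⟨φ, hφ⟩ := id hx
  have hv : v ∈ Submodule.span F {u | ∃ η, SK P K u η ∧ η ⬝ᵥ x ≠ 0} := by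
    rw [hP.span_nb ⟨x, φ, hφ⟩ hφ.1]; trivial
  refine Submodule.span_induction (p := fun v _ => M P K f x y (v - f v x • y - f v y • x))
    ?_ (by simpa [zero_left hf] using M.zero hU hy) (fun u v _ _ hu hv => ?_)
    (fun p u _ hu => ?_) hv
  · rintro u ⟨η, hu, e⟩
    obtain ⟨k, -, -, k2⟩ := hU.root hu
    have e1 : f u x ≠ 0 := fun e1 => e (by rw [k2, flip0 hf e1, mul_zero])
    have : M P K f x y ((f u x)⁻¹ • (u - f u x • y - f u y • x)) := by
      refine ⟨?_, ?_, (f u x)⁻¹ * f u y, ?_⟩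
      · simp only [hf.smul_left, sub_left hf, hyx, hx.iso hU]; ring
      · simp only [hf.smul_left, sub_left hf, flip1 hf hyx, hy.iso hU]; ring
      · convert C.smul ⟨η, hu⟩ (inv_ne_zero e1) using 1
        match_scalars <;> simp [e1]
    have := sm (f u x) _ this
    rwa [smul_smul, mul_inv_cancel₀ e1, one_smul] at this
  · obtain ⟨s, -, -, hs, -⟩ := exists_two hf hc c0 c1 (v - f v x • y - f v y • x) ha
    have h1 := plane hU hx hy hyx hc c0 c1 hv h' ha 1 s
    rw [one_smul] at h1
    have h2 := plane hU hx hy hyx hc c0 c1 (plane hU hx hy hyx hc c0 c1 hu h1 hs 1 1) h' ha 1 (-s)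
    convert h2 using 1
    simp only [hf.add_left]
    module
  · convert sm p _ hu using 1
    simp only [hf.smul_left]
    module

end Main

end FULLx

open FULLx in
theorem full_big [Finite F] (hP : Hy P) {σ : F ≃+* F} {f : (ι → F) → (ι → F) → F}
    (hU : UF P K σ f) (hc : ∃ c ∈ K, c ≠ 0 ∧ c ≠ 1) : Full P K f := by
  have hf := hU.form
  obtain ⟨c, hc, c0, c1⟩ := hc
  rw [← hU.fixed] at hc
  obtain ⟨x, φ, y', η, z, ζ, hφ, hη, hζ, hs⟩ := hU.asym
  have hx : C P K x := ⟨φ, hφ⟩
  have e1 : f y' x ≠ 0 := fun e => hs (by rw [e, flip0 hf e]; ring)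
  have e2 : f z x ≠ 0 := fun e => hs (by rw [e, flip0 hf e]; ring)
  have e1' : f x y' ≠ 0 := fun e => e1 (flip0 hf e)
  have e2' : f x z ≠ 0 := fun e => e2 (flip0 hf e)
  have hy : C P K ((f y' x)⁻¹ • y') := C.smul ⟨η, hη⟩ (inv_ne_zero e1)
  set y := (f y' x)⁻¹ • y' with hy'
  have hyx : f y x = 1 := by rw [hy', hf.smul_left, inv_mul_cancel₀ e1]
  have a1 : f ((f z x)⁻¹ • (z - f z x • y - f z y • x)) x = 0 := by
    simp only [hf.smul_left, sub_left hf, hyx, hx.iso hU]; ring
  have a2 : f ((f z x)⁻¹ • (z - f z x • y - f z y • x)) y = 0 := by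
    simp only [hf.smul_left, sub_left hf, flip1 hf hyx, hy.iso hU]; ring
  have a3 : C P K (y + (f z x)⁻¹ • (z - f z x • y - f z y • x) + ((f z x)⁻¹ * f z y) • x) := by
    convert C.smul ⟨ζ, hζ⟩ (inv_ne_zero e2) using 1
    match_scalars <;> simp [e2]
  have a4 := a3.iso hU
  rw [pair hU hx hy hyx a1 a2 a1 a2] at a4
  have key := all hU hx hy hyx hP hc c0 c1 ⟨a1, a2, _, a3⟩ (fun e => hs (by
    rw [e, hy', smul_right hf, map_inv₀, ← hf.herm] at a4
    simp only [map_mul, map_inv₀, ← hf.herm] at a4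
    field_simp at a4
    linear_combination a4))
  have k1 : ∀ u, f u u = 0 → f u x ≠ 0 → C P K u := fun u hu e => by
    have h1 := key ((f u x)⁻¹ • u)
    have h2 : f ((f u x)⁻¹ • u) x = 1 := by rw [hf.smul_left, inv_mul_cancel₀ e]
    have h3 : f ((f u x)⁻¹ • u) ((f u x)⁻¹ • u) = 0 := by
      rw [hf.smul_left, smul_right hf, hu, mul_zero, mul_zero]
    generalize hu' : (f u x)⁻¹ • u = u' at h1 h2 h3
    have h4 : y + (u' - f u' x • y - f u' y • x) + f u' y • x = u' := by rw [h2]; module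
    have := (h4 ▸ h1.c hU hx hy hyx (β := f u' y) (by
      rw [← pair hU hx hy hyx h1.1 h1.2.1 h1.1 h1.2.1, h4, h3]) : C P K u').smul e
    rwa [← hu', smul_smul, mul_inv_cancel₀ e, one_smul] at this
  intro u hu0 hu
  by_cases e : f u x = 0
  swap
  · exact k1 u hu e
  obtain ⟨w, ⟨ψ, hw, e3⟩, e4⟩ : ∃ w ∈ {u | ∃ η, SK P K u η ∧ η ⬝ᵥ x ≠ 0}, f w u ≠ 0 := by
    by_contra! hc
    obtain ⟨v, hv⟩ := (hf.nondegenerate u hu0).1
    have : v ∈ Submodule.span F {u | ∃ η, SK P K u η ∧ η ⬝ᵥ x ≠ 0} := by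
      rw [hP.span_nb ⟨x, φ, hφ⟩ hφ.1]; trivial
    exact hv (Submodule.span_induction (p := fun v _ => f v u = 0) hc (zero_left hf u)
      (fun a b _ _ ha hb => by rw [hf.add_left, ha, hb, add_zero])
      (fun p a _ ha => by rw [hf.smul_left, ha, mul_zero]) this)
  obtain ⟨d, d0, d1, d2⟩ := hU.root hw
  have e5 : f w x ≠ 0 := fun e1 => e3 (by rw [d2, flip0 hf e1, mul_zero])
  have e6 : f u w ≠ 0 := fun e1 => e4 (flip0 hf e1)
  have hw' : C P K w := ⟨ψ, hw⟩
  have := (k1 (u + (d * f u w) • w) (by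
    simp only [hf.add_left, hf.smul_left, add_right hf, smul_right hf, hu, hw'.iso hU, map_mul, d1,
      ← hf.herm]
    ring) (by
    rw [hf.add_left, hf.smul_left, e, zero_add]
    exact mul_ne_zero (mul_ne_zero d0 e6) e5)).move hU hw' (d := -d) (by rw [map_neg, d1])
  rwa [hf.add_left, hf.smul_left, hw'.iso hU, mul_zero, add_zero, neg_mul, neg_smul,
    add_neg_cancel_right] at this

theorem su_le [Finite F] (hn : 4 ≤ Fintype.card ι) (hP : Hy P) {σ : F ≃+* F}
    {f : (ι → F) → (ι → F) → F} (hU : UF P K σ f) (hF : Full P K f) :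
    ∀ g ∈ specialLinear ι F, FixesForm {(g : Matrix ι ι F)} f → g ∈ P :=
  su_le' hn hP hU hF

end CfsgLib.TvN
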