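import Mathlib
import Cfsg.Agent.Lib.TvN.Defs

/-! Sets of unitary transvection centres over the field with four elements: frames.  See `plans/TVN.md`. -/

set_option autoImplicit false

namespace CfsgLib.TvN.Full2x

open Function

variable {F V : Type*} [Field F] [AddCommGroup V] [Module F V]

/-- a set of isotropic vectors closed under its transvections -/
structure Cx (f : V → V → F) (C : V → Prop) : Prop where
  two : (2 : F) = 0
  four : ∀ a : F, a ≠ 0 → a ^ 3 = 1
  addl : ∀ x y v, f (x + y) v = f x v + f y v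
  smull : ∀ (c : F) x v, f (c • x) v = c * f x v
  herm : ∀ v w, f v w = f w v ^ 2
  iso : ∀ {u}, C u → f u u = 0
  ne : ∀ {u}, C u → u ≠ 0
  smul : ∀ {u} {c : F}, C u → c ≠ 0 → C (c • u)
  ref : ∀ {v u}, C v → C u → C (v + f v u • u)

/-- a good frame -/
structure G (f : V → V → F) (C : V → Prop) {κ : Type} (e : κ → V) : Prop where
  one : ∀ i, f (e i) (e i) = 1
  orth : ∀ i j, i ≠ j → f (e i) (e j) = 0
  cen : ∀ i j, i ≠ j → ∀ s : F, s ≠ 0 → C (e i + s • e j)

variable {κ : Type} [Fintype κ] [DecidableEq κ]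

def cb (e : κ → V) (a : κ → F) (x : V) : V := ∑ i, a i • e i + x

def wt [DecidableEq F] (a : κ → F) : ℕ := ∑ i, if a i = 0 then 0 else 1

variable {f : V → V → F} {C : V → Prop} {e : κ → V} {a b : κ → F} {x y : V}

theorem Cx.addr (h : Cx f C) (v x y : V) : f v (x + y) = f v x + f v y := by
  rw [h.herm, h.addl, h.herm v x, h.herm v y]; linear_combination f x v * f y v * h.two

theorem Cx.smulr (h : Cx f C) (c : F) (v x : V) : f v (c • x) = c ^ 2 * f v x := by
  rw [h.herm, h.smull, h.herm v x]; ring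

theorem Cx.zerol (h : Cx f C) (v : V) : f 0 v = 0 := by simpa using h.smull 0 0 v

theorem Cx.zeror (h : Cx f C) (v : V) : f v 0 = 0 := by rw [h.herm, h.zerol]; simp

theorem Cx.symm (h : Cx f C) (h0 : f x y = 0) : f y x = 0 := by rw [h.herm, h0]; simp

theorem Cx.suml (h : Cx f C) (a : κ → F) (e : κ → V) (x v : V) :
    f (cb e a x) v = ∑ i, a i * f (e i) v + f x v := by
  have := map_sum (IsLinearMap.mk' (f · v) ⟨fun x y => h.addl x y v, fun c x => h.smull c x v⟩)
    (fun i => a i • e i) Finset.univ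
  simp only [IsLinearMap.mk'_apply, h.smull] at this
  rw [cb, h.addl, this]

theorem Cx.cb_e (h : Cx f C) (g : G f C e) (a : κ → F) (x : V) (j : κ) : f (cb e a x) (e j) = a j + f x (e j) := by
  rw [h.suml, Finset.sum_eq_single j (fun i _ hi => by rw [g.orth i j hi, mul_zero]) (by simp), g.one, mul_one]

theorem Cx.cb_cb (h : Cx f C) (g : G f C e) (hx : ∀ i, f x (e i) = 0) (hy : ∀ i, f y (e i) = 0) :
    f (cb e a x) (cb e b y) = ∑ i, a i * b i ^ 2 + f x y := by
  rw [h.suml, h.herm x, h.suml, h.herm x y]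
  simp only [h.herm (e _) (cb e b y), h.cb_e g, hy, add_zero, h.symm (hx _), mul_zero, Finset.sum_const_zero,
    zero_add]

theorem Cx.decomp (h : Cx f C) (g : G f C e) (v : V) : ∃ (a : κ → F) (x : V), (∀ i, f x (e i) = 0) ∧ v = cb e a x :=
  ⟨fun i => f v (e i), cb e (fun i => -f v (e i)) v, fun i => by rw [h.cb_e g, neg_add_cancel], by simp [cb]⟩

theorem cb_add (a b : κ → F) (x y : V) : cb e (a + b) (x + y) = cb e a x + cb e b y := by
  simp only [cb, Pi.add_apply, add_smul, Finset.sum_add_distrib]; abel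

theorem cb_smul (c : F) (a : κ → F) (x : V) : cb e (c • a) (c • x) = c • cb e a x := by
  simp only [cb, Pi.smul_apply, smul_eq_mul, mul_smul, smul_add, Finset.smul_sum]

theorem cb_single (i : κ) (c : F) (x : V) : cb e (Pi.single i c) x = c • e i + x := by
  simp [cb, Pi.single_apply]

variable [DecidableEq F]

theorem Cx.wt_cast (h : Cx f C) (a : κ → F) : ∑ i, a i * a i ^ 2 = (wt a : F) := by
  rw [wt, Nat.cast_sum]
  refine Finset.sum_congr rfl fun i _ => ?_
  split_ifs with h0
  · simp [h0]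
  · rw [Nat.cast_one, ← h.four _ h0]; ring

theorem Cx.par (h : Cx f C) (g : G f C e) (hx : ∀ i, f x (e i) = 0) (h0 : f (cb e a x) (cb e a x) = 0) :
    (wt a % 2 = 0 ∧ f x x = 0) ∨ (wt a % 2 = 1 ∧ f x x = 1) := by
  rw [h.cb_cb g hx hx, h.wt_cast, ← Nat.div_add_mod (wt a) 2] at h0
  rcases Nat.mod_two_eq_zero_or_one (wt a) with e | e <;> rw [e] at h0 <;> push_cast at h0
  · exact Or.inl ⟨e, by linear_combination h0 - (wt a / 2 : ℕ) * h.two⟩
  · exact Or.inr ⟨e, by linear_combination h0 - ((wt a / 2 : ℕ) + 1) * h.two⟩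

theorem wt_card (a : κ → F) : wt a = (Finset.univ.filter (a · ≠ 0)).card := by
  simp [wt, Finset.card_filter]

theorem wt_le (a : κ → F) : wt a ≤ Fintype.card κ := wt_card a ▸ Finset.card_le_univ _

theorem wt_zero (h : wt a = 0) : a = 0 := by
  rw [wt_card, Finset.card_eq_zero, Finset.filter_eq_empty_iff] at h
  exact funext fun i => not_not.1 (h (Finset.mem_univ i))

theorem wt_top : wt a = Fintype.card κ ↔ ∀ i, a i ≠ 0 := by
  rw [wt_card, Finset.card_eq_iff_eq_univ, Finset.filter_eq_self]; simp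

theorem wt_single (i : κ) {c : F} (hc : c ≠ 0) : wt (Pi.single i c : κ → F) = 1 := by
  simp [wt, Pi.single_apply, hc]

section
variable (h : Cx f C) (g : G f C e) (hx : ∀ i, f x (e i) = 0)
include h g hx

theorem Cx.sw {i j : κ} (hij : i ≠ j) {s : F} (hs : s ≠ 0) (hc : C (cb e a x)) :
    C (cb e (update (update a i (s ^ 2 * a j)) j (s * a i)) x) := by
  have := h.ref hc (g.cen i j hij s hs)
  rw [h.addr, h.smulr, h.cb_e g, h.cb_e g, hx, hx, add_zero, add_zero,
    show e i + s • e j = cb e (Pi.single i 1 + Pi.single j s : κ → F) 0 by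
      rw [← add_zero (0 : V), cb_add, cb_single, cb_single]; simp, ← cb_smul, ← cb_add, smul_zero, add_zero] at this
  convert this using 2
  ext l
  have := h.four s hs
  have := h.two
  by_cases h1 : l = j
  · simp [h1, hij.symm]; grind
  by_cases h2 : l = i
  · simp [h2, hij]; grind
  · simp [h1, h2]

theorem Cx.perm (π : Equiv.Perm κ) : ∀ {a : κ → F}, C (cb e a x) → C (cb e (a ∘ π) x) := by
  induction π using Equiv.Perm.swap_induction_on with
  | one => exact id
  | swap_mul π i j hij ih =>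
    intro a hc
    refine ih (a := a ∘ Equiv.swap i j) ?_
    convert h.sw g hx hij.symm one_ne_zero hc using 2
    rw [Equiv.comp_swap_eq_update]; simp

theorem Cx.tor {i j : κ} (hij : i ≠ j) {s : F} (hs : s ≠ 0) (hc : C (cb e a x)) :
    C (cb e (update (update a i (s * a i)) j (s ^ 2 * a j)) x) := by
  convert h.perm g hx (Equiv.swap i j) (h.sw g hx hij hs hc) using 2
  ext l
  by_cases h1 : l = j
  · simp [h1, hij]
  by_cases h2 : l = i
  · simp [h2, hij]
  · simp [h1, h2, Equiv.swap_apply_of_ne_of_ne]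

theorem Cx.mono (h0 : wt a < Fintype.card κ) (hw : wt a = wt b) (hc : C (cb e a x)) : C (cb e b x) := by
  obtain ⟨π, hπ⟩ := Equiv.Perm.exists_map_finset_eq _ _ ((wt_card b).symm.trans (hw.symm.trans (wt_card a)))
  have k (i : κ) : a (π i) ≠ 0 ↔ b i ≠ 0 := by simpa using (Finset.ext_iff.1 hπ (π i)).symm
  obtain ⟨i0, h1⟩ := not_forall.1 (mt wt_top.2 h0.ne)
  replace h1 : (a ∘ π) (π.symm i0) = 0 := by simpa using h1
  have key (T : Finset κ) : C (cb e (fun i => if i ∈ T then b i else (a ∘ π) i) x) := by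
    induction T using Finset.induction_on with
    | empty => simp only [Finset.notMem_empty, if_false]; exact h.perm g hx π hc
    | insert l T hl ih =>
      by_cases h2 : b l = 0
      · convert ih using 2
        ext i
        by_cases h3 : i = l <;> simp [h3, hl, h2, not_not.1 (mt (k l).1 (not_not.2 h2))]
      · have h3 : l ≠ π.symm i0 := fun e => (k l).2 h2 (e ▸ h1)
        convert h.tor g hx h3 (div_ne_zero h2 ((k l).2 h2)) ih using 2
        have h4 : b (π.symm i0) = 0 := not_not.1 (mt (k _).2 (not_not.2 h1))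
        ext i
        by_cases h5 : i = π.symm i0
        · subst h5; simp only [update_self, h1, h4, ite_self, mul_zero]
        by_cases h6 : i = l
        · simp [h6, h3, hl, (k l).2 h2]
        · simp [h5, h6]
  simpa using key Finset.univ

end

theorem Cx.ext {k : ℕ} {e : Fin k → V} {a : Fin k → F} (h : Cx f C) (g : G f C e) (hx : ∀ i, f x (e i) = 0)
    (hk : 2 ≤ k) (ha : wt a = 1) (hc : C (cb e a x)) : G f C (Fin.cons x e : Fin (k + 1) → V) := by
  have m (i : Fin k) {c : F} (hc0 : c ≠ 0) : C (c • e i + x) := cb_single (e := e) i c x ▸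
    h.mono g hx (by rw [ha, Fintype.card_fin]; omega) (ha.trans (wt_single i hc0).symm) hc
  refine ⟨Fin.cases (((h.par g hx (h.iso hc)).resolve_left (by omega)).2) g.one,
    Fin.cases (Fin.cases (by simp) fun j _ => hx j) fun i => Fin.cases (fun _ => h.symm (hx i)) fun j hij =>
      g.orth i j (by simpa using hij),
    Fin.cases (Fin.cases (by simp) fun j _ s hs => add_comm x _ ▸ m j hs) fun i =>
      Fin.cases (fun _ s hs => ?_) fun j hij => g.cen i j (by simpa using hij)⟩
  simpa [smul_smul, hs] using h.smul (m i (inv_ne_zero hs)) hs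

/-- all isotropic vectors of the span are centres -/
def Fu (f : V → V → F) (C : V → Prop) (e : κ → V) : Prop :=
  ∀ b : κ → F, cb e b 0 ≠ 0 → f (cb e b 0) (cb e b 0) = 0 → C (cb e b 0)

theorem Cx.fu {k : ℕ} {e : Fin (k + 3) → V} (h : Cx f C) (g : G f C e) (hk : k ≤ 2)
    (h4 : k = 0 ∨ ∃ a : Fin (k + 3) → F, wt a = 4 ∧ C (cb e a 0)) : Fu f C e := fun b h0 h1 => by
  have z (i : Fin (k + 3)) : f 0 (e i) = 0 := h.zerol _
  have h2 := ((h.par g z h1).resolve_right fun e => by simpa [h.zerol] using e.2).1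
  have h3 := wt_le b
  have h5 : wt b ≠ 0 := fun e => h0 (by simp [wt_zero e, cb])
  rw [Fintype.card_fin] at h3
  by_cases h6 : wt b = 2
  · have w : wt (Fin.cons 1 (Fin.cons 1 0) : Fin (k + 3) → F) = 2 := by simp [wt, Fin.sum_univ_succ]
    refine h.mono g z (by rw [w, Fintype.card_fin]; omega) (w.trans h6.symm) ?_
    simpa [cb, Fin.sum_univ_succ] using g.cen 0 1 (by simp) 1 one_ne_zero
  obtain ⟨a, ha, hc⟩ := h4.resolve_left (by omega)
  by_cases hk2 : k = 2
  · exact h.mono g z (by rw [Fintype.card_fin]; omega) (by omega) hc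
  obtain rfl : k = 1 := by omega
  have n1 := wt_top.1 (ha.trans (Fintype.card_fin 4).symm)
  have n2 := wt_top.1 ((by omega : wt b = 4).trans (Fintype.card_fin 4).symm)
  obtain ⟨r, hr, rfl⟩ : ∃ r : Fin 4 → F, (∀ i, r i ≠ 0) ∧ b = r * a :=
    ⟨b / a, fun i => div_ne_zero (n2 i) (n1 i), funext fun i => (div_mul_cancel₀ _ (n1 i)).symm⟩
  obtain ⟨ρ, hρ⟩ : ∃ ρ, ρ = r 0 * r 1 * r 2 * r 3 := ⟨_, rfl⟩
  have h7 : ρ ≠ 0 := by simp [hρ, hr]
  have h8 := h.smul hc h7
  rw [← cb_smul, smul_zero] at h8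
  have n (i : Fin 4) := mul_ne_zero (hr i) (pow_ne_zero 2 h7)
  convert h.tor g z (i := 2) (j := 3) (by decide) (n 2) (h.tor g z (i := 1) (j := 3) (by decide) (n 1)
    (h.tor g z (i := 0) (j := 3) (by decide) (n 0) h8)) using 2
  have := h.four _ h7
  have := h.four _ (hr 3)
  ext i
  fin_cases i <;> simp [update_apply] <;> grind

theorem Cx.step {k : ℕ} {e : Fin (k + 3) → V} (h : Cx f C) (g : G f C e) (hf : Fu f C e)
    (hx : ∀ i, f x (e i) = 0) (M : Fin (k + 3) → Fin (k + 3) → F)
    (hM : ∀ i j, ∑ l, M i l * M j l ^ 2 = if i = j then 1 else 0) (hc : C (cb e (M 0) x)) :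
    ∃ e' : Fin (k + 4) → V, G f C e' := by
  have z (i : Fin (k + 3)) : f 0 (e i) = 0 := h.zerol _
  have o (i j : Fin (k + 3)) : f (cb e (M i) 0) (cb e (M j) 0) = if i = j then 1 else 0 := by
    rw [h.cb_cb g z z, hM, h.zerol, add_zero]
  have g' : G f C fun i => cb e (M i) 0 := ⟨fun i => by simp [o], fun i j hij => by simp [o, hij],
    fun i j hij s hs => by
      have e1 : cb e (M i) 0 + s • cb e (M j) 0 = cb e (M i + s • M j) 0 := by
        rw [← cb_smul, ← cb_add, smul_zero, add_zero]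
      rw [e1]
      refine hf _ (fun e0 => ?_) ?_
      · have := h.zerol (cb e (M i) 0)
        nth_rewrite 1 [← e0] at this
        simp [← e1, h.addl, h.smull, o, hij.symm] at this
      · simp only [← e1, h.addl, h.smull, h.addr, h.smulr, o, hij, hij.symm, if_true, if_false]
        linear_combination h.four s hs + h.two⟩
  refine ⟨_, h.ext g' (x := x) (fun i => h.symm ?_) (by omega) (wt_single 0 one_ne_zero) ?_⟩
  · simp [h.suml, h.symm (hx _), h.zerol]
  · rw [cb_single]
    simpa [cb] using hc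

end CfsgLib.TvN.Full2x
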