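import Mathlib
import Cfsg.Agent.Lib.TvN.Full2A

/-! The unitary case over the field with four elements.  See `plans/TVN.md`. -/

set_option autoImplicit false

namespace CfsgLib.TvN

open Matrix Cfsg Cfsg.Geo CfsgLib.Asch
open scoped MatrixGroups commutatorElement

namespace Full2x

variable {F V : Type*} [Field F] [DecidableEq F] [AddCommGroup V] [Module F V] {f : V → V → F} {C : V → Prop} {ω : F}

theorem Cx.s1 (h : Cx f C) {x y z : V} (hx : C x) (hy : C y) (hz : C z)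
    (hd : f x y * f y z * f z x + f x z * f z y * f y x ≠ 0) :
    ∃ ω : F, ω ^ 2 + ω + 1 = 0 ∧ ∃ e : Fin 3 → V, G f C e := by
  have two := h.two
  wlog e1 : f x y = 1 generalizing y with H
  · have n : f x y ≠ 0 := fun e => by simp [e, h.symm e] at hd
    have := h.four _ n
    refine H (h.smul hy n) ?_ (by rw [h.smulr]; grind)
    simp only [h.smull, h.smulr]
    grind
  have e2 : f y x = 1 := by rw [h.herm, e1, one_pow]
  rw [e1, e2, h.herm y z, h.herm x z] at hd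
  have p0 : f z x ≠ 0 := fun e => by simp [e] at hd
  have p3 := h.four _ p0
  have q3 := h.four (f z y) fun e => by simp [e] at hd
  obtain ⟨ω, hω⟩ : ∃ ω, ω = f z x * f z y ^ 2 := ⟨_, rfl⟩
  have h1 : ω ^ 2 + ω + 1 = 0 := by grind
  have pr {ω ω' : F} (h1 : ω ^ 2 + ω + 1 = 0) (h2 : ω' = ω ^ 2) (s : F) (hs : s ≠ 0) :
      C (x + ω • y + s • (x + ω' • y)) := by
    have := h.four s hs
    have : (s - 1) * (s - ω) * (s - ω') = 0 := by grind
    simp only [mul_eq_zero, sub_eq_zero] at this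
    rcases this with (rfl | rfl) | rfl
    · convert hy using 1
      match_scalars <;> grind
    · convert h.smul (h.ref hx hy) (c := 1 + s) (by grind) using 1
      match_scalars <;> grind
    · convert h.smul hx (c := 1 + s) (by grind) using 1
      match_scalars <;> grind
  have g : G f C ![x + ω • y, x + ω ^ 2 • y] := by
    refine ⟨Fin.forall_fin_two.2 ⟨?_, ?_⟩, Fin.forall_fin_two.2 ⟨Fin.forall_fin_two.2 ⟨by simp, fun _ => ?_⟩,
      Fin.forall_fin_two.2 ⟨fun _ => ?_, by simp⟩⟩, Fin.forall_fin_two.2 ⟨Fin.forall_fin_two.2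
        ⟨by simp, fun _ => pr h1 rfl⟩, Fin.forall_fin_two.2 ⟨fun _ => pr (by grind) (by grind), by simp⟩⟩⟩
    all_goals
      simp only [cons_val_zero, cons_val_one, h.addl, h.addr, h.smull, h.smulr, e1, e2, h.iso hx, h.iso hy]
      grind
  obtain ⟨a, z', h2, h3⟩ := h.decomp g z
  refine ⟨ω, h1, _, h.ext g h2 le_rfl (a := a) ?_ (h3 ▸ hz)⟩
  have a0 := h.cb_e g a z' 0
  have a1 := h.cb_e g a z' 1
  rw [← h3, h2] at a0 a1
  simp only [cons_val_zero, cons_val_one, h.addr, h.smulr] at a0 a1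
  simp [wt, show a 0 ≠ 0 by grind, show a 1 = 0 by grind]

theorem Cx.s2 (h : Cx f C) (hω : ω ^ 2 + ω + 1 = 0) {e : Fin 3 → V} (g : G f C e)
    (hax : ∀ x, x ≠ 0 → ∃ r, C r ∧ f r x ≠ 0) {a : Fin 3 → F} {x : V} (hx : ∀ i, f x (e i) = 0) (ha : a ≠ 0)
    (hx0 : x ≠ 0) (hc : C (cb e a x)) : ∃ e' : Fin 4 → V, G f C e' := by
  have two := h.two
  have w0 : ω ≠ 0 := by grind
  have odd {a : Fin 3 → F} {x : V} (hx : ∀ i, f x (e i) = 0) (hc : C (cb e a x)) (ha : wt a % 2 = 1) :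
      ∃ e' : Fin 4 → V, G f C e' := by
    by_cases h1 : wt a = 1
    · exact ⟨_, h.ext g hx (by omega) h1 hc⟩
    have h3 := wt_le a
    have n := fun i => h.four _ ((wt_top (a := a)).1 (by rw [Fintype.card_fin] at *; omega) i)
    refine h.step g (h.fu g (by omega) (Or.inl rfl)) hx
      ![a, ![a 0, ω * a 1, ω ^ 2 * a 2], ![a 0, ω ^ 2 * a 1, ω * a 2]] (fun i j => ?_) hc
    have := n 0
    have := n 1
    have := n 2
    fin_cases i <;> fin_cases j <;> simp [Fin.sum_univ_three] <;> grind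
  have tw {a b : Fin 3 → F} {x y : V} (hx : ∀ i, f x (e i) = 0) (hy : ∀ i, f y (e i) = 0) (h1 : C (cb e a x))
      (h2 : C (cb e b y)) (ha : wt a = 2) (hb : wt b = 2) (hxy : f x y ≠ 0) : ∃ e' : Fin 4 → V, G f C e' := by
    have := h.ref (h.mono g hx (by simp [ha]) (b := ![1, 1, 0]) (by rw [ha]; simp [wt, Fin.sum_univ_three]) h1)
      (h.mono g hy (by simp [hb]) (b := ![(ω * f x y) ^ 2, 0, (ω * f x y) ^ 2])
        (by rw [hb]; simp [wt, Fin.sum_univ_three, w0, hxy]) h2)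
    rw [← cb_smul, ← cb_add, h.cb_cb g hx hy] at this
    refine odd (fun i => by rw [h.addl, h.smull, hx, hy, mul_zero, add_zero]) this ?_
    rw [wt_top.2 fun i => ?_, Fintype.card_fin]
    have := h.four _ hxy
    fin_cases i <;> simp [Fin.sum_univ_three] <;> grind
  rcases h.par g hx (h.iso hc) with ⟨h1, h2⟩ | h1
  swap
  · exact odd hx hc h1.1
  have h3 := wt_le a
  rw [Fintype.card_fin] at h3
  have h4 : wt a = 2 := by have := mt wt_zero ha; omega
  obtain ⟨r, hr, h5⟩ := hax x hx0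
  obtain ⟨b, y, hy, rfl⟩ := h.decomp g r
  have h6 : f x y ≠ 0 := fun e0 => h5 (by simp [h.suml, h.symm (hx _), h.symm e0])
  have h7 := wt_le b
  rw [Fintype.card_fin] at h7
  by_cases h8 : wt b % 2 = 1
  · exact odd hy hr h8
  by_cases h9 : wt b = 2
  · exact tw hx hy hc hr h4 h9 h6
  obtain rfl := wt_zero (a := b) (by omega)
  have := h.ref hc hr
  rw [← cb_smul, ← cb_add, h.cb_cb g hx hy, smul_zero, add_zero] at this
  refine tw hx (fun i => by rw [h.addl, h.smull, hx, hy, mul_zero, add_zero]) hc this h4 h4 ?_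
  simp [h.addr, h.smulr, h2, h6]

theorem Cx.s3 (h : Cx f C) (hω : ω ^ 2 + ω + 1 = 0) {e : Fin 4 → V} (g : G f C e) {a : Fin 4 → F} {x : V}
    (hx : ∀ i, f x (e i) = 0) (hx0 : f x x ≠ 0) (hc : C (cb e a x)) : ∃ e' : Fin 5 → V, G f C e' := by
  have two := h.two
  have w0 : ω ≠ 0 := by grind
  obtain ⟨h1, h2⟩ := (h.par g hx (h.iso hc)).resolve_left fun k => hx0 k.2
  by_cases h3 : wt a = 1
  · exact ⟨_, h.ext g hx (by omega) h3 hc⟩
  have h4 := wt_le a
  rw [Fintype.card_fin] at h4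
  have h5 : wt a = 3 := by omega
  have c1 := h.mono g hx (by simp [h5]) (b := ![1, 1, 1, 0]) (by rw [h5]; simp [wt, Fin.sum_univ_four]) hc
  have c2 := h.ref c1 (h.mono g hx (by simp [h5]) (b := ![ω ^ 2, ω ^ 2, 0, ω ^ 2])
    (by rw [h5]; simp [wt, Fin.sum_univ_four, w0]) hc)
  rw [h.cb_cb g hx hx, h2, show ∑ i, ![1, 1, 1, 0] i * ![ω ^ 2, ω ^ 2, 0, ω ^ 2] i ^ 2 + 1 = (1 : F) by
    simp [Fin.sum_univ_four]; grind, one_smul, ← cb_add, ← two_smul F, two, zero_smul] at c2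
  refine h.step g (h.fu g (by omega) (Or.inr ⟨_, (wt_top.2 fun i => ?_).trans (Fintype.card_fin 4), c2⟩)) hx
    ![![1, 1, 1, 0], ![1, ω, ω ^ 2, 0], ![1, ω ^ 2, ω, 0], ![0, 0, 0, 1]] (fun i j => ?_) c1
  · fin_cases i <;> simp <;> grind
  · fin_cases i <;> fin_cases j <;> simp [Fin.sum_univ_four] <;> grind

theorem Cx.li (h : Cx f C) {k : ℕ} {e : Fin k → V} (g : G f C e) : LinearIndependent F e :=
  Fintype.linearIndependent_iff.2 fun a ha j => by
    have := h.cb_e g a 0 j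
    rwa [cb, ha, add_zero, h.zerol, add_zero, eq_comm] at this

theorem Cx.rad (h : Cx f C) {κ : Type} {e : κ → V} (hs : Submodule.span F (Set.range e) = ⊤) {y : V}
    (hy : ∀ i, f (e i) y = 0) (v : V) : f v y = 0 := by
  refine Submodule.span_induction (p := fun v _ => f v y = 0) ?_ (h.zerol y) (fun a b _ _ ha hb => ?_)
    (fun c a _ ha => ?_) (hs.ge Submodule.mem_top)
  · rintro _ ⟨i, rfl⟩; exact hy i
  · rw [h.addl, ha, hb, add_zero]
  · rw [h.smull, ha, mul_zero]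

end Full2x

variable {ι : Type} [Fintype ι] [DecidableEq ι] {F : Type*} [Field F]
  {P : Subgroup (GL ι F)} {K : Subfield F}

open Full2x in
theorem full_two [Finite F] (hn : Fintype.card ι = 4 ∨ Fintype.card ι = 5) (hP : Hy P)
    {σ : F ≃+* F} {f : (ι → F) → (ι → F) → F} (hU : UF P K σ f) (hK : ∀ c ∈ K, c = 0 ∨ c = 1) :
    Full P K f := by
  classical
  have two : (2 : F) = 0 := (hK _ (K.neg_mem K.one_mem)).elim (by simp) fun e => by linear_combination -e
  have sq (a : F) : σ a = a ^ 2 ∧ (a ≠ 0 → a ^ 3 = 1) := by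
    have h1 := hK (a + σ a) ((hU.fixed _).1 (by rw [map_add, hU.form.involutive, add_comm]))
    have h2 := hK (a * σ a) ((hU.fixed _).1 (by rw [map_mul, hU.form.involutive, mul_comm]))
    have h3 := fun e => hK a ((hU.fixed a).1 e)
    have h4 : a * σ a = 0 → a = 0 := fun e => (mul_eq_zero.1 e).elim id (map_eq_zero σ).1
    grind
  have rt {u χ : ι → F} (hu : SK P K u χ) (x : ι → F) : χ ⬝ᵥ x = f x u := by
    obtain ⟨c, c0, c1, c2⟩ := hU.root hu
    rw [c2, (hK c ((hU.fixed c).1 (by linear_combination c1 - c * two))).resolve_left c0, one_mul]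
  let C : (ι → F) → Prop := fun u => ∃ χ, SK P K u χ
  have h : Cx f C := ⟨two, fun a => (sq a).2, hU.form.add_left, hU.form.smul_left,
    fun v w => (hU.form.herm v w).trans (sq _).1, fun ⟨_, hu⟩ => (rt hu _).symm.trans hu.dot, fun ⟨_, hu⟩ => hu.1,
    fun ⟨_, hu⟩ hc => ⟨_, hu.scale hc⟩, fun ⟨_, hv⟩ ⟨_, hu⟩ => ⟨_, rt hu _ ▸ hv.conj_tv hu.tv⟩⟩
  obtain ⟨x, φ, y, η, z, ζ, hx, hy, hz, hd⟩ := hU.asym
  have hne : ∃ v φ, SK P K v φ := ⟨x, φ, hx⟩
  have nd (y : ι → F) (hy : ∀ v, f v y = 0) : y = 0 := by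
    by_contra h0
    exact (hU.form.nondegenerate y h0).1.elim fun v hv => hv (hy v)
  have next {k : ℕ} {e : Fin (k + 1) → ι → F} (g : G f C e) (hk : k + 1 < Fintype.card ι) :
      ∃ (a : Fin (k + 1) → F) (x : ι → F), (∀ i, f x (e i) = 0) ∧ a ≠ 0 ∧ x ≠ 0 ∧ C (cb e a x) := by
    by_contra! hc
    have := hP.span_c hne (W := Submodule.span F (Set.range e)) (fun e0 => (h.li g).ne_zero 0
      ((Submodule.eq_bot_iff _).1 e0 _ (Submodule.subset_span ⟨0, rfl⟩))) fun u χ hu w hw h0 => by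
        obtain ⟨a, x, h1, rfl⟩ := h.decomp g u
        obtain ⟨b, rfl⟩ := (Submodule.mem_span_range_iff_exists_fun F).1 hw
        by_cases h2 : x = 0
        · exact (Submodule.mem_span_range_iff_exists_fun F).2 ⟨a, by simp [cb, h2]⟩
        refine absurd ⟨χ, hu⟩ (hc a x h1 (fun e0 => h0 ?_) h2)
        rw [rt hu, ← add_zero (∑ i, _), ← cb, h.cb_cb g (fun _ => h.zerol _) h1]
        simp [e0, h.zerol]
    have h1 := finrank_span_eq_card (h.li g)
    rw [this, finrank_top, Module.finrank_fintype_fun_eq_card, Fintype.card_fin] at h1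
    omega
  obtain ⟨ω, hω, e3, g3⟩ := h.s1 ⟨φ, hx⟩ ⟨η, hy⟩ ⟨ζ, hz⟩ hd
  obtain ⟨e4, g4⟩ : ∃ e : Fin 4 → ι → F, G f C e := by
    obtain ⟨a, x, h1, h2, h3, h4⟩ := next g3 (by omega)
    exact h.s2 hω g3 (fun x hx => (hP.exists_axis hne hx).elim fun u ⟨χ, hu, h0⟩ =>
      ⟨u, ⟨χ, hu⟩, fun e => h0 (rt hu x ▸ h.symm e)⟩) h1 h2 h3 h4
  obtain ⟨k, hk, hk', e, g⟩ : ∃ k, k ≤ 2 ∧ Fintype.card ι = k + 3 ∧ ∃ e : Fin (k + 3) → ι → F, G f C e := by
    refine hn.elim (fun hn => ⟨1, by omega, hn, e4, g4⟩) fun hn => ⟨2, le_rfl, hn, ?_⟩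
    obtain ⟨a, x, h1, -, h3, h4⟩ := next g4 (by omega)
    refine h.s3 hω g4 h1 (fun h0 => h3 (nd x (h.rad (e := (Fin.cons x e4 : Fin 5 → ι → F))
      (LinearIndependent.span_eq_top_of_card_eq_finrank' (linearIndependent_finCons.2 ⟨h.li g4, fun hw => h3 ?_⟩)
        (by simp [hn])) (Fin.cases h0 fun i => h.symm (h1 i))))) h4
    obtain ⟨b, rfl⟩ := (Submodule.mem_span_range_iff_exists_fun F).1 hw
    have (i : Fin 4) : b i = 0 := by simpa [cb, h1, h.zerol] using (h.cb_e g4 b 0 i).symm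
    simp [this]
  have all (v : ι → F) : ∃ a : Fin (k + 3) → F, v = cb e a 0 := by
    obtain ⟨a, x, h1, h2⟩ := h.decomp g v
    exact ⟨a, nd x (h.rad ((h.li g).span_eq_top_of_card_eq_finrank' (by simp [hk'])) fun i => h.symm (h1 i)) ▸ h2⟩
  have z0 (i : Fin (k + 3)) : f 0 (e i) = 0 := h.zerol _
  by_cases h4 : ∃ a : Fin (k + 3) → F, wt a = 4 ∧ C (cb e a 0)
  · intro u h0 h1
    obtain ⟨a, rfl⟩ := all u
    exact h.fu g hk (Or.inr h4) a h0 h1
  exfalso
  let S : Set (ι → F) := {v | ∃ i, ∃ c : F, c ≠ 0 ∧ v = c • e i}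
  let M : Subgroup (GL ι F) :=
    { carrier := {t | ∀ v, t.1 *ᵥ v ∈ S ↔ v ∈ S}
      mul_mem' := fun {a b} ha hb v => by rw [Units.val_mul, ← mulVec_mulVec, ha, hb]
      one_mem' := fun v => by simp
      inv_mem' := fun {a} ha v => by rw [← ha, mulVec_inv_mulVec] }
  let N : Subgroup (GL ι F) :=
    { carrier := {t | ∀ v ∈ S, ∃ c : F, t.1 *ᵥ v = c • v}
      mul_mem' := fun {a b} ha hb v hv => by
        obtain ⟨c, hc⟩ := ha v hv
        obtain ⟨d, hd⟩ := hb v hv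
        exact ⟨d * c, by rw [Units.val_mul, ← mulVec_mulVec, hd, mulVec_smul, hc, smul_smul]⟩
      one_mem' := fun v _ => ⟨1, by simp⟩
      inv_mem' := fun {a} ha v hv => by
        obtain ⟨c, hc⟩ := ha v hv
        by_cases c0 : c = 0
        · exact ⟨0, by rw [← inv_mulVec_mulVec a v, hc, c0]; simp⟩
        · exact ⟨c⁻¹, by rw [eq_inv_smul_iff₀ c0, ← mulVec_smul, ← hc, inv_mulVec_mulVec]⟩ }
  have hM : P ≤ M := hP.le_of_sk hne fun u χ hu => by
    have k1 : ∀ v ∈ S, (tvGL u χ hu.dot).1 *ᵥ v ∈ S := by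
      rintro _ ⟨l, c, hc, rfl⟩
      obtain ⟨a, rfl⟩ := all u
      have h1 := ((h.par g z0 (h.iso ⟨χ, hu⟩)).resolve_right fun e => by simpa [h.zerol] using e.2).1
      have h2 := wt_le a
      have h3 : wt a ≠ 0 := fun e => hu.1 (by simp [wt_zero e, cb])
      have h5 : wt a ≠ 4 := fun e => h4 ⟨a, e, χ, hu⟩
      rw [Fintype.card_fin] at h2
      rw [tvGL_mulVec, rt hu, h.smull, h.herm, h.cb_e g, z0, add_zero]
      by_cases h6 : a l = 0
      · exact ⟨l, c, hc, by simp [h6]⟩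
      obtain ⟨m, hm, h7⟩ : ∃ m, m ≠ l ∧ Finset.univ.filter (a · ≠ 0) = {l, m} := by
        obtain ⟨i, j, hij, h7⟩ := Finset.card_eq_two.1 ((wt_card a).symm.trans (by omega))
        rcases Finset.mem_insert.1 (h7 ▸ Finset.mem_filter.2 ⟨Finset.mem_univ l, h6⟩) with rfl | h8
        · exact ⟨j, hij.symm, h7⟩
        · exact ⟨i, Finset.mem_singleton.1 h8 ▸ hij, by rw [h7, Finset.mem_singleton.1 h8, Finset.pair_comm]⟩
      have h8 : a m ≠ 0 := (Finset.mem_filter.1 (h7.ge (by simp))).2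
      refine ⟨m, c * a l ^ 2 * a m, by simp [hc, h6, h8], ?_⟩
      rw [cb, ← Finset.sum_filter_of_ne (p := (a · ≠ 0)) (fun i _ => left_ne_zero_of_smul), h7,
        Finset.sum_pair hm.symm]
      have := h.four _ h6
      match_scalars <;> grind
    refine fun v => ⟨fun hv => ?_, k1 v⟩
    convert k1 _ hv using 1
    simp only [tvGL_mulVec, dotProduct_add, dotProduct_smul, hu.dot, smul_zero, add_zero]
    rw [add_assoc, ← two_smul F, two, zero_smul, add_zero]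
  have w0 : ω ≠ 0 := by grind
  obtain ⟨χ1, t1⟩ := g.cen 0 1 (by simp) 1 one_ne_zero
  obtain ⟨χ2, t2⟩ := g.cen 0 1 (by simp) ω w0
  have ac (v : ι → F) : (tvGL _ χ1 t1.dot * tvGL _ χ2 t2.dot).1 *ᵥ v =
      v + ((1 + ω) * f v (e 0)) • e 0 + (ω * f v (e 1)) • e 1 := by
    simp only [Units.val_mul, ← mulVec_mulVec, tvGL_mulVec, rt t1, rt t2, h.addl, h.addr, h.smull, h.smulr, g.one,
      g.orth 0 1 (by simp), g.orth 1 0 (by simp)]
    match_scalars <;> grind
  have li := Fintype.linearIndependent_iff.1 (h.li g)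
  rcases hP.norm (P ⊓ N) inf_le_left (fun t ht n hn => ⟨P.mul_mem (mul_mem ht hn.1) (inv_mem ht), fun v hv => by
    obtain ⟨c, hc⟩ := hn.2 _ ((hM (inv_mem ht) v).2 hv)
    exact ⟨c, by rw [Units.val_mul, Units.val_mul, ← mulVec_mulVec, ← mulVec_mulVec, hc, mulVec_smul,
      mulVec_inv_mulVec]⟩⟩) with e0 | e0
  · obtain ⟨c, hc⟩ := (e0.ge t1.tv.mem).2 (e 0) ⟨0, 1, one_ne_zero, (one_smul _ _).symm⟩
    have := congrArg (f · (e 1)) hc
    simp [tvGL_mulVec, rt t1, h.addl, h.addr, h.smull, g.one, g.orth 0 1 (by simp)] at this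
  · obtain ⟨c, hc⟩ := (mem_scalars_iff _).1 (e0 (x := tvGL _ χ1 t1.dot * tvGL _ χ2 t2.dot)
      ⟨mul_mem t1.tv.mem t2.tv.mem, by
        rintro _ ⟨l, c, -, rfl⟩
        rw [ac]
        refine Fin.cases ⟨ω, ?_⟩ (Fin.cases ⟨1 + ω, ?_⟩ fun l => ⟨1, ?_⟩) l
        · simp only [h.smull, g.one, g.orth 0 1 (by simp)]
          match_scalars <;> grind
        · simp only [Fin.succ_zero_eq_one, h.smull, g.one, g.orth 1 0 (by simp)]
          match_scalars <;> grind
        · simp [h.smull, g.orth l.succ.succ 0 (by simp), g.orth l.succ.succ 1 (Fin.succ_succ_ne_one l)]⟩)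
    have a0 := congrArg (f · (e 0)) (ac (e 0))
    have a1 := congrArg (f · (e 1)) (ac (e 1))
    simp only [hc, smul_mulVec, one_mulVec, h.addl, h.smull, g.one, g.orth 0 1 (by simp),
      g.orth 1 0 (by simp)] at a0 a1
    grind

end CfsgLib.TvN
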