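import Mathlib
import Cfsg.Agent.Lib.TvN.Defs

/-! A centre with two axes: the axes at every centre span the dual hyperplane.  See `plans/TVN.md`. -/

set_option autoImplicit false

namespace CfsgLib.TvN

open Matrix Cfsg Cfsg.Geo CfsgLib.Asch
open scoped MatrixGroups commutatorElement

variable {ι : Type} [Fintype ι] [DecidableEq ι] {F : Type*} [Field F]
  {P : Subgroup (GL ι F)} {K : Subfield F}

namespace GEOx

open Module

theorem mem_lx {x φ : ι → F} (h : SK P K x φ) : φ ∈ Lx P K x := Submodule.subset_span h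

theorem mem_of_nil {x ψ y η : ι → F} (hx : SK P K x ψ) (hy : SK P K y η) (h0 : ψ ⬝ᵥ y = 0)
    (hb : η ⬝ᵥ x ≠ 0) : ψ ∈ Lx P K y :=
  (Submodule.smul_mem_iff _ hb).1 (mem_lx (hy.comm hx h0 hb))

theorem lx_le (x : ι → F) : Lx P K x ≤ hyp x :=
  Submodule.span_le.2 fun φ (h : SK P K x φ) => by
    rw [SetLike.mem_coe, mem_hyp, dotProduct_comm]; exact h.dot

theorem dot_of_mem {x ω : ι → F} (h : ω ∈ Lx P K x) : ω ⬝ᵥ x = 0 := by
  rw [dotProduct_comm]; exact lx_le x h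

theorem exists_of_mem {x ω y : ι → F} (h : ω ∈ Lx P K x) (e : ω ⬝ᵥ y ≠ 0) :
    ∃ φ, SK P K x φ ∧ φ ⬝ᵥ y ≠ 0 := by
  by_contra! hc
  refine e ?_
  rw [dotProduct_comm]
  exact (Submodule.span_le.2 fun φ (h : SK P K x φ) => by
    rw [SetLike.mem_coe, mem_hyp, dotProduct_comm]; exact hc φ h : Lx P K x ≤ hyp y) h

omit [DecidableEq ι] in
theorem fr_inf {W : Submodule F (ι → F)} {ω y : ι → F} (h : ω ∈ W) (e : ω ⬝ᵥ y ≠ 0) :
    finrank F ↥(W ⊓ hyp y) + 1 = finrank F W := by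
  have e' : y ⬝ᵥ ω ≠ 0 := by rwa [dotProduct_comm]
  rw [← Submodule.finrank_sup_span_singleton (p := W ⊓ hyp y) (v := ω) (fun hm => e' hm.2)]
  suffices hs : W ⊓ hyp y ⊔ Submodule.span F {ω} = W by rw [hs]
  refine le_antisymm (sup_le inf_le_left (by simpa using h)) fun w hw => ?_
  have : w = (w - (y ⬝ᵥ w / y ⬝ᵥ ω) • ω) + (y ⬝ᵥ w / y ⬝ᵥ ω) • ω := by simp
  rw [this]
  refine Submodule.add_mem_sup ⟨W.sub_mem hw (W.smul_mem _ h), ?_⟩
    (Submodule.smul_mem _ _ (Submodule.mem_span_singleton_self ω))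
  rw [SetLike.mem_coe, mem_hyp, dotProduct_sub, dotProduct_smul, smul_eq_mul,
    div_mul_cancel₀ _ e', sub_self]

theorem two_le {x : ι → F} (h : Two P K x) : 2 ≤ finrank F (Lx P K x) := by
  obtain ⟨φ, ψ, h1, h2, h3⟩ := h
  have e1 : finrank F ↥(Submodule.span F {φ} ⊔ Submodule.span F {ψ}) = 2 := by
    rw [Submodule.finrank_sup_span_singleton, finrank_span_singleton h1.2.1]
    intro hm
    obtain ⟨c, hc⟩ := Submodule.mem_span_singleton.1 hm
    exact h3 c hc.symm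
  rw [← e1]
  exact Submodule.finrank_mono (sup_le (by simpa using mem_lx h1) (by simpa using mem_lx h2))

/-- step (1) -/
theorem step (hJ : CJ P K) {x φ y η : ι → F} (_hx : SK P K x φ) (hy : SK P K y η)
    (hb : η ⬝ᵥ x ≠ 0) (hm : finrank F (Lx P K y) ≤ finrank F (Lx P K x)) :
    (∃ φ', SK P K x φ' ∧ φ' ⬝ᵥ y ≠ 0) ∧ finrank F (Lx P K y) = finrank F (Lx P K x) := by
  have hη : η ∉ Lx P K x := fun h => hb (dot_of_mem h)
  have h1 : ∃ φ', SK P K x φ' ∧ φ' ⬝ᵥ y ≠ 0 := by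
    by_contra! hc
    have hle : Lx P K x ≤ Lx P K y :=
      Submodule.span_le.2 fun ψ (h : SK P K x ψ) => mem_of_nil h hy (hc ψ h) hb
    have := Submodule.eq_of_le_of_finrank_le hle hm
    exact hη (this ▸ mem_lx hy)
  refine ⟨h1, le_antisymm hm ?_⟩
  obtain ⟨φ', h', e⟩ := h1
  rw [← fr_inf (mem_lx h') e, ← Submodule.finrank_sup_span_singleton
    (p := Lx P K x ⊓ hyp y) (v := η) fun h => hη h.1]
  refine Submodule.finrank_mono (sup_le (fun ω hω => ?_) (by simpa using mem_lx hy))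
  exact hJ h' hy e hb ω hω.1 (by rw [dotProduct_comm]; exact hω.2)

/-- step (2): all centres have the same rank -/
theorem rank_eq (hP : Hy P) (hJ : CJ P K) {x φ y η : ι → F} (hx : SK P K x φ)
    (hy : SK P K y η) : finrank F (Lx P K x) = finrank F (Lx P K y) := by
  have hex : ∃ z ζ, SK P K z ζ ∧ ∀ u χ, SK P K u χ →
      finrank F (Lx P K u) ≤ finrank F (Lx P K z) := by
    classical
    have hb : ∃ m : ℕ, ∀ u χ, SK P K u χ → finrank F (Lx P K u) ≤ m :=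
      ⟨_, fun u _ _ => Submodule.finrank_le _⟩
    by_contra! hc
    have h1 := Nat.find_spec hb
    rcases Nat.eq_zero_or_eq_succ_pred (Nat.find hb) with e | e
    · obtain ⟨u, χ, hu, hlt⟩ := hc x φ hx
      have := h1 u χ hu
      omega
    · refine Nat.find_min hb (m := (Nat.find hb).pred) (by omega) fun u χ hu => ?_
      obtain ⟨u', χ', hu', hlt⟩ := hc u χ hu
      have := h1 u' χ' hu'
      omega
  obtain ⟨z, ζ, hz, hmax⟩ := hex
  let S : Set (ι → F) := {u | (∃ χ, SK P K u χ) ∧ finrank F (Lx P K u) = finrank F (Lx P K z)}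
  have k : ∀ u χ, SK P K u χ → ∀ w ∈ S, χ ⬝ᵥ w ≠ 0 → u ∈ S := fun u χ hu w hw e => by
    obtain ⟨⟨ψ, hψ⟩, h2⟩ := hw
    exact ⟨⟨χ, hu⟩, (step hJ hψ hu e (h2 ▸ hmax u χ hu)).2.trans h2⟩
  have hS : Submodule.span F S = ⊤ := by
    refine hP.span_c ⟨z, ζ, hz⟩ (fun h => hz.1 ?_) fun u χ hu w hw e => ?_
    · exact (Submodule.eq_bot_iff _).1 h z (Submodule.subset_span ⟨⟨ζ, hz⟩, rfl⟩)
    · by_contra hc
      exact e ((Submodule.span_le.2 fun w hw => by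
        by_contra h; exact hc (Submodule.subset_span (k u χ hu w hw h)) : _ ≤ hyp χ) hw)
  have all : ∀ u χ, SK P K u χ → finrank F (Lx P K u) = finrank F (Lx P K z) := fun u χ hu => by
    by_contra hc
    exact hu.2.1 (eq_zero_of_span hS fun w hw => by
      by_contra h; exact hc (k u χ hu w hw h).2)
  rw [all x φ hx, all y η hy]

theorem symm (hP : Hy P) (hJ : CJ P K) {x φ y η : ι → F} (hx : SK P K x φ)
    (hy : SK P K y η) (hb : η ⬝ᵥ x ≠ 0) : ∃ φ', SK P K x φ' ∧ φ' ⬝ᵥ y ≠ 0 :=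
  (step hJ hx hy hb (rank_eq hP hJ hy hx).le).1

/-- neighbouring centres -/
theorem inf_eq (hP : Hy P) (hJ : CJ P K) {x φ y η : ι → F} (hx : SK P K x φ)
    (hy : SK P K y η) (hb : η ⬝ᵥ x ≠ 0) :
    finrank F ↥(Lx P K x ⊓ Lx P K y) + 1 = finrank F (Lx P K x) := by
  obtain ⟨φ', h', e⟩ := symm hP hJ hx hy hb
  rw [← fr_inf (mem_lx h') e]
  suffices hs : Lx P K x ⊓ Lx P K y = Lx P K x ⊓ hyp y by rw [hs]
  refine le_antisymm (inf_le_inf_left _ (lx_le y)) fun ω hω => ⟨hω.1, ?_⟩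
  exact hJ h' hy e hb ω hω.1 (by rw [dotProduct_comm]; exact hω.2)

end GEOx

theorem cj_of_wk (hW : Wk P K) : CJ P K := by
  intro x φ y η hx hy ha hb ω hω h0
  have key : ∀ ω ∈ Lx P K x, ω - (ω ⬝ᵥ y / φ ⬝ᵥ y) • φ ∈ Lx P K y := by
    intro ω hω
    refine Submodule.span_induction (p := fun ω _ => ω - (ω ⬝ᵥ y / φ ⬝ᵥ y) • φ ∈ Lx P K y)
      (fun ψ (hψ : SK P K x ψ) => ?_) (by simp) (fun a b _ _ h1 h2 => ?_) (fun c a _ h1 => ?_) hω
    · have hk : ψ ⬝ᵥ y / φ ⬝ᵥ y ∈ K := by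
        have := K.div_mem (hW hψ hy) (hW hx hy)
        rwa [mul_div_mul_right _ _ hb] at this
      by_cases e : ψ - (ψ ⬝ᵥ y / φ ⬝ᵥ y) • φ = 0
      · rw [e]; exact Submodule.zero_mem _
      have hs : SK P K x (ψ - (ψ ⬝ᵥ y / φ ⬝ᵥ y) • φ) := by
        by_cases e0 : ψ ⬝ᵥ y / φ ⬝ᵥ y = 0
        · rwa [e0, zero_smul, sub_zero]
        · rw [sub_eq_add_neg] at e ⊢
          exact hψ.add (hx.smul hk e0).neg e
      refine GEOx.mem_of_nil hs hy ?_ hb
      rw [sub_dotProduct, smul_dotProduct, smul_eq_mul, div_mul_cancel₀ _ ha, sub_self]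
    · convert Submodule.add_mem _ h1 h2 using 1
      rw [add_dotProduct, add_div, add_smul]; abel
    · convert Submodule.smul_mem _ c h1 using 1
      rw [smul_dotProduct, smul_eq_mul, smul_sub, smul_smul, mul_div_assoc]
  simpa [h0] using key ω hω

theorem geo (hP : Hy P) (hJ : CJ P K) {x₀ : ι → F} (h2 : Two P K x₀) {x φ ω : ι → F}
    (hx : SK P K x φ) (hω : ω ⬝ᵥ x = 0) : ω ∈ Lx P K x := by
  open GEOx Module in
  have hne : ∃ v φ, SK P K v φ := ⟨x, φ, hx⟩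
  obtain ⟨y, η, hy, hb⟩ := hP.exists_axis hne hx.1
  have hr : 2 ≤ finrank F (Lx P K x) := by
    obtain ⟨φ₀, -, h0, -⟩ := id h2
    exact rank_eq hP hJ h0 hx ▸ two_le h2
  have hH := inf_eq hP hJ hx hy hb
  have hxy := rank_eq hP hJ hx hy
  obtain ⟨h, hh, h0⟩ : ∃ h ∈ Lx P K x ⊓ Lx P K y, h ≠ 0 := by
    refine (Submodule.ne_bot_iff _).1 fun e => ?_
    rw [e, finrank_bot] at hH
    omega
  have htop : Lx P K x ⊔ Lx P K y = ⊤ := by
    refine eq_top_iff.2 ?_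
    rw [← hP.span_nb' hne h0]
    refine Submodule.span_le.2 ?_
    rintro ζ ⟨z, hz, e⟩
    obtain ⟨φ1, h1, e1⟩ := exists_of_mem hh.1 e
    obtain ⟨η1, h1', e1'⟩ := exists_of_mem hh.2 e
    have a1 := inf_eq hP hJ hz h1 e1
    have a2 := inf_eq hP hJ hz h1' e1'
    have a3 := fr_inf hh e
    have a4 := Submodule.finrank_sup_add_finrank_inf_eq (Lx P K z ⊓ Lx P K x) (Lx P K z ⊓ Lx P K y)
    have a5 : finrank F ↥((Lx P K z ⊓ Lx P K x) ⊓ (Lx P K z ⊓ Lx P K y)) ≤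
        finrank F ↥((Lx P K x ⊓ Lx P K y) ⊓ hyp z) :=
      Submodule.finrank_mono fun w hw => ⟨⟨hw.1.2, hw.2.2⟩, lx_le z hw.1.1⟩
    have a6 := rank_eq hP hJ hx hz
    have a7 : (Lx P K z ⊓ Lx P K x) ⊔ (Lx P K z ⊓ Lx P K y) = Lx P K z :=
      Submodule.eq_of_le_of_finrank_le (sup_le inf_le_left inf_le_left) (by omega)
    exact (sup_le_sup inf_le_right inf_le_right : _ ≤ Lx P K x ⊔ Lx P K y) (a7 ▸ mem_lx hz)
  have b1 := Submodule.finrank_sup_add_finrank_inf_eq (Lx P K x) (Lx P K y)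
  have b2 := fr_inf (W := ⊤) (Submodule.mem_top (x := η)) hb
  rw [top_inf_eq] at b2
  rw [htop] at b1
  have : Lx P K x = hyp x := Submodule.eq_of_le_of_finrank_le (lx_le x) (by omega)
  rw [this, mem_hyp, dotProduct_comm, hω]

end CfsgLib.TvN
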