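import Mathlib
import Cfsg.Agent.Lib.TvN.Geo

/-! The linear case.  See `plans/TVN.md`. -/

set_option autoImplicit false

namespace CfsgLib.TvN

open Matrix Cfsg Cfsg.Geo CfsgLib.Asch
open scoped MatrixGroups commutatorElement

variable {ι : Type} [Fintype ι] [DecidableEq ι] {F : Type*} [Field F]
  {P : Subgroup (GL ι F)} {K : Subfield F}

namespace LINx

/-- every centre has all of its dual hyperplane spanned by axes -/
def G (P : Subgroup (GL ι F)) (K : Subfield F) : Prop :=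
  ∀ ⦃x φ : ι → F⦄, SK P K x φ → ∀ ω, ω ⬝ᵥ x = 0 → ω ∈ Lx P K x

/-- all axes at `x` take values in `K` on `y` -/
def Nm (P : Subgroup (GL ι F)) (K : Subfield F) (x y : ι → F) : Prop :=
  ∀ φ, SK P K x φ → φ ⬝ᵥ y ∈ K

theorem kill (hG : G P K) {x φ v : ι → F} (hx : SK P K x φ)
    (h : ∀ ψ, SK P K x ψ → ψ ⬝ᵥ v = 0) : ∃ c : F, v = c • x := by
  have k : ∀ ω, ω ⬝ᵥ x = 0 → ω ⬝ᵥ v = 0 := fun ω hω => by
    by_contra e
    obtain ⟨ψ, h1, h2⟩ := GEOx.exists_of_mem (hG hx ω hω) e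
    exact h2 (h ψ h1)
  obtain ⟨i, hi⟩ := Function.ne_iff.1 hx.1
  simp only [Pi.zero_apply] at hi
  refine ⟨v i / x i, funext fun j => ?_⟩
  have := k (Pi.single j (x i) - Pi.single i (x j)) (by simp [sub_dotProduct, mul_comm])
  simp only [sub_dotProduct, single_dotProduct] at this
  rw [Pi.smul_apply, smul_eq_mul]
  field_simp
  linear_combination this

theorem ex (hG : G P K) {x φ v : ι → F} (hx : SK P K x φ) (h : ∀ c : F, v ≠ c • x) :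
    ∃ ψ, SK P K x ψ ∧ ψ ⬝ᵥ v ≠ 0 := by
  by_contra! hc
  obtain ⟨c, e⟩ := kill hG hx hc
  exact h c e

omit [Fintype ι] [DecidableEq ι] in
theorem npar {x y : ι → F} (hx : x ≠ 0) (h : ∀ c : F, y ≠ c • x) (c : F) : x ≠ c • y :=
  fun e => by
    by_cases h0 : c = 0
    · exact hx (by rw [e, h0, zero_smul])
    · exact h c⁻¹ (by rw [e, smul_smul, inv_mul_cancel₀ h0, one_smul])

theorem nm_par {x : ι → F} (c : F) : Nm P K x (c • x) := fun φ h => by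
  rw [dotProduct_smul, h.dot, smul_zero]; exact K.zero_mem

theorem nm_of' (hW : Wk P K) {x φ y : ι → F} (hx : SK P K x φ) (h1 : φ ⬝ᵥ y ∈ K)
    (h0 : φ ⬝ᵥ y ≠ 0) : Nm P K y x := fun η hy => by
  have := K.div_mem (hW hx hy) h1
  rwa [mul_div_cancel_left₀ _ h0] at this

theorem Nm.symm (hG : G P K) (hW : Wk P K) {x φ y : ι → F} (hx : SK P K x φ)
    (h : Nm P K x y) : Nm P K y x := by
  by_cases e : ∃ c : F, y = c • x
  · obtain ⟨c, rfl⟩ := e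
    intro η hy
    by_cases h0 : c = 0
    · exact absurd (by rw [h0, zero_smul]) hy.1
    · have := hy.dot
      rw [dotProduct_smul, smul_eq_mul] at this
      rw [(mul_eq_zero.1 this).resolve_left h0]
      exact K.zero_mem
  · push Not at e
    obtain ⟨ψ, h1, h2⟩ := ex hG hx e
    exact nm_of' hW h1 (h ψ h1) h2

theorem nm_of (hG : G P K) (hW : Wk P K) {x φ y η : ι → F} (hx : SK P K x φ) (hy : SK P K y η)
    (h1 : φ ⬝ᵥ y ∈ K) (h0 : φ ⬝ᵥ y ≠ 0) : Nm P K x y :=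
  (nm_of' hW hx h1 h0).symm hG hW hy

theorem sub_ax {x φ ψ : ι → F} (h1 : SK P K x φ) (h2 : SK P K x ψ) {k : F} (hk : k ∈ K)
    (e : ψ - k • φ ≠ 0) : SK P K x (ψ - k • φ) := by
  by_cases e0 : k = 0
  · rwa [e0, zero_smul, sub_zero]
  · rw [sub_eq_add_neg] at e ⊢
    exact h2.add (h1.smul hk e0).neg e

theorem transfer (hG : G P K) (hW : Wk P K) {b ψ y η : ι → F} (hb : SK P K b ψ)
    (hy : SK P K y η) (hn : Nm P K b y) (hp : ∀ c : F, y ≠ c • b) (h0 : ψ ⬝ᵥ y = 0) :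
    SK P K y ψ := by
  obtain ⟨η', h1, h2⟩ := ex hG hy (npar hb.1 hp)
  have := (h1.comm hb h0 h2).smul (K.inv_mem (hn.symm hG hW hb η' h1)) (inv_ne_zero h2)
  rwa [smul_smul, inv_mul_cancel₀ h2, one_smul] at this

theorem tri (hG : G P K) (hW : Wk P K) {b β y η y' η' : ι → F} (hb : SK P K b β)
    (hy : SK P K y η) (hy' : SK P K y' η') (hn : Nm P K b y) (hn' : Nm P K b y')
    (hp : ∀ c : F, y ≠ c • b) : Nm P K y y' ∨ ∃ c d : F, y' = c • y + d • b := by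
  by_cases e : ∃ ψ, SK P K b ψ ∧ ψ ⬝ᵥ y = 0 ∧ ψ ⬝ᵥ y' ≠ 0
  · obtain ⟨ψ, h1, h2, h3⟩ := e
    exact Or.inl (nm_of hG hW (transfer hG hW h1 hy hn hp h2) hy' (hn' ψ h1) h3)
  push Not at e
  obtain ⟨φ, h1, h2⟩ := ex hG hb hp
  obtain ⟨d, hd⟩ := kill hG hb (v := y' - (φ ⬝ᵥ y' / φ ⬝ᵥ y) • y) fun ψ hψ => by
    have h3 : (ψ - (ψ ⬝ᵥ y / φ ⬝ᵥ y) • φ) ⬝ᵥ y' = 0 := by
      by_cases e0 : ψ - (ψ ⬝ᵥ y / φ ⬝ᵥ y) • φ = 0
      · rw [e0, zero_dotProduct]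
      · refine e _ (sub_ax h1 hψ (K.div_mem (hn ψ hψ) (hn φ h1)) e0) ?_
        rw [sub_dotProduct, smul_dotProduct, smul_eq_mul, div_mul_cancel₀ _ h2, sub_self]
    rw [sub_dotProduct, smul_dotProduct, smul_eq_mul] at h3
    rw [dotProduct_sub, dotProduct_smul, smul_eq_mul]
    linear_combination h3
  exact Or.inr ⟨φ ⬝ᵥ y' / φ ⬝ᵥ y, d, by rw [← hd]; simp⟩

theorem nm_of_common (hP : Hy P) (hG : G P K) (hW : Wk P K) {y y' ψ : ι → F}
    (hy : SK P K y ψ) (hy' : SK P K y' ψ) : Nm P K y y' := by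
  obtain ⟨z, ζ, hz, e⟩ := hP.exists_centre ⟨y, ψ, hy⟩ hy.2.1
  have hz' := hz.scale (inv_ne_zero e)
  have e1 : ψ ⬝ᵥ ((ψ ⬝ᵥ z)⁻¹ • z) = 1 := by rw [dotProduct_smul, smul_eq_mul, inv_mul_cancel₀ e]
  rcases tri hG hW hz' hy hy' (nm_of' hW hy (e1 ▸ K.one_mem) (e1 ▸ one_ne_zero))
    (nm_of' hW hy' (e1 ▸ K.one_mem) (e1 ▸ one_ne_zero)) (fun c hc => by
      have := hy.dot
      rw [hc, dotProduct_smul, e1, smul_eq_mul, mul_one] at this
      exact hy.1 (by rw [hc, this, zero_smul])) with h | ⟨c, d, h⟩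
  · exact h
  · have := hy'.dot
    rw [h, dotProduct_add, dotProduct_smul, hy.dot, dotProduct_smul d, e1] at this
    simp only [smul_eq_mul, mul_zero, mul_one, zero_add] at this
    rw [h, this, zero_smul, add_zero]
    exact nm_par c

theorem field_top [Finite F] (hP : Hy P) (hG : G P K) (hW : Wk P K) {x₀ : ι → F}
    (h2 : Two P K x₀) : K = ⊤ := by
  obtain ⟨φ₀, ψ₀, h0, h0', hi⟩ := h2
  have hne : ∃ v φ, SK P K v φ := ⟨x₀, φ₀, h0⟩
  let S : Set (ι → F) := {y | (∃ η, SK P K y η) ∧ Nm P K x₀ y ∧ (y = x₀ ∨ ∀ c : F, y ≠ c • x₀)}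
  have hx : x₀ ∈ S := ⟨⟨φ₀, h0⟩, by simpa using nm_par (P := P) (K := K) (x := x₀) 1, Or.inl rfl⟩
  have hS : ∀ y ∈ S, ∀ y' ∈ S, Nm P K y y' := by
    rintro y ⟨⟨η, hy⟩, hn, rfl | hp⟩ y' ⟨⟨η', hy'⟩, hn', hp'⟩
    · exact hn'
    rcases hp' with rfl | hp'
    · exact hn.symm hG hW h0
    rcases tri hG hW h0 hy hy' hn hn' hp with h | ⟨c, d, h⟩
    · exact h
    obtain ⟨ψ, h1, h3⟩ : ∃ ψ, SK P K x₀ ψ ∧ ψ ⬝ᵥ y = 0 := by
      by_cases e : φ₀ ⬝ᵥ y = 0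
      · exact ⟨φ₀, h0, e⟩
      · refine ⟨_, sub_ax h0 h0' (K.div_mem (hn _ h0') (hn _ h0)) (sub_ne_zero.2 (hi _)), ?_⟩
        rw [sub_dotProduct, smul_dotProduct, smul_eq_mul, div_mul_cancel₀ _ e, sub_self]
    refine nm_of_common hP hG hW (transfer hG hW h1 hy hn hp h3)
      (transfer hG hW h1 hy' hn' hp' ?_)
    rw [h, dotProduct_add, dotProduct_smul, dotProduct_smul, h3, h1.dot, smul_zero, smul_zero,
      add_zero]
  have sc : ∀ u χ, SK P K u χ → ∃ c : F, c ≠ 0 ∧ c • u ∈ S := fun u χ hu => by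
    by_cases e : ∃ c : F, u = c • x₀
    · obtain ⟨c, rfl⟩ := e
      have hc : c ≠ 0 := fun e => hu.1 (by rw [e, zero_smul])
      exact ⟨c⁻¹, inv_ne_zero hc, by rwa [smul_smul, inv_mul_cancel₀ hc, one_smul]⟩
    · push Not at e
      obtain ⟨φ, h1, h3⟩ := ex hG h0 e
      have e1 : φ ⬝ᵥ ((φ ⬝ᵥ u)⁻¹ • u) = 1 := by
        rw [dotProduct_smul, smul_eq_mul, inv_mul_cancel₀ h3]
      have hu' := hu.scale (inv_ne_zero h3)
      refine ⟨_, inv_ne_zero h3, ⟨_, hu'⟩,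
        nm_of hG hW h1 hu' (e1 ▸ K.one_mem) (e1 ▸ one_ne_zero), Or.inr fun c hc => ?_⟩
      rw [hc, dotProduct_smul, h1.dot, smul_zero] at e1
      exact zero_ne_one e1
  refine hP.eq_top hne (S := S) (Φ := {φ | ∃ y ∈ S, SK P K y φ}) ?_ ?_ ?_ ?_
  · refine eq_top_iff.2 ?_
    rw [← hP.span_nb hne h0.1]
    refine Submodule.span_le.2 ?_
    rintro u ⟨χ, hu, -⟩
    obtain ⟨c, hc, h⟩ := sc u χ hu
    exact (Submodule.smul_mem_iff _ hc).1 (Submodule.subset_span h)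
  · refine eq_top_iff.2 ?_
    rw [← hP.span_nb' hne h0.1]
    refine Submodule.span_le.2 ?_
    rintro χ ⟨u, hu, -⟩
    obtain ⟨c, hc, h⟩ := sc u χ hu
    exact (Submodule.smul_mem_iff _ (inv_ne_zero hc)).1
      (Submodule.subset_span ⟨_, h, hu.scale hc⟩)
  · rintro φ ⟨y, hy, h⟩ v hv
    exact hS y hy v hv φ h
  · rintro u χ hu φ ⟨y, hy, h⟩ v hv
    obtain ⟨c, hc, h1⟩ := sc u χ hu
    have := K.mul_mem (hS y hy _ h1 φ h) (hS _ h1 v hv _ (hu.scale hc))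
    rw [dotProduct_smul, smul_dotProduct, smul_eq_mul, smul_eq_mul] at this
    convert this using 1
    field_simp

end LINx

theorem lin [Finite F] (hP : Hy P) (hW : Wk P K) {x₀ : ι → F} (h2 : Two P K x₀) :
    specialLinear ι F ≤ P := by
  have hG : LINx.G P K := fun _ _ hx _ hω => geo hP (cj_of_wk hW) h2 hx hω
  obtain rfl := LINx.field_top hP hG hW h2
  obtain ⟨φ₀, -, h0, -⟩ := h2
  have hne : ∃ v φ, SK P ⊤ v φ := ⟨x₀, φ₀, h0⟩
  have h1 : ∀ x φ, SK P ⊤ x φ → ∀ ω, ω ⬝ᵥ x = 0 → Tv P x ω := fun x φ hx ω hω => by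
    have : ∀ c : F, Tv P x (c • ω) :=
      Submodule.span_induction (p := fun ω _ => ∀ c : F, Tv P x (c • ω))
        (fun ψ (hψ : SK P ⊤ x ψ) c => hψ.2.2 c trivial)
        (fun c => by simpa using tv_zero_right P x)
        (fun a b _ _ ha hb c => by rw [smul_add]; exact (ha c).add (hb c))
        (fun a b _ hb c => by rw [smul_smul]; exact hb _) (hG hx ω hω)
    simpa using this 1
  have h3 : ∀ v : ι → F, v = 0 ∨ ∃ φ, SK P ⊤ v φ := fun v => by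
    have hv : v ∈ Submodule.span F {y | ∃ η, SK P ⊤ y η ∧ η ⬝ᵥ x₀ ≠ 0} := by
      rw [hP.span_nb hne h0.1]; trivial
    have sm : ∀ (c : F) (v : ι → F), (v = 0 ∨ ∃ φ, SK P ⊤ v φ) →
        (c • v = 0 ∨ ∃ φ, SK P ⊤ (c • v) φ) := by
      rintro c v (rfl | ⟨φ, h⟩)
      · simp
      · by_cases hc : c = 0
        · simp [hc]
        · exact Or.inr ⟨_, h.scale hc⟩
    refine Submodule.span_induction (p := fun v _ => v = 0 ∨ ∃ φ, SK P ⊤ v φ)
      (fun y hy => Or.inr (hy.imp fun _ h => h.1)) (Or.inl rfl) ?_ (fun c v _ h => sm c v h) hv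
    rintro x y - - (rfl | ⟨φ, hx⟩) hy
    · rwa [zero_add]
    rcases hy with rfl | ⟨η, hy⟩
    · rw [add_zero]; exact Or.inr ⟨φ, hx⟩
    by_cases e : ∃ c : F, y = c • x
    · obtain ⟨c, rfl⟩ := e
      have := sm (1 + c) x (Or.inr ⟨φ, hx⟩)
      rwa [add_smul, one_smul] at this
    · push Not at e
      obtain ⟨ψ, hψ, e1⟩ := LINx.ex hG hx e
      have := hy.conj_c hψ (c := (ψ ⬝ᵥ y)⁻¹) trivial
      rw [inv_mul_cancel₀ e1, one_smul, add_comm] at this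
      exact Or.inr ⟨_, this⟩
  refine sl_le_of_tv fun v ω hω => ?_
  rcases h3 v with rfl | ⟨φ, h⟩
  · exact tv_zero_left P ω
  · exact h1 v φ h ω hω

end CfsgLib.TvN
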