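import Mathlib
import Cfsg.Agent.Lib.TvN.Geo
import Cfsg.Agent.Lib.TvN.Dc

/-! Root groups of order two, a centre with two axes.  See `plans/TVN.md`. -/

set_option autoImplicit false

namespace CfsgLib.TvN

open Matrix Cfsg Cfsg.Geo CfsgLib.Asch
open scoped MatrixGroups commutatorElement

variable {ι : Type} [Fintype ι] [DecidableEq ι] {F : Type*} [Field F]
  {P : Subgroup (GL ι F)} {K : Subfield F}

theorem cj_two [Finite F] (h2 : (2 : F) = 0) : CJ P ⊥ := by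
  intro x φ y η hx hy ha hb ω hω hωy
  have hωx : ω ⬝ᵥ x = 0 := by
    have : Lx P ⊥ x ≤ hyp x := Submodule.span_le.2 fun θ hθ => by
      rw [SetLike.mem_coe, mem_hyp, dotProduct_comm]; exact SK.dot hθ
    rw [dotProduct_comm]; exact this hω
  obtain ⟨n, ⟨hn, hn'⟩, -, -, c, hc, e1, -⟩ := dc h2
    (hx.tv.inf_fixD (S := {ω}) (by simpa using hωx)) (hy.tv.inf_fixD (S := {ω}) (by simpa using hωy))
    ha hb
  have key : ∀ θ ∈ Lx P ⊥ x, θ ᵥ* ((n⁻¹ : GL ι F) : Matrix ι ι F) ∈ Lx P ⊥ y := fun θ hθ => by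
    refine Submodule.span_induction (p := fun θ _ => θ ᵥ* ((n⁻¹ : GL ι F) : Matrix ι ι F) ∈ Lx P ⊥ y)
      (fun θ hθ => ?_) (by simp) (fun a b _ _ ha hb => by rw [add_vecMul]; exact add_mem ha hb)
      (fun d a _ ha => by rw [smul_vecMul]; exact Submodule.smul_mem _ d ha) hθ
    have := SK.conj hθ hn
    rw [e1, sk_smul_iff hc] at this
    exact (Submodule.smul_mem_iff _ hc).1 (Submodule.subset_span this)
  have := key ω hω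
  rwa [(fixD {ω}).inv_mem hn' ω rfl] at this

namespace Smwx

variable {x y η : ι → F}

theorem swap [Finite F] (h2 : (2 : F) = 0) (hy : SK P ⊥ y η) (h1 : η ⬝ᵥ x = 1) {ψ : ι → F}
    (hψ : SK P ⊥ x ψ) (h0 : ψ ⬝ᵥ y ≠ 0) :
    ∃ n ∈ P ⊓ fixD {ω | ω ⬝ᵥ x = 0 ∧ ω ⬝ᵥ y = 0}, ∃ c : F, c ≠ 0 ∧ c * c * ψ ⬝ᵥ y = 1 ∧
      (n : Matrix ι ι F) *ᵥ x = c • y ∧ (n : Matrix ι ι F) *ᵥ y = c⁻¹ • x := by
  obtain ⟨n, hn, -, -, c, hc, e1, e2, -, e4⟩ := dc h2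
    (hψ.tv.inf_fixD (S := {ω | ω ⬝ᵥ x = 0 ∧ ω ⬝ᵥ y = 0}) fun ω h => h.1)
    (hy.tv.inf_fixD (S := {ω | ω ⬝ᵥ x = 0 ∧ ω ⬝ᵥ y = 0}) fun ω h => h.2) h0 (by rw [h1]; simp)
  refine ⟨n, hn, c, hc, ?_, e1, e2⟩
  have := dotProduct_mulVec η (n : Matrix ι ι F) y
  rw [e2, e4, dotProduct_smul, smul_dotProduct, h1, smul_eq_mul, smul_eq_mul, mul_one] at this
  rw [mul_assoc, ← this, mul_inv_cancel₀ hc]

theorem step [Finite F] (h2 : (2 : F) = 0) (hy : SK P ⊥ y η) (h1 : η ⬝ᵥ x = 1) {θ₁ θ₂ : ι → F}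
    (a1 : SK P ⊥ x θ₁) (b1 : θ₁ ⬝ᵥ y ≠ 0) (a2 : SK P ⊥ x θ₂) (b2 : θ₂ ⬝ᵥ y ≠ 0) :
    ∃ (g : GL ι F) (l : F), (∀ ω, ω ⬝ᵥ x = 0 → ω ⬝ᵥ y = 0 → ω ᵥ* (g : Matrix ι ι F) = ω) ∧
      ∀ θ, SK P ⊥ x θ → SK P ⊥ x (l • θ ᵥ* (g : Matrix ι ι F)) ∧
        (l • θ ᵥ* (g : Matrix ι ι F)) ⬝ᵥ y * θ₂ ⬝ᵥ y = θ₁ ⬝ᵥ y * θ ⬝ᵥ y := by
  obtain ⟨n, hn, c, hc, c1, n1, n2⟩ := swap h2 hy h1 a1 b1
  obtain ⟨m, hm, d, hd, d1, m1, m2⟩ := swap h2 hy h1 a2 b2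
  have hh := mul_mem hn hm
  have hl : d * c⁻¹ ≠ 0 := mul_ne_zero hd (inv_ne_zero hc)
  have e1 : ((n * m : GL ι F) : Matrix ι ι F) *ᵥ x = (d * c⁻¹) • x := by
    rw [Units.val_mul, ← mulVec_mulVec, m1, mulVec_smul, n2, smul_smul]
  have e2 : ((n * m : GL ι F) : Matrix ι ι F) *ᵥ ((d * c⁻¹) • y) = y := by
    rw [Units.val_mul, ← mulVec_mulVec, mulVec_smul, mulVec_smul, m2, mulVec_smul, n1, smul_smul,
      smul_smul, show d * c⁻¹ * d⁻¹ * c = 1 by field_simp, one_smul]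
  have e3 : (((n * m)⁻¹ : GL ι F) : Matrix ι ι F) *ᵥ y = (d * c⁻¹) • y := by
    conv_lhs => rw [← e2]
    exact inv_mulVec_mulVec _ _
  refine ⟨(n * m)⁻¹, d * c⁻¹, fun ω o1 o2 => (inv_mem hh).2 ω ⟨o1, o2⟩, fun θ hθ => ⟨?_, ?_⟩⟩
  · have := hθ.conj hh.1
    rwa [e1, sk_smul_iff hl] at this
  · rw [smul_dotProduct, ← dotProduct_mulVec, e3, dotProduct_smul, smul_eq_mul, smul_eq_mul]
    have e4 : θ₁ ⬝ᵥ y = c⁻¹ * c⁻¹ := by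
      field_simp
      linear_combination c1
    rw [e4]
    linear_combination (c⁻¹ * c⁻¹ * θ ⬝ᵥ y) * d1

theorem span_two [Finite F] (h2 : (2 : F) = 0) (hy : SK P ⊥ y η) (h1 : η ⬝ᵥ x = 1) {φ : ι → F}
    (hφ : SK P ⊥ x φ) (h0 : ∀ θ, SK P ⊥ x θ → θ ⬝ᵥ y ≠ 0) :
    ∃ χ, Lx P ⊥ x ≤ Submodule.span F {φ, χ} := by
  have ha := h0 φ hφ
  have inj : ∀ θ θ', SK P ⊥ x θ → SK P ⊥ x θ' → θ ⬝ᵥ y = θ' ⬝ᵥ y → θ = θ' := fun θ θ' a b e => by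
    by_contra hne
    refine h0 _ (a.add b.neg (by rwa [← sub_eq_add_neg, sub_ne_zero])) ?_
    rw [add_dotProduct, neg_dotProduct, e, add_neg_cancel]
  let M : Subgroup Fˣ :=
    { carrier := {u | ∃ θ, SK P ⊥ x θ ∧ θ ⬝ᵥ y = u * φ ⬝ᵥ y}
      one_mem' := ⟨φ, hφ, by simp⟩
      mul_mem' := by
        rintro u v ⟨θ, a, e⟩ ⟨θ', a', e'⟩
        obtain ⟨g, l, -, k⟩ := step h2 hy h1 a (h0 θ a) hφ ha
        refine ⟨_, (k θ' a').1, mul_right_cancel₀ ha ?_⟩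
        rw [(k θ' a').2, e, e', Units.val_mul]; ring
      inv_mem' := by
        rintro u ⟨θ, a, e⟩
        obtain ⟨g, l, -, k⟩ := step h2 hy h1 hφ ha a (h0 θ a)
        refine ⟨_, (k φ hφ).1, mul_right_cancel₀ (h0 θ a) ?_⟩
        rw [(k φ hφ).2, e, Units.val_inv_eq_inv_val]
        field_simp }
  obtain ⟨⟨u, θ₁, a1, e1⟩, hu⟩ := IsCyclic.exists_monoid_generator (α := M)
  obtain ⟨g, l, hg, k⟩ := step h2 hy h1 a1 (h0 θ₁ a1) hφ ha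
  refine ⟨φ ᵥ* (g : Matrix ι ι F), Submodule.span_le.2 fun θ hθ => ?_⟩
  have m1 : φ ∈ Submodule.span F {φ, φ ᵥ* (g : Matrix ι ι F)} := Submodule.subset_span (by simp)
  have m2 : φ ᵥ* (g : Matrix ι ι F) ∈ Submodule.span F {φ, φ ᵥ* (g : Matrix ι ι F)} :=
    Submodule.subset_span (by simp)
  have key : ∀ i : ℕ, ∃ θ, SK P ⊥ x θ ∧ θ ⬝ᵥ y = (u : F) ^ i * φ ⬝ᵥ y ∧
      θ ∈ Submodule.span F {φ, φ ᵥ* (g : Matrix ι ι F)} := fun i => by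
    induction i with
    | zero => exact ⟨φ, hφ, by simp, m1⟩
    | succ i ih =>
      obtain ⟨θ, a, e, hm⟩ := ih
      refine ⟨_, (k θ a).1, mul_right_cancel₀ ha (by rw [(k θ a).2, e1, e]; ring),
        Submodule.smul_mem _ _ ?_⟩
      have := hg (θ - (θ ⬝ᵥ y / φ ⬝ᵥ y) • φ) (by simp [a.dot, hφ.dot]) (by simp [ha])
      rw [sub_vecMul, smul_vecMul, sub_eq_iff_eq_add] at this
      rw [this]
      exact add_mem (sub_mem hm (Submodule.smul_mem _ _ m1)) (Submodule.smul_mem _ _ m2)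
  obtain ⟨i, hi⟩ := hu ⟨Units.mk0 (θ ⬝ᵥ y / φ ⬝ᵥ y) (div_ne_zero (h0 θ hθ) ha), θ, hθ, by simp [ha]⟩
  have hi' : (u : F) ^ i = θ ⬝ᵥ y / φ ⬝ᵥ y := by
    have := congrArg (fun z : M => ((z : Fˣ) : F)) hi
    simpa using this
  obtain ⟨θ', a, e, hm⟩ := key i
  rwa [inj θ θ' hθ a (by rw [e, hi', div_mul_cancel₀ _ ha])]

end Smwx

theorem smw [Finite F] (hP : Hy P) (hn : 4 ≤ Fintype.card ι) (h2 : (2 : F) = 0) (hS : Small P)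
    {x₀ : ι → F} (hT : Two P ⊥ x₀) : Wk P ⊥ := by
  intro x φ y η hx hy
  by_cases ha : φ ⬝ᵥ y = 0
  · rw [ha, zero_mul]; exact zero_mem _
  by_cases hb : η ⬝ᵥ x = 0
  · rw [hb, mul_zero]; exact zero_mem _
  have hy' := hy.scale hb
  have h1 : ((η ⬝ᵥ x)⁻¹ • η) ⬝ᵥ x = 1 := by simp [hb]
  have e : φ ⬝ᵥ y * η ⬝ᵥ x = φ ⬝ᵥ ((η ⬝ᵥ x) • y) := by simp [mul_comm]
  rw [e]
  generalize (η ⬝ᵥ x) • y = y' at hy'
  generalize (η ⬝ᵥ x)⁻¹ • η = η' at hy' h1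
  by_cases hc : ∃ ψ, SK P ⊥ x ψ ∧ ψ ⬝ᵥ y' = 0
  · obtain ⟨ψ, hψ, h0⟩ := hc
    have t1 := (hy'.comm hψ h0 (by rw [h1]; simp)).tv
    rw [h1, one_smul] at t1
    have t2 := t1.conj_tv hx.tv
    rw [hψ.dot, zero_smul, sub_zero] at t2
    have t3 := t2.sub' t1
    rw [add_sub_cancel_left, tv_smul_iff] at t3
    exact (mem_bot_iff_two h2).2 (hS hψ.1 hψ.2.1 hψ.tv t3)
  · exfalso
    push Not at hc
    obtain ⟨χ, hχ⟩ := Smwx.span_two h2 hy' h1 hx hc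
    have ht : Submodule.span F (Set.range ![φ, χ, η']) = ⊤ := eq_top_iff.2 fun ξ _ => by
      have h3 := hχ (geo hP (cj_two h2) hT hx (ω := ξ - (ξ ⬝ᵥ x) • η') (by simp [h1]))
      have h4 : Submodule.span F {φ, χ} ≤ Submodule.span F (Set.range ![φ, χ, η']) :=
        Submodule.span_mono (by
          rintro _ (rfl | rfl)
          exacts [⟨0, rfl⟩, ⟨1, rfl⟩])
      have h5 := add_mem (h4 h3) (Submodule.smul_mem _ (ξ ⬝ᵥ x) (Submodule.subset_span ⟨2, rfl⟩))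
      simpa using h5
    have h6 := finrank_range_le_card (R := F) ![φ, χ, η']
    rw [Set.finrank, ht, finrank_top, Module.finrank_fintype_fun_eq_card, Fintype.card_fin] at h6
    omega

end CfsgLib.TvN
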