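import Mathlib
import Cfsg.Agent.Lib.TvN.Big
import Cfsg.Agent.Lib.TvN.Lin
import Cfsg.Agent.Lib.TvN.Full
import Cfsg.Agent.Lib.TvN.Full2
import Cfsg.Agent.Lib.TvN.Smw
import Cfsg.Agent.Lib.TvN.Asy

/-! Quasisimple absolutely irreducible linear groups of degree 4 or 5 containing a transvection.
See `plans/TVN.md`. -/

set_option autoImplicit false

namespace CfsgLib.TvN

open Matrix Cfsg Cfsg.Geo CfsgLib.Asch
open scoped MatrixGroups

variable {ι : Type} [Fintype ι] [DecidableEq ι] {F : Type*} [Field F]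

theorem of_wk [Finite F] (hn : Fintype.card ι = 4 ∨ Fintype.card ι = 5) {P : Subgroup (GL ι F)}
    (hP : Hy P) {K : Subfield F} (hne : ∃ v φ, SK P K v φ) (hW : Wk P K) :
    specialLinear ι F ≤ P ∨ (∃ f, IsSymplecticForm f ∧ FixesForm (matrixSet P) f) ∨
      ∃ (σ : F ≃+* F) (f : (ι → F) → (ι → F) → F), IsUnitaryForm σ f ∧ FixesForm (matrixSet P) f ∧
        ∀ g ∈ specialLinear ι F, FixesForm {(g : Matrix ι ι F)} f → g ∈ P := by
  by_cases h2 : ∃ x, Two P K x
  · exact Or.inl (lin hP hW h2.choose_spec)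
  rcases form hP hne hW (noNil_of_not_two fun v h => h2 ⟨v, h⟩) with h | ⟨σ, f, hU⟩
  · exact Or.inr (Or.inl h)
  refine Or.inr (Or.inr ⟨σ, f, hU.form, hU.fix, su_le (by omega) hP hU ?_⟩)
  by_cases hc : ∃ c ∈ K, c ≠ 0 ∧ c ≠ 1
  · exact full_big hP hU hc
  · refine full_two hn hP hU fun c h => ?_
    by_contra! h'
    exact hc ⟨c, h, h'⟩

theorem tv {ι : Type} [Fintype ι] [DecidableEq ι] {F : Type*} [Field F] [Finite F]
    (hn : Fintype.card ι = 4 ∨ Fintype.card ι = 5) {H P : Subgroup (GL ι F)}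
    (hP : IsResidualCore H P) {v φ : ι → F} (hv : v ≠ 0) (hφ : φ ≠ 0) (h0 : φ ⬝ᵥ v = 0)
    (ht : 1 + vecMulVec v φ ∈ matrixSet P) :
    specialLinear ι F ≤ P ∨ (∃ f, IsSymplecticForm f ∧ FixesForm (matrixSet P) f) ∨
      ∃ (σ : F ≃+* F) (f : (ι → F) → (ι → F) → F), IsUnitaryForm σ f ∧ FixesForm (matrixSet P) f ∧
        ∀ g ∈ specialLinear ι F, FixesForm {(g : Matrix ι ι F)} f → g ∈ P := by
  have : Nonempty ι := Fintype.card_pos_iff.1 (by omega)
  have hy := hy_of_core hP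
  have ht : Tv P v φ := ⟨h0, ht⟩
  by_cases hS : Small P
  swap
  · obtain ⟨K, -, hne, hW⟩ := big_field hy (by omega) hS
    exact of_wk hn hy hne hW
  have h2 : (2 : F) = 0 := by
    rcases hS (c := -1) hv hφ ht (by simpa using ht.neg) with e | e
    · simp at e
    · linear_combination -e
  have hne : ∃ v φ, SK P ⊥ v φ := ⟨v, φ, sk_bot_iff.2 ⟨hv, hφ, ht⟩⟩
  by_cases hA : ∃ x, Two P ⊥ x
  · exact of_wk hn hy hne (smw hy (by omega) h2 hS hA.choose_spec)
  by_cases hC : ∃ x, Two (P.map invT) ⊥ x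
  · have hS' : Small (P.map invT) := fun v φ c hv hφ h1 h2 =>
      hS hφ hv (tv_invT.1 h1) (tv_smul_iff.1 (tv_invT.1 h2))
    have := lin hy.invT (smw hy.invT (by omega) h2 hS' hC.choose_spec) hC.choose_spec
    exact Or.inl fun g hg => by
      have := mem_map_invT.1 (this (invT_mem_sl hg))
      rwa [invT_invT] at this
  have hS2 : S2 P := ⟨h2, fun v φ ψ h1 h1' => by
      obtain ⟨c, rfl⟩ : ∃ c : F, ψ = c • φ := by
        by_contra! hc
        exact hA ⟨v, φ, ψ, h1, h1', hc⟩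
      rcases hS h1.1 h1.2.1 h1.tv h1'.tv with e | e
      · exact absurd (by rw [e, zero_smul]) h1'.2.1
      · rw [e, one_smul], fun v w φ h1 h1' => by
      obtain ⟨c, rfl⟩ : ∃ c : F, w = c • v := by
        by_contra! hc
        exact hC ⟨φ, v, w, sk_invT.2 h1, sk_invT.2 h1', hc⟩
      rcases hS h1.1 h1.2.1 h1.tv (tv_smul_iff.1 h1'.tv) with e | e
      · exact absurd (by rw [e, zero_smul]) h1'.1
      · rw [e, one_smul]⟩
  rcases asy hy (by omega) hS2 with h | h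
  · exact Or.inr (Or.inl h)
  · exact of_wk hn hy hne h

end CfsgLib.TvN
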